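import Cfsg.Agent.Char.Gallagher
import Cfsg.Agent.Char.AvgN
import Cfsg.Agent.Char.CentralChar
import Cfsg.Agent.H75.Tools
import Cfsg.Agent.H75.Inflate
import Cfsg.Agent.H75.Perm

set_option autoImplicit false
set_option linter.style.haveILetI false
set_option linter.unusedSectionVars false

/-!
# Groups with bounded character degrees (Isaacs, Theorem 12.23) (helper62)
-/

namespace Cfsg.Agent.H62.BD

open Cfsg Cfsg.Agent.Char Cfsg.Agent.CharBase Cfsg.Agent.H75 ComplexConjugate

universe u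

/-- All irreducible character degrees are at most `b`. -/
def BDeg (G : Type u) [Group G] [Finite G] (b : ℕ) : Prop := ∀ χ : IrrCharacter G, deg χ ≤ b

section

variable {G : Type u} [Group G] [Fintype G]

theorem BDeg.le {b n : ℕ} (h : BDeg G b) {χ : G → ℂ} (hχ : IsIrrCharacter G χ) (hn : χ 1 = n) : n ≤ b := by
  have h1 := h ⟨χ, hχ⟩
  have h2 := deg_spec (⟨χ, hχ⟩ : IrrCharacter G)
  have h3 : ((deg (⟨χ, hχ⟩ : IrrCharacter G) : ℕ) : ℂ) = (n : ℂ) := by rw [← h2, ← hn]
  rw [Nat.cast_inj] at h3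
  rw [← h3]; exact h1

/-- An irreducible character of maximal degree of a subgroup is the restriction of every character
above it. -/
theorem BDeg.restrict_eq {b : ℕ} (h : BDeg G b) {H : Subgroup G} [Fintype H] {ψ : H → ℂ}
    (hψ : IsIrrCharacter H ψ) (hb : ψ 1 = b) {χ : G → ℂ} (hχ : IsIrrCharacter G χ)
    (hne : classInner (fun x : H => χ x) ψ ≠ 0) : (fun x : H => χ x) = ψ := by
  obtain ⟨n, hn⟩ := exists_nat_degree (isCharacter_of_isIrr hχ)
  exact eq_of_degree_le (isCharacter_restrict (isCharacter_of_isIrr hχ) H) hψ hne hb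
    (n := n) (by simpa using hn) (h.le hχ hn)

theorem BDeg.exists_ext {b : ℕ} (h : BDeg G b) {H : Subgroup G} [Fintype H] {ψ : H → ℂ}
    (hψ : IsIrrCharacter H ψ) (hb : ψ 1 = b) :
    ∃ χ : G → ℂ, IsIrrCharacter G χ ∧ ∀ x : H, χ x = ψ x := by
  obtain ⟨χ, hχ, hne⟩ := exists_over H hψ
  exact ⟨χ, hχ, fun x => congrFun (h.restrict_eq hψ hb hχ hne) x⟩

theorem BDeg.indFun_eq {b : ℕ} (h : BDeg G b) {H : Subgroup G} [Fintype H] {ψ : H → ℂ}
    (hψ : IsIrrCharacter H ψ) (hb : ψ 1 = b) (x : H) : indFun H ψ x = H.index * ψ x := by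
  classical
  have : Fintype (IrrCharacter G) := Fintype.ofFinite _
  have hcl := indFun_isClassFunction H ψ
  have key : ∀ x : H, indFun H ψ x =
      (∑ χ : IrrCharacter G, classInner (indFun H ψ) (χ : G → ℂ)) * ψ x := by
    intro x
    rw [classFun_apply_eq_sum hcl (x : G), Finset.sum_mul]
    refine Finset.sum_congr rfl fun χ _ => ?_
    by_cases h0 : classInner (indFun H ψ) (χ : G → ℂ) = 0
    · rw [h0]; simp
    · have h1 : classInner (fun x : H => (χ : G → ℂ) x) ψ ≠ 0 := by
        rw [frobenius_reciprocity H ψ _ (irr_isClassFunction χ), classInner_comm_of_isCharacter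
          (isCharacter_of_isIrr hψ) (isCharacter_restrict (irr_isCharacter χ) H)] at h0
        exact h0
      have h2 := congrFun (h.restrict_eq hψ hb χ.2 h1) x
      rw [← h2]
  have h1 := key 1
  rw [Subgroup.coe_one, indFun_one_apply] at h1
  have h2 := mul_right_cancel₀ (irr_one_ne_zero hψ) h1
  rw [key x, ← h2]

/-- A character of maximal degree of a subgroup `H` vanishes off the core of `H`. -/
theorem BDeg.mem_of_ne_zero {b : ℕ} (h : BDeg G b) {H : Subgroup G} [Fintype H] {ψ : H → ℂ}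
    (hψ : IsIrrCharacter H ψ) (hb : ψ 1 = b) {x : H} (hx : ψ x ≠ 0) (g : G) :
    g * (x : G) * g⁻¹ ∈ H := by
  classical
  obtain ⟨χ, hχ, hext⟩ := h.exists_ext hψ hb
  have h1 := h.indFun_eq hψ hb x
  rw [indFun_apply'] at h1
  have h2 : ∀ y : G, extendByZero H ψ (y * x * y⁻¹) = if y * x * y⁻¹ ∈ H then ψ x else 0 := by
    intro y
    rw [extendByZero_eq_dite]
    split_ifs with hy
    · rw [← hext ⟨_, hy⟩, ← hext x]
      exact isClassFunction_of_isCharacter (isCharacter_of_isIrr hχ) _ _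
    · rfl
  rw [Finset.sum_congr rfl fun y _ => h2 y, ← Finset.sum_filter, Finset.sum_const, nsmul_eq_mul] at h1
  have hH : (Nat.card H : ℂ) ≠ 0 := by exact_mod_cast Nat.card_pos.ne'
  have h3 : (((Finset.univ.filter fun y : G => y * x * y⁻¹ ∈ H).card : ℕ) : ℂ) = (Nat.card G : ℂ) := by
    have h4 : (((Finset.univ.filter fun y : G => y * x * y⁻¹ ∈ H).card : ℕ) : ℂ) * ψ x =
        ((Nat.card H : ℂ) * H.index) * ψ x := by
      rw [mul_assoc, ← h1, ← mul_assoc, mul_inv_cancel₀ hH, one_mul]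
    have h5 := mul_right_cancel₀ hx h4
    rw [h5]
    exact_mod_cast H.card_mul_index
  rw [Nat.cast_inj, Nat.card_eq_fintype_card] at h3
  have h4 := (Finset.card_eq_iff_eq_univ _).1 h3
  have h5 : g ∈ Finset.univ.filter fun y : G => y * x * y⁻¹ ∈ H := by rw [h4]; exact Finset.mem_univ _
  exact (Finset.mem_filter.1 h5).2

theorem sum_of_vanish {Z : Subgroup G} [Fintype Z] (F : G → ℂ)
    (h0 : ∀ g : G, g ∉ Z → F g = 0) : ∑ g : G, F g = ∑ z : Z, F z := by
  classical
  symm
  refine Finset.sum_of_injOn (fun z : Z => (z : G)) ?_ ?_ ?_ ?_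
  · intro a _ b _ h
    exact Subtype.ext h
  · intro z _; exact Finset.mem_coe.2 (Finset.mem_univ _)
  · intro g _ hg
    apply h0
    intro hgZ
    exact hg ⟨⟨g, hgZ⟩, Finset.mem_coe.2 (Finset.mem_univ _), rfl⟩
  · intro z _; rfl

theorem sum_norm {χ : G → ℂ} (hχ : IsIrrCharacter G χ) : ∑ g : G, χ g * conj (χ g) = (Nat.card G : ℂ) := by
  have h := classInner_self_of_irr hχ
  unfold classInner at h
  have hG : (Nat.card G : ℂ) ≠ 0 := by exact_mod_cast Nat.card_pos.ne'
  rw [inv_mul_eq_one₀ hG] at h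
  exact h.symm

/-- If an irreducible character vanishes off the normal subgroup `N`, then the index of `N` divides
the square of its degree. -/
theorem index_dvd_sq {N : Subgroup G} [N.Normal] {χ : G → ℂ} (hχ : IsIrrCharacter G χ) {n : ℕ}
    (hn : χ 1 = n) (hv : ∀ g, g ∉ N → χ g = 0) : N.index ∣ n ^ 2 := by
  classical
  have : Fintype N := Fintype.ofFinite _
  have hN : (Nat.card N : ℂ) ≠ 0 := by exact_mod_cast Nat.card_pos.ne'
  have hres : IsCharacter N (fun n : N => χ n) := isCharacter_restrict (isCharacter_of_isIrr hχ) N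
  have hres0 : (fun n : N => χ n) ≠ 0 := by
    intro h0
    exact irr_one_ne_zero hχ (by simpa using congrFun h0 1)
  obtain ⟨θ, hθ, hne⟩ := exists_constituent hres hres0
  obtain ⟨e, he⟩ := classInner_natCast hres (isCharacter_of_isIrr hθ)
  obtain ⟨d, hd⟩ := exists_nat_degree (isCharacter_of_isIrr hθ)
  have hcl := clifford N hχ hθ hne
  have h1 : classInner (fun n : N => χ n) (fun n : N => χ n) = (e : ℂ) ^ 2 * (inertia N θ).index := by
    conv_lhs =>
      arg 2
      rw [hcl]
    rw [classInner_smul_right, classInner_sum_right]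
    have h2 : ∀ ψ ∈ orb N θ, classInner (fun n : N => χ n) ψ = e := by
      intro ψ hψ
      obtain ⟨g, rfl⟩ := (mem_orb N).mp hψ
      rw [classInner_restrict_cj N (isClassFunction_of_isCharacter (isCharacter_of_isIrr hχ)) θ g, he]
    rw [Finset.sum_congr rfl h2, Finset.sum_const, card_orb, nsmul_eq_mul, he, Complex.conj_natCast]
    ring
  have h3 := sum_norm hχ
  rw [sum_of_vanish (Z := N) (fun g => χ g * conj (χ g)) (fun g hg => by rw [hv g hg, zero_mul])] at h3
  have h4 : ∑ z : N, χ z * conj (χ z) = (Nat.card N : ℂ) * classInner (fun n : N => χ n) (fun n : N => χ n) := by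
    unfold classInner
    rw [← mul_assoc, mul_inv_cancel₀ hN, one_mul]
  rw [h4, h1] at h3
  have h5 : Nat.card N * (e ^ 2 * (inertia N θ).index) = Nat.card N * N.index := by
    rw [N.card_mul_index]
    exact_mod_cast h3
  have h6 := Nat.eq_of_mul_eq_mul_left Nat.card_pos h5
  have h7 := clifford_degree N hχ hθ hne
  rw [hn, he, hd] at h7
  have h8 : n = e * ((inertia N θ).index * d) := by exact_mod_cast h7
  rw [← h6, h8]
  exact ⟨(inertia N θ).index * d ^ 2, by ring⟩

/-- A group all of whose irreducible characters are linear is abelian. -/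
theorem comm_of_linear {M : Type u} [Group M] [Finite M] (h : ∀ χ : M → ℂ, IsIrrCharacter M χ → χ 1 = 1)
    (x y : M) : x * y = y * x := by
  have h1 : IsConj (x * y * x⁻¹ * y⁻¹) 1 := by
    apply isConj_of_irr_eq
    intro χ
    rw [h _ χ.2, linear_commutator (irr_isCharacter χ) (h _ χ.2)]
  rw [isConj_one_left] at h1
  calc x * y = (x * y * x⁻¹ * y⁻¹) * (y * x) := by group
    _ = y * x := by rw [h1, one_mul]

theorem exists_nonlinear {M : Type u} [Group M] [Finite M] (h : ¬ ∀ x y : M, x * y = y * x) :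
    ∃ χ : M → ℂ, IsIrrCharacter M χ ∧ ∃ n : ℕ, χ 1 = n ∧ 2 ≤ n := by
  by_contra hcon
  apply h
  apply comm_of_linear
  intro χ hχ
  obtain ⟨n, hn⟩ := exists_nat_degree (isCharacter_of_isIrr hχ)
  have h1 : ¬ 2 ≤ n := fun h2 => hcon ⟨χ, hχ, n, hn, h2⟩
  have h2 : n ≠ 0 := by
    rintro rfl
    exact irr_one_ne_zero hχ (by rw [hn]; simp)
  have h3 : n = 1 := by omega
  rw [hn, h3]; simp

end

end Cfsg.Agent.H62.BD
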