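import Cfsg.Agent.H62.BD1

set_option autoImplicit false
set_option linter.style.haveILetI false
set_option linter.unusedSectionVars false

/-!
# Groups with bounded character degrees, II (helper62)
-/

namespace Cfsg.Agent.H62.BD

open Cfsg Cfsg.Agent.Char Cfsg.Agent.CharBase Cfsg.Agent.H75 ComplexConjugate

universe u

section

variable {G : Type u} [Group G] [Fintype G]

/-- Degrees of quotients. -/
theorem BDeg.quot {b : ℕ} (h : BDeg G b) (N : Subgroup G) [N.Normal] : BDeg (G ⧸ N) b := by
  intro χ
  apply h.le (isIrrCharacter_inflate N χ.2)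
  exact deg_spec χ

/-- If `G/N` is nonabelian then the degrees of `N` are at most `b/2`. -/
theorem BDeg.half {b : ℕ} (h : BDeg G b) {N : Subgroup G} [N.Normal]
    (hN : ¬ ∀ x y : G ⧸ N, x * y = y * x) : BDeg N (b / 2) := by
  classical
  have : Fintype N := Fintype.ofFinite _
  intro θ
  by_contra hcon
  push Not at hcon
  set d := deg θ with hd
  have h2d : b < 2 * d := by omega
  have hθ1 : (θ : N → ℂ) 1 = d := deg_spec θ
  obtain ⟨χ, hχ, hne⟩ := exists_over N θ.2
  obtain ⟨n, hn⟩ := exists_nat_degree (isCharacter_of_isIrr hχ)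
  have hnb := h.le hχ hn
  obtain ⟨e, he⟩ := classInner_natCast (isCharacter_restrict (isCharacter_of_isIrr hχ) N)
    (irr_isCharacter θ)
  have h7 := clifford_degree N hχ θ.2 hne
  rw [hn, he, hθ1] at h7
  have h8 : n = e * ((inertia N (θ : N → ℂ)).index * d) := by exact_mod_cast h7
  have hn0 : n ≠ 0 := by
    rintro rfl
    exact irr_one_ne_zero hχ (by rw [hn]; simp)
  have hnd : n ≤ d := by
    rw [← mul_assoc] at h8
    have h9 : e * (inertia N (θ : N → ℂ)).index < 2 := by
      by_contra hc
      push Not at hc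
      have : 2 * d ≤ n := by rw [h8]; exact Nat.mul_le_mul_right d hc
      omega
    rw [h8]
    calc e * (inertia N (θ : N → ℂ)).index * d ≤ 1 * d := Nat.mul_le_mul_right d (by omega)
      _ = d := one_mul d
  have hext : (fun x : N => χ x) = θ :=
    eq_of_degree_le (isCharacter_restrict (isCharacter_of_isIrr hχ) N) θ.2 hne hθ1
      (n := n) (by simpa using hn) hnd
  obtain ⟨β', hβ', m, hm, hm2⟩ := exists_nonlinear hN
  have hβ := isIrrCharacter_inflate N hβ'
  set β : G → ℂ := fun g => β' (QuotientGroup.mk g) with hβd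
  have hβ1 : β 1 = m := hm
  -- Gallagher
  have hone : IsIrrCharacter N (fun _ => (1 : ℂ)) := CharBase.isIrrCharacter_one
  have hϑinv : ∀ g : G, cj N g (fun n : N => χ n) = fun n : N => χ n := fun g =>
    cj_restrict N g (isClassFunction_of_isCharacter (isCharacter_of_isIrr hχ))
  have hbij := gallagher_bijOn N (fun _ => 1) (fun n : N => χ n) hone (fun g => rfl) hϑinv
    (by
      have : (fun _ => (1 : ℂ)) * (fun n : N => χ n) = fun n : N => χ n := by
        funext n; simp
      rw [this, hext]; exact θ.2) χ hχ (fun n => rfl)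
  have hmem : β ∈ {β : G → ℂ | IsIrrCharacter G β ∧ classInner (indFun N (fun _ => (1 : ℂ))) β ≠ 0} := by
    refine ⟨hβ, ?_⟩
    rw [frobenius_reciprocity N _ β (isClassFunction_of_isCharacter (isCharacter_of_isIrr hβ))]
    have h10 : (fun x : N => β x) = (m : ℂ) • (fun _ : N => (1 : ℂ)) := by
      funext x
      have h11 := inflate_ker N β' (x : G) x.2
      have h12 : β (x : G) = β 1 := h11
      show β (x : G) = (m : ℂ) • (1 : ℂ)
      rw [h12, hβ1]; simp
    rw [h10, classInner_smul_right, classInner_self_of_irr hone, Complex.conj_natCast, mul_one]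
    have : m ≠ 0 := by omega
    exact_mod_cast this
  have hirr := (hbij.mapsTo hmem).1
  have h13 : (β * χ) 1 = ((m * n : ℕ) : ℂ) := by
    rw [Pi.mul_apply, hβ1, hn, Nat.cast_mul]
  have h14 := h.le (χ := β * χ) hirr h13
  have h15 : d ≤ n := by
    rw [h8, ← mul_assoc]
    have h16 : e * (inertia N (θ : N → ℂ)).index ≠ 0 := by
      intro h0
      rw [← mul_assoc, h0, zero_mul] at h8
      exact hn0 h8
    exact Nat.le_mul_of_pos_left d (Nat.pos_of_ne_zero h16)
  have h17 : 2 * d ≤ m * n := Nat.mul_le_mul hm2 h15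
  omega

/-- A nontrivial group with degrees at most `b` has a nontrivial class of size at most `b²`. -/
theorem BDeg.exists_small {b : ℕ} (h : BDeg G b) (hG : 1 < Nat.card G) :
    ∃ x : G, x ≠ 1 ∧ (Subgroup.centralizer ({x} : Set G)).index ≤ b ^ 2 := by
  classical
  have : Fintype (IrrCharacter G) := Fintype.ofFinite _
  by_contra hcon
  push Not at hcon
  set k := Nat.card (IrrCharacter G) with hk
  -- `|G| ≤ 1 + (k-1) b²`
  have h1 : Nat.card G + b ^ 2 ≤ 1 + k * b ^ 2 := by
    rw [← sum_deg_sq (G := G), hk, Nat.card_eq_fintype_card, ← Finset.card_univ,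
      ← Finset.add_sum_erase Finset.univ (fun χ : IrrCharacter G => deg χ ^ 2) (Finset.mem_univ (oneIrr G))]
    have h2 : deg (oneIrr G) = 1 := by
      have := deg_spec (oneIrr G)
      rw [oneIrr_apply] at this
      exact_mod_cast this.symm
    have h3 : ∑ χ ∈ Finset.univ.erase (oneIrr G), deg χ ^ 2 ≤ (Finset.univ.erase (oneIrr G)).card * b ^ 2 := by
      rw [← smul_eq_mul]
      apply Finset.sum_le_card_nsmul
      intro χ _
      exact Nat.pow_le_pow_left (h χ) 2
    have h4 : (Finset.univ.erase (oneIrr G)).card + 1 = (Finset.univ : Finset (IrrCharacter G)).card :=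
      Finset.card_erase_add_one (Finset.mem_univ _)
    rw [← h4, h2, add_mul]
    omega
  -- `k |G| = Σ |C(x)|`
  have h5 := sum_centralizer_eq_card_classes (G := G) (fun _ => True) (fun _ _ _ _ => trivial)
  have h6 : Nat.card {C : ConjClasses G // ∃ g, ConjClasses.mk g = C ∧ True} = k := by
    rw [hk, card_irr_eq_card_conjClasses]
    apply Nat.card_congr
    refine Equiv.subtypeUnivEquiv ?_
    intro C
    obtain ⟨g, hg⟩ := ConjClasses.mk_surjective C
    exact ⟨g, hg, trivial⟩
  rw [h6] at h5
  simp only [if_true] at h5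
  have h7 : ∑ g : G, Nat.card (Subgroup.centralizer ({g} : Set G)) = Nat.card G * k := by exact_mod_cast h5
  have h8 : ∀ g : G, g ≠ 1 → Nat.card (Subgroup.centralizer ({g} : Set G)) * b ^ 2 ≤ Nat.card G - 1 := by
    intro g hg
    have h9 := hcon g hg
    have h10 := (Subgroup.centralizer ({g} : Set G)).card_mul_index
    have h11 : 0 < Nat.card (Subgroup.centralizer ({g} : Set G)) := Nat.card_pos
    have h12 : Nat.card (Subgroup.centralizer ({g} : Set G)) * b ^ 2 < Nat.card G := by
      rw [← h10]; exact Nat.mul_lt_mul_of_pos_left h9 h11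
    omega
  have h9 : Nat.card G * k * b ^ 2 ≤ Nat.card G * b ^ 2 + (Nat.card G - 1) * (Nat.card G - 1) := by
    rw [← h7, ← Finset.add_sum_erase Finset.univ _ (Finset.mem_univ (1 : G)), add_mul, Finset.sum_mul]
    have e1 : Nat.card (Subgroup.centralizer ({(1 : G)} : Set G)) = Nat.card G := by
      rw [Subgroup.centralizer_eq_top_iff_subset.2 (by simp [Set.singleton_subset_iff, one_mem]),
        Subgroup.card_top]
    rw [e1]
    have e2 : ∑ g ∈ Finset.univ.erase (1 : G), Nat.card (Subgroup.centralizer ({g} : Set G)) * b ^ 2 ≤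
        (Finset.univ.erase (1 : G)).card * (Nat.card G - 1) := by
      rw [← smul_eq_mul]
      apply Finset.sum_le_card_nsmul
      intro g hg
      exact h8 g (Finset.ne_of_mem_erase hg)
    have e3 : (Finset.univ.erase (1 : G)).card = Nat.card G - 1 := by
      rw [Finset.card_erase_of_mem (Finset.mem_univ _), Finset.card_univ, Nat.card_eq_fintype_card]
    rw [e3] at e2
    omega
  obtain ⟨n, hn⟩ : ∃ n, Nat.card G = n + 2 := ⟨Nat.card G - 2, by omega⟩
  rw [hn] at h1 h9
  have h10 : n + 2 - 1 = n + 1 := rfl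
  rw [h10] at h9
  nlinarith

end

end Cfsg.Agent.H62.BD
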