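import Cfsg.Agent.H62.BD2
import Cfsg.Agent.Char.GoingDown

set_option autoImplicit false
set_option linter.style.haveILetI false
set_option linter.unusedSectionVars false

/-!
# Groups with bounded character degrees, III (helper62)
-/

namespace Cfsg.Agent.H62.BD

open Cfsg Cfsg.Agent.Char Cfsg.Agent.Char.CC Cfsg.Agent.CharBase Cfsg.Agent.H75 ComplexConjugate
open scoped commutatorElement

universe u

section

variable {G : Type u} [Group G] [Fintype G]

theorem BDeg.sub {b : ℕ} (h : BDeg G b) (H : Subgroup G) : BDeg H b := by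
  classical
  have : Fintype H := Fintype.ofFinite _
  intro ψ
  obtain ⟨χ, hχ, hne⟩ := exists_over H ψ.2
  obtain ⟨n, hn⟩ := exists_nat_degree (isCharacter_of_isIrr hχ)
  have hres := isCharacter_restrict (isCharacter_of_isIrr hχ) H
  obtain ⟨m, hm⟩ := classInner_natCast hres (irr_isCharacter ψ)
  have h1 := mult_mul_degree_le hres ψ.2 hm (deg_spec ψ) (n := n) (by simpa using hn)
  have hm0 : 0 < m := by
    rcases Nat.eq_zero_or_pos m with h0 | h0
    · rw [h0] at hm; exact absurd (by rw [hm]; simp) hne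
    · exact h0
  have h2 : deg ψ ≤ m * deg ψ := Nat.le_mul_of_pos_left _ hm0
  exact (h2.trans h1).trans (h.le hχ hn)

theorem BDeg.exists_top {b : ℕ} (hb : 1 ≤ b) (h : BDeg G b) {H : Subgroup G} [Fintype H]
    (hnot : ¬ BDeg H (b - 1)) : ∃ ψ : H → ℂ, IsIrrCharacter H ψ ∧ ψ 1 = b := by
  unfold BDeg at hnot
  push Not at hnot
  obtain ⟨ψ, hψ⟩ := hnot
  have h1 := h.sub H ψ
  have h2 : deg ψ = b := by omega
  exact ⟨ψ, ψ.2, by rw [deg_spec, h2]⟩

theorem relIndex_comap (N : Subgroup G) [N.Normal] (K : Subgroup (G ⧸ N)) :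
    (N.subgroupOf (K.comap (QuotientGroup.mk' N))).index = Nat.card K := by
  have hle : N ≤ K.comap (QuotientGroup.mk' N) := by
    intro x hx
    rw [Subgroup.mem_comap]
    have : QuotientGroup.mk' N x = 1 := (QuotientGroup.eq_one_iff x).2 hx
    rw [this]; exact one_mem _
  have h1 : N.relIndex (K.comap (QuotientGroup.mk' N)) * (K.comap (QuotientGroup.mk' N)).index = N.index :=
    Subgroup.relIndex_mul_index hle
  have h2 : (K.comap (QuotientGroup.mk' N)).index = K.index :=
    Subgroup.index_comap_of_surjective K (QuotientGroup.mk'_surjective N)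
  have h3 : Nat.card K * K.index = N.index := K.card_mul_index
  rw [h2] at h1
  have h4 : 0 < K.index := Nat.pos_of_ne_zero Subgroup.index_ne_zero_of_finite
  exact Nat.eq_of_mul_eq_mul_right h4 (h1.trans h3.symm)

/-- Core-free subgroups. -/
theorem BDeg.core_dvd {b : ℕ} (hb : 1 ≤ b) (h : BDeg G b) (N : Subgroup G) [N.Normal]
    (K : Subgroup (G ⧸ N)) (hK : K.normalCore = ⊥)
    (hnot : ¬ BDeg (K.comap (QuotientGroup.mk' N)) (b - 1)) : Nat.card K ∣ b ^ 2 := by
  classical
  set H := K.comap (QuotientGroup.mk' N) with hH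
  have : Fintype H := Fintype.ofFinite _
  obtain ⟨ψ, hψ, hψ1⟩ := h.exists_top hb hnot
  rw [← relIndex_comap N K]
  apply index_dvd_sq hψ hψ1
  intro x hx
  by_contra hne
  apply hx
  rw [Subgroup.mem_subgroupOf, ← QuotientGroup.eq_one_iff, ← Subgroup.mem_bot, ← hK]
  intro g
  obtain ⟨g, rfl⟩ := QuotientGroup.mk_surjective g
  have h1 := h.mem_of_ne_zero hψ hψ1 hne g
  exact h1

/-- Case A. -/
theorem BDeg.caseA {b : ℕ} (hb : 1 ≤ b) (h : BDeg G b) (N : Subgroup G) [N.Normal]
    (hna : ¬ ∀ x y : G ⧸ N, x * y = y * x)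
    (hmin : ∀ L : Subgroup (G ⧸ N), L.Normal → L ≠ ⊥ → commutator (G ⧸ N) ≤ L)
    (hZ : Subgroup.center (G ⧸ N) ≠ ⊥) :
    (Subgroup.center (G ⧸ N)).index ≤ b ^ 2 ∧
      BDeg ((Subgroup.center (G ⧸ N)).comap (QuotientGroup.mk' N)) (b - 1) := by
  classical
  have : Fintype (G ⧸ N) := Fintype.ofFinite _
  have hD := hmin _ inferInstance hZ
  obtain ⟨μ, hμ, m, hm, hm2⟩ := exists_nonlinear hna
  have hv : ∀ x, x ∉ Subgroup.center (G ⧸ N) → μ x = 0 := by
    intro x hx
    rw [Subgroup.mem_center_iff] at hx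
    push Not at hx
    obtain ⟨y, hy⟩ := hx
    have hz : ⁅y, x⁆ ∈ commutator (G ⧸ N) :=
      Subgroup.commutator_mem_commutator (Subgroup.mem_top _) (Subgroup.mem_top _)
    have hz1 : ⁅y, x⁆ ≠ 1 := by
      intro h0
      rw [commutatorElement_eq_one_iff_mul_comm] at h0
      exact hy h0
    refine eq_zero_of_conj_mul hμ (hD hz) ?_ (isConj_iff.2 ⟨y, ?_⟩)
    · intro hker
      have hmem : ⁅y, x⁆ ∈ charKer (isCharacter_of_isIrr hμ) := hker
      have h1 := hmin _ (charKer_normal (isCharacter_of_isIrr hμ)) (by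
        intro h0
        rw [h0, Subgroup.mem_bot] at hmem
        exact hz1 hmem)
      have h2 := degree_one_of_commutator hμ (fun x y => h1
        (Subgroup.commutator_mem_commutator (Subgroup.mem_top x) (Subgroup.mem_top y)))
      rw [hm] at h2
      have h3 : m = 1 := by exact_mod_cast h2
      omega
    · rw [commutatorElement_def]; group
  have hsq := sq_degree_of_vanish hμ hv
  rw [hm] at hsq
  have hidx : (Subgroup.center (G ⧸ N)).index = m ^ 2 := by exact_mod_cast hsq.symm
  have hmb : m ≤ b := (h.quot N).le hμ hm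
  refine ⟨by rw [hidx]; exact Nat.pow_le_pow_left hmb 2, ?_⟩
  by_contra hnot
  set H := (Subgroup.center (G ⧸ N)).comap (QuotientGroup.mk' N) with hH
  have : Fintype H := Fintype.ofFinite _
  obtain ⟨ψ, hψ, hψ1⟩ := h.exists_top hb hnot
  obtain ⟨χ, hχ, hext⟩ := h.exists_ext hψ hψ1
  set β : G → ℂ := fun g => μ (QuotientGroup.mk g) with hβ
  have hβi : IsIrrCharacter G β := isIrrCharacter_inflate N hμ
  have hprod : IsCharacter G (β * χ) := isCharacter_mul (isCharacter_of_isIrr hβi) (isCharacter_of_isIrr hχ)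
  have hβz : ∀ z : H, β z * conj (β z) = (m : ℂ) ^ 2 := by
    intro z
    obtain ⟨c, hc1, hc, -⟩ := exists_scalar hμ (QuotientGroup.mk (z : G)) z.2
    have hm0 : (m : ℂ) ≠ 0 := by
      have : m ≠ 0 := by omega
      exact_mod_cast this
    have e1 : β z = c * m := by
      rw [hc, hm, div_mul_cancel₀ _ hm0]
    rw [e1, map_mul, Complex.conj_natCast]
    have e2 : c * conj c = 1 := by
      rw [Complex.mul_conj, Complex.normSq_eq_norm_sq, hc1]; simp
    linear_combination (m : ℂ) ^ 2 * e2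
  have hnorm : classInner (β * χ) (β * χ) = 1 := by
    unfold classInner
    rw [sum_of_vanish (Z := H) (fun g => (β * χ) g * conj ((β * χ) g))]
    · have e1 : ∀ z : H, (β * χ) z * conj ((β * χ) z) = (m : ℂ) ^ 2 * (ψ z * conj (ψ z)) := by
        intro z
        rw [Pi.mul_apply, map_mul, hext z, ← hβz z]; ring
      rw [Finset.sum_congr rfl fun z _ => e1 z, ← Finset.mul_sum, sum_norm hψ]
      have e2 : (Nat.card G : ℂ) = (m : ℂ) ^ 2 * Nat.card H := by
        have e3 := H.card_mul_index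
        have e4 : H.index = m ^ 2 := by
          rw [← hidx]
          exact Subgroup.index_comap_of_surjective _ (QuotientGroup.mk'_surjective N)
        rw [e4] at e3
        rw [← e3]; push_cast; ring
      rw [e2, inv_mul_cancel₀]
      rw [← e2]
      exact_mod_cast Nat.card_pos.ne'
    · intro g hg
      have : β g = 0 := hv _ hg
      rw [Pi.mul_apply, this]; simp
  have hirr := (isIrrCharacter_iff hprod).2 hnorm
  have hdeg : (β * χ) 1 = ((m * b : ℕ) : ℂ) := by
    have e1 : β 1 = m := hm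
    have e2 : χ 1 = b := by rw [← hψ1]; exact hext 1
    rw [Pi.mul_apply, e1, e2, Nat.cast_mul]
  have h1 := h.le hirr hdeg
  have h2 : 2 * b ≤ m * b := Nat.mul_le_mul_right b hm2
  omega

end

end Cfsg.Agent.H62.BD
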