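import Cfsg.Agent.H62.BD3
import Cfsg.Agent.H75.Ito

set_option autoImplicit false
set_option linter.style.haveILetI false
set_option linter.unusedSectionVars false

/-!
# Groups with bounded character degrees, IV (helper62)
-/

namespace Cfsg.Agent.H62.BD

open Cfsg Cfsg.Agent.Char Cfsg.Agent.Char.CC Cfsg.Agent.CharBase Cfsg.Agent.H75 ComplexConjugate
open scoped commutatorElement

universe u

section caseB

variable {M : Type u} [Group M] [Finite M]

theorem bracket_left {z c y : M} (h1 : Commute z c) (h2 : Commute z y) : ⁅z * c, y⁆ = ⁅c, y⁆ := by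
  have h3 : Commute z (c * y * c⁻¹) := (h1.mul_right h2).mul_right h1.inv_right
  rw [commutatorElement_def, commutatorElement_def]
  calc z * c * y * (z * c)⁻¹ * y⁻¹ = (z * (c * y * c⁻¹)) * z⁻¹ * y⁻¹ := by group
    _ = ((c * y * c⁻¹) * z) * z⁻¹ * y⁻¹ := by rw [h3.eq]
    _ = c * y * c⁻¹ * y⁻¹ := by group

theorem bracket_right {z c x : M} (h1 : Commute z c) (h2 : Commute z x) : ⁅x, z * c⁆ = ⁅x, c⁆ := by
  rw [← commutatorElement_inv, bracket_left h1 h2, commutatorElement_inv]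

theorem cent_comm (hab : ∀ x ∈ commutator M, ∀ y ∈ commutator M, x * y = y * x)
    (hZ : Subgroup.center M = ⊥) {x y : M}
    (hx : x ∈ Subgroup.centralizer ((commutator M : Subgroup M) : Set M))
    (hy : y ∈ Subgroup.centralizer ((commutator M : Subgroup M) : Set M)) : x * y = y * x := by
  set C := Subgroup.centralizer ((commutator M : Subgroup M) : Set M) with hC
  have hDC : commutator M ≤ C := by
    intro d hd
    rw [hC, Subgroup.mem_centralizer_iff]
    intro e he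
    exact hab e he d hd
  have hcom : ∀ z ∈ commutator M, ∀ c ∈ C, Commute z c := fun z hz c hc =>
    (Subgroup.mem_centralizer_iff.1 hc) z hz
  have key : ⁅x, y⁆ ∈ Subgroup.center M := by
    rw [Subgroup.mem_center_iff]
    intro g
    have hz1 : ⁅g, x⁆ ∈ commutator M :=
      Subgroup.commutator_mem_commutator (Subgroup.mem_top _) (Subgroup.mem_top _)
    have hz2 : ⁅g, y⁆ ∈ commutator M :=
      Subgroup.commutator_mem_commutator (Subgroup.mem_top _) (Subgroup.mem_top _)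
    have e1 : g * x * g⁻¹ = ⁅g, x⁆ * x := by rw [commutatorElement_def]; group
    have e2 : g * y * g⁻¹ = ⁅g, y⁆ * y := by rw [commutatorElement_def]; group
    have e3 : g * ⁅x, y⁆ * g⁻¹ = ⁅g * x * g⁻¹, g * y * g⁻¹⁆ := by
      simp only [commutatorElement_def]; group
    have e4 : g * ⁅x, y⁆ * g⁻¹ = ⁅x, y⁆ := by
      rw [e3, e1, e2, bracket_left (hcom _ hz1 _ hx) ((hcom _ hz1 _ (hDC hz2)).mul_right (hcom _ hz1 _ hy)),
        bracket_right (hcom _ hz2 _ hy) (hcom _ hz2 _ hx)]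
    calc g * ⁅x, y⁆ = (g * ⁅x, y⁆ * g⁻¹) * g := by group
      _ = ⁅x, y⁆ * g := by rw [e4]
  rw [hZ, Subgroup.mem_bot, commutatorElement_eq_one_iff_mul_comm] at key
  exact key

theorem inertia_eq (hab : ∀ x ∈ commutator M, ∀ y ∈ commutator M, x * y = y * x)
    (hmin : ∀ L : Subgroup M, L.Normal → L ≠ ⊥ → commutator M ≤ L) (C : Subgroup M) [hCn : C.Normal]
    (hDC : commutator M ≤ C) (hC : ∀ g, (∀ d ∈ commutator M, d * g = g * d) → g ∈ C)
    {θ : C → ℂ} (hθ : IsIrrCharacter C θ) (hθ1 : θ 1 = 1)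
    {z : C} (hzD : (z : M) ∈ commutator M) (hz : θ z ≠ 1) :
    inertia C θ = C := by
  have hchar := isCharacter_of_isIrr hθ
  apply le_antisymm
  · intro g hg
    rw [mem_inertia_iff] at hg
    -- the endomorphism `d ↦ g d g⁻¹ d⁻¹` of `D`
    have hgd : ∀ d ∈ commutator M, g * d * g⁻¹ ∈ commutator M := fun d hd =>
      (inferInstance : (commutator M).Normal).conj_mem d hd g
    let f : commutator M →* M := MonoidHom.mk' (fun d => g * (d : M) * g⁻¹ * (d : M)⁻¹) (by
      intro d e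
      have h1 := hgd d d.2
      have h2 := hgd e e.2
      have c1 : Commute (g * (e : M) * g⁻¹) (d : M)⁻¹ := (show Commute _ _ from hab _ h2 _ d.2).inv_right
      have c2 : Commute (e : M)⁻¹ (d : M)⁻¹ := ((show Commute (e : M) (d : M) from hab _ e.2 _ d.2).inv_inv)
      rw [Subgroup.coe_mul]
      calc g * ((d : M) * e) * g⁻¹ * ((d : M) * e)⁻¹
          = (g * (d : M) * g⁻¹) * (g * (e : M) * g⁻¹) * ((e : M)⁻¹ * (d : M)⁻¹) := by group
        _ = (g * (d : M) * g⁻¹) * (g * (e : M) * g⁻¹) * ((d : M)⁻¹ * (e : M)⁻¹) := by rw [c2.eq]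
        _ = (g * (d : M) * g⁻¹) * ((g * (e : M) * g⁻¹) * (d : M)⁻¹) * (e : M)⁻¹ := by group
        _ = (g * (d : M) * g⁻¹) * ((d : M)⁻¹ * (g * (e : M) * g⁻¹)) * (e : M)⁻¹ := by rw [c1.eq]
        _ = g * (d : M) * g⁻¹ * (d : M)⁻¹ * (g * (e : M) * g⁻¹ * (e : M)⁻¹) := by group)
    have hfD : ∀ d : commutator M, f d ∈ commutator M := fun d =>
      mul_mem (hgd d d.2) (inv_mem d.2)
    have hLn : f.range.Normal := by
      constructor
      rintro _ ⟨d, rfl⟩ k
      have hzk : ⁅k, g⁆ ∈ commutator M :=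
        Subgroup.commutator_mem_commutator (Subgroup.mem_top _) (Subgroup.mem_top _)
      have hd' : k * (d : M) * k⁻¹ ∈ commutator M :=
        (inferInstance : (commutator M).Normal).conj_mem d d.2 k
      refine ⟨⟨k * (d : M) * k⁻¹, hd'⟩, ?_⟩
      have h1 := hgd _ hd'
      have c1 : Commute ⁅k, g⁆ (g * (k * (d : M) * k⁻¹) * g⁻¹) := hab _ hzk _ h1
      show g * (k * (d : M) * k⁻¹) * g⁻¹ * (k * (d : M) * k⁻¹)⁻¹ = k * (g * (d : M) * g⁻¹ * (d : M)⁻¹) * k⁻¹
      have e1 : k * (g * (d : M) * g⁻¹ * (d : M)⁻¹) * k⁻¹ =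
          ⁅k, g⁆ * (g * (k * (d : M) * k⁻¹) * g⁻¹) * ⁅k, g⁆⁻¹ * (k * (d : M) * k⁻¹)⁻¹ := by
        rw [commutatorElement_def]; group
      rw [e1, c1.eq]; group
    have hL : f.range = ⊥ := by
      by_contra hne
      have h1 := hmin _ hLn hne hzD
      obtain ⟨d, hd⟩ := h1
      apply hz
      have hdC : (d : M) ∈ C := hDC d.2
      have e2 : z = ⟨g * (d : M) * g⁻¹, hDC (hgd d d.2)⟩ * (⟨d, hdC⟩ : C)⁻¹ := by
        apply Subtype.ext
        exact hd.symm
      rw [e2, linChar_mul hchar hθ1, linChar_inv hchar hθ1]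
      have h3 := hg ⟨d, hdC⟩
      have h4 : θ ⟨g * (d : M) * g⁻¹, hDC (hgd d d.2)⟩ = θ ⟨d, hdC⟩ := h3
      rw [h4, mul_inv_cancel₀ (linChar_ne_zero hchar hθ1 _)]
    apply hC
    intro d hd
    have h5 : f ⟨d, hd⟩ = 1 := by
      have : f ⟨d, hd⟩ ∈ f.range := ⟨_, rfl⟩
      rwa [hL, Subgroup.mem_bot] at this
    have h6 : g * d * g⁻¹ * d⁻¹ = 1 := h5
    calc d * g = (g * d * g⁻¹ * d⁻¹)⁻¹ * (g * d) := by group
      _ = g * d := by rw [h6]; group
  · exact le_inertia _ (isClassFunction_of_isCharacter hchar)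

theorem exists_irr_ne {z : M} (hz : z ≠ 1) : ∃ χ : IrrCharacter M, (χ : M → ℂ) z ≠ (χ : M → ℂ) 1 := by
  by_contra hcon
  push Not at hcon
  have := isConj_of_irr_eq hcon
  rw [isConj_one_left] at this
  exact hz this

/-- B2. -/
theorem index_le {b : ℕ} (h : BDeg M b)
    (hab : ∀ x ∈ commutator M, ∀ y ∈ commutator M, x * y = y * x) (hZ : Subgroup.center M = ⊥)
    (hmin : ∀ L : Subgroup M, L.Normal → L ≠ ⊥ → commutator M ≤ L) (hne : commutator M ≠ ⊥) :
    (Subgroup.centralizer ((commutator M : Subgroup M) : Set M)).index ≤ b := by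
  classical
  have : Fintype M := Fintype.ofFinite _
  set C := Subgroup.centralizer ((commutator M : Subgroup M) : Set M) with hC
  have : Fintype C := Fintype.ofFinite _
  have hDC : commutator M ≤ C := by
    intro d hd
    rw [hC, Subgroup.mem_centralizer_iff]
    intro e he
    exact hab e he d hd
  obtain ⟨⟨z, hz⟩, hz1'⟩ := Subgroup.ne_bot_iff_exists_ne_one.1 hne
  have hz1 : z ≠ 1 := fun h0 => hz1' (Subtype.ext h0)
  obtain ⟨θ, hθ⟩ := exists_irr_ne (M := C) (z := ⟨z, hDC hz⟩) (fun h0 => hz1 (congrArg Subtype.val h0))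
  have hCab : ∀ a b : C, a * b = b * a := fun a b => Subtype.ext (cent_comm hab hZ a.2 b.2)
  have hθ1 := irr_one_of_comm hCab θ
  rw [hθ1] at hθ
  have hin := inertia_eq hab hmin C hDC (fun g hg => by
    rw [hC, Subgroup.mem_centralizer_iff]; exact hg) θ.2 hθ1 (z := ⟨z, hDC hz⟩) hz hθ
  have h1 := card_mul_classInner_indFun C θ.2
  rw [hin] at h1
  have hcard : (Nat.card C : ℂ) ≠ 0 := by exact_mod_cast Nat.card_pos.ne'
  have h2 : classInner (indFun C (θ : C → ℂ)) (indFun C (θ : C → ℂ)) = 1 := by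
    have h3 : (Nat.card C : ℂ) * classInner (indFun C (θ : C → ℂ)) (indFun C (θ : C → ℂ)) =
        (Nat.card C : ℂ) * 1 := by rw [h1, mul_one]
    exact mul_left_cancel₀ hcard h3
  have h3 := (isIrrCharacter_iff (indFun_isCharacter C θ (irr_isCharacter θ))).2 h2
  apply h.le h3
  rw [indFun_one_apply, hθ1, mul_one]

end caseB

section

variable {G : Type u} [Group G] [Fintype G]

/-- B3. -/
theorem BDeg.caseB {b : ℕ} (hb : 1 ≤ b) (h : BDeg G b) (N : Subgroup G) [N.Normal]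
    (hZ : Subgroup.center (G ⧸ N) = ⊥) (C : Subgroup (G ⧸ N)) [C.Normal]
    (hCab : ∀ x ∈ C, ∀ y ∈ C, x * y = y * x)
    (hnot : ¬ BDeg (C.comap (QuotientGroup.mk' N)) (b - 1)) : Nat.card C ∣ b ^ 2 := by
  classical
  set H := C.comap (QuotientGroup.mk' N) with hH
  have hHn : H.Normal := inferInstance
  have : Fintype H := Fintype.ofFinite _
  obtain ⟨ψ, hψ, hψ1⟩ := h.exists_top hb hnot
  rw [← relIndex_comap N C]
  apply index_dvd_sq hψ hψ1
  intro x hx
  by_contra hne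
  apply hx
  rw [Subgroup.mem_subgroupOf, ← QuotientGroup.eq_one_iff, ← Subgroup.mem_bot, ← hZ,
    Subgroup.mem_center_iff]
  intro g
  obtain ⟨g, rfl⟩ := QuotientGroup.mk_surjective g
  -- invariance of characters of degree `b`
  have hinv : ∀ φ : H → ℂ, IsIrrCharacter H φ → φ 1 = b → ∀ y : H,
      φ ⟨g * (y : G) * g⁻¹, hHn.conj_mem (y : G) y.2 g⟩ = φ y := by
    intro φ hφ hφ1 y
    obtain ⟨χ, hχ, hext⟩ := h.exists_ext hφ hφ1
    rw [← hext, ← hext]
    exact isClassFunction_of_isCharacter (isCharacter_of_isIrr hχ) _ _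
  let π : H →* C := ((QuotientGroup.mk' N).comp H.subtype).codRestrict C (fun y => y.2)
  set x' : H := ⟨g * (x : G) * g⁻¹, hHn.conj_mem (x : G) x.2 g⟩ with hx'
  have hall : ∀ θ : IrrCharacter C, (θ : C → ℂ) (π x') = (θ : C → ℂ) (π x) := by
    intro θ
    have hθ1 : (θ : C → ℂ) 1 = 1 :=
      irr_one_of_comm (fun a b => Subtype.ext (hCab a a.2 b b.2)) θ
    have hθc : IsCharacter H (fun y => (θ : C → ℂ) (π y)) := isCharacter_comp (irr_isCharacter θ) π
    have hθ1' : (fun y => (θ : C → ℂ) (π y)) 1 = 1 := by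
      show (θ : C → ℂ) (π 1) = 1
      rw [map_one, hθ1]
    have h1 := Cfsg.Agent.Char.GD.isIrr_linear_mul hθc hθ1' hψ
    have h2 := hinv _ h1 (by
      show (θ : C → ℂ) (π 1) * ψ 1 = b
      rw [map_one, hθ1, one_mul, hψ1]) x
    have h3 := hinv _ hψ hψ1 x
    have h4 : (θ : C → ℂ) (π x') * ψ x' = (θ : C → ℂ) (π x) * ψ x := h2
    have h5 : ψ x' = ψ x := h3
    rw [h5] at h4
    exact mul_right_cancel₀ hne h4
  have hconj := isConj_of_irr_eq hall
  obtain ⟨c, hc⟩ := isConj_iff.1 hconj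
  have h6 : c * π x' = π x' * c := Subtype.ext (hCab c c.2 (π x') (π x').2)
  rw [h6, mul_inv_cancel_right] at hc
  have h7 : (QuotientGroup.mk (g * (x : G) * g⁻¹) : G ⧸ N) = QuotientGroup.mk (x : G) :=
    congrArg Subtype.val hc
  rw [QuotientGroup.mk_mul, QuotientGroup.mk_mul, QuotientGroup.mk_inv] at h7
  exact mul_inv_eq_iff_eq_mul.1 h7

end

end Cfsg.Agent.H62.BD
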