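import Cfsg.Agent.H62.BD4
import Cfsg.Agent.Asch.PaQb

set_option autoImplicit false
set_option linter.style.haveILetI false
set_option linter.unusedSectionVars false

/-!
# Groups with bounded character degrees, V (helper62)
-/

namespace Cfsg.Agent.H62.BD

open Cfsg Cfsg.Agent.Char Cfsg.Agent.CharBase Cfsg.Agent.H75 ComplexConjugate
open scoped commutatorElement Nat

universe u

/-- `G` has an abelian subgroup of index at most `n`. -/
def HasAb (G : Type u) [Group G] (n : ℕ) : Prop :=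
  ∃ A : Subgroup G, (∀ x ∈ A, ∀ y ∈ A, x * y = y * x) ∧ A.index ≤ n

theorem HasAb.mono {G : Type u} [Group G] {m n : ℕ} (h : HasAb G m) (hmn : m ≤ n) : HasAb G n := by
  obtain ⟨A, hA, hi⟩ := h
  exact ⟨A, hA, hi.trans hmn⟩

theorem HasAb.of_sub {G : Type u} [Group G] {H : Subgroup G} {k n : ℕ} (hk : H.index ≤ k)
    (h : HasAb H n) : HasAb G (k * n) := by
  obtain ⟨A, hA, hi⟩ := h
  refine ⟨A.map H.subtype, ?_, ?_⟩
  · rintro _ ⟨x, hx, rfl⟩ _ ⟨y, hy, rfl⟩
    exact congrArg Subtype.val (hA x hx y hy)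
  · rw [Subgroup.index_map_subtype, mul_comm]
    exact Nat.mul_le_mul hk hi

theorem arithB {b : ℕ} (hb : 3 ≤ b) : b ^ 3 * ((b / 2)!) ^ 2 ≤ (b !) ^ 2 := by
  obtain ⟨c, rfl⟩ : ∃ c, b = c + 2 := ⟨b - 2, by omega⟩
  have h1 : (c + 2)! = (c + 2) * ((c + 1) * c !) := by
    rw [Nat.factorial_succ, Nat.factorial_succ]
  have h2 : ((c + 2) / 2)! ≤ c ! := Nat.factorial_le (by omega)
  rw [h1]
  have hc : 1 ≤ c := by omega
  have h3 : (c + 2) ^ 3 ≤ ((c + 2) * (c + 1)) ^ 2 := by nlinarith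
  calc (c + 2) ^ 3 * (((c + 2) / 2)!) ^ 2 ≤ ((c + 2) * (c + 1)) ^ 2 * (c !) ^ 2 :=
        Nat.mul_le_mul h3 (Nat.pow_le_pow_left h2 2)
    _ = ((c + 2) * ((c + 1) * c !)) ^ 2 := by ring

theorem arithC {b : ℕ} (hb : 5 ≤ b) : b ^ 4 * ((b / 2)!) ^ 2 ≤ (b !) ^ 2 := by
  obtain ⟨c, rfl⟩ : ∃ c, b = c + 3 := ⟨b - 3, by omega⟩
  have h1 : (c + 3)! = (c + 3) * ((c + 2) * ((c + 1) * c !)) := by
    rw [Nat.factorial_succ, Nat.factorial_succ, Nat.factorial_succ]
  have h2 : ((c + 3) / 2)! ≤ c ! := Nat.factorial_le (by omega)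
  rw [h1]
  have hc : 2 ≤ c := by omega
  have h3 : (c + 3) ^ 2 ≤ (c + 3) * ((c + 2) * (c + 1)) := by nlinarith
  calc (c + 3) ^ 4 * (((c + 3) / 2)!) ^ 2 = ((c + 3) ^ 2) ^ 2 * (((c + 3) / 2)!) ^ 2 := by ring
    _ ≤ ((c + 3) * ((c + 2) * (c + 1))) ^ 2 * (c !) ^ 2 :=
        Nat.mul_le_mul (Nat.pow_le_pow_left h3 2) (Nat.pow_le_pow_left h2 2)
    _ = ((c + 3) * ((c + 2) * ((c + 1) * c !))) ^ 2 := by ring

section struct

variable {M : Type u} [Group M] [Finite M]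

/-- In the nonabelian case `M` is not solvable. -/
theorem not_solvable (hmin : ∀ L : Subgroup M, L.Normal → L ≠ ⊥ → commutator M ≤ L)
    (hab : ¬ ∀ x ∈ commutator M, ∀ y ∈ commutator M, x * y = y * x) : ¬ Group.IsSolvable M := by
  intro hs
  set D := commutator M with hD
  have h1 : ⁅D, D⁆ ≠ ⊥ := by
    intro h0
    apply hab
    intro x hx y hy
    have h2 : ⁅x, y⁆ ∈ (⊥ : Subgroup M) := by rw [← h0]; exact Subgroup.commutator_mem_commutator hx hy
    rw [Subgroup.mem_bot, commutatorElement_eq_one_iff_mul_comm] at h2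
    exact h2
  have h2 : D ≤ ⁅D, D⁆ := hmin _ inferInstance h1
  have h3 : ∀ n, D ≤ derivedSeries M n := by
    intro n
    induction n with
    | zero => exact le_top
    | succ n ih =>
      rw [derivedSeries_succ]
      exact h2.trans (Subgroup.commutator_mono ih ih)
  obtain ⟨n, hn⟩ := (Group.isSolvable_def M).1 hs
  have h4 := h3 n
  rw [hn, le_bot_iff] at h4
  apply h1
  rw [h4, Subgroup.commutator_bot_left]

theorem not_pq (hns : ¬ Group.IsSolvable M) (p q a b : ℕ) (hp : p.Prime) (hq : q.Prime)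
    (h : Nat.card M = p ^ a * q ^ b) : False :=
  hns (Asch.PaQb.isSolvable p q a b hp hq h)

end struct

end Cfsg.Agent.H62.BD
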