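import Cfsg.Agent.H62.BD5

set_option autoImplicit false
set_option linter.style.haveILetI false
set_option linter.unusedSectionVars false

/-!
# Groups with bounded character degrees, VI (helper62)
-/

namespace Cfsg.Agent.H62.BD

open Cfsg Cfsg.Agent.Char Cfsg.Agent.CharBase Cfsg.Agent.H75 ComplexConjugate
open scoped commutatorElement Nat

universe u

section struct

variable {M : Type u} [Group M] [Finite M]

theorem small_two (hns : ¬ Group.IsSolvable M) {c s : ℕ} (hc : c ∣ 2 ^ 2) (hs : s ≤ 4)
    (h : Nat.card M = c * s) : False := by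
  obtain ⟨k, _, rfl⟩ := (Nat.dvd_prime_pow Nat.prime_two).1 hc
  have h0 : Nat.card M ≠ 0 := Nat.card_pos.ne'
  interval_cases s
  · simp [h] at h0
  · exact not_pq hns 2 3 k 0 (by norm_num) (by norm_num) (by rw [h]; ring)
  · exact not_pq hns 2 3 (k + 1) 0 (by norm_num) (by norm_num) (by rw [h]; ring)
  · exact not_pq hns 2 3 k 1 (by norm_num) (by norm_num) (by rw [h]; ring)
  · exact not_pq hns 2 3 (k + 2) 0 (by norm_num) (by norm_num) (by rw [h]; ring)

theorem small_three (hns : ¬ Group.IsSolvable M) {c s : ℕ} (hc : c ∣ 3 ^ 2) (hs : s ≤ 9)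
    (h : Nat.card M = c * s) : False := by
  obtain ⟨k, _, rfl⟩ := (Nat.dvd_prime_pow Nat.prime_three).1 hc
  have h0 : Nat.card M ≠ 0 := Nat.card_pos.ne'
  interval_cases s
  · simp [h] at h0
  · exact not_pq hns 3 2 k 0 (by norm_num) (by norm_num) (by rw [h]; ring)
  · exact not_pq hns 3 2 k 1 (by norm_num) (by norm_num) (by rw [h]; ring)
  · exact not_pq hns 3 2 (k + 1) 0 (by norm_num) (by norm_num) (by rw [h]; ring)
  · exact not_pq hns 3 2 k 2 (by norm_num) (by norm_num) (by rw [h]; ring)
  · exact not_pq hns 3 5 k 1 (by norm_num) (by norm_num) (by rw [h]; ring)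
  · exact not_pq hns 3 2 (k + 1) 1 (by norm_num) (by norm_num) (by rw [h]; ring)
  · exact not_pq hns 3 7 k 1 (by norm_num) (by norm_num) (by rw [h]; ring)
  · exact not_pq hns 3 2 k 3 (by norm_num) (by norm_num) (by rw [h]; ring)
  · exact not_pq hns 3 2 (k + 2) 0 (by norm_num) (by norm_num) (by rw [h]; ring)

theorem small_four (hns : ¬ Group.IsSolvable M) {c s : ℕ} (hc : c ∣ 2 ^ 4) (hs : s ≤ 16)
    (h : Nat.card M = c * s) : ∃ k, k ≤ 4 ∧ Nat.card M = 15 * 2 ^ k := by
  obtain ⟨k, hk, rfl⟩ := (Nat.dvd_prime_pow Nat.prime_two).1 hc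
  have h0 : Nat.card M ≠ 0 := Nat.card_pos.ne'
  by_cases h15 : s = 15
  · exact ⟨k, hk, by rw [h, h15]; ring⟩
  exfalso
  interval_cases s
  · simp [h] at h0
  · exact not_pq hns 2 3 k 0 (by norm_num) (by norm_num) (by rw [h]; ring)
  · exact not_pq hns 2 3 (k + 1) 0 (by norm_num) (by norm_num) (by rw [h]; ring)
  · exact not_pq hns 2 3 k 1 (by norm_num) (by norm_num) (by rw [h]; ring)
  · exact not_pq hns 2 3 (k + 2) 0 (by norm_num) (by norm_num) (by rw [h]; ring)
  · exact not_pq hns 2 5 k 1 (by norm_num) (by norm_num) (by rw [h]; ring)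
  · exact not_pq hns 2 3 (k + 1) 1 (by norm_num) (by norm_num) (by rw [h]; ring)
  · exact not_pq hns 2 7 k 1 (by norm_num) (by norm_num) (by rw [h]; ring)
  · exact not_pq hns 2 3 (k + 3) 0 (by norm_num) (by norm_num) (by rw [h]; ring)
  · exact not_pq hns 2 3 k 2 (by norm_num) (by norm_num) (by rw [h]; ring)
  · exact not_pq hns 2 5 (k + 1) 1 (by norm_num) (by norm_num) (by rw [h]; ring)
  · exact not_pq hns 2 11 k 1 (by norm_num) (by norm_num) (by rw [h]; ring)
  · exact not_pq hns 2 3 (k + 2) 1 (by norm_num) (by norm_num) (by rw [h]; ring)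
  · exact not_pq hns 2 13 k 1 (by norm_num) (by norm_num) (by rw [h]; ring)
  · exact not_pq hns 2 7 (k + 1) 1 (by norm_num) (by norm_num) (by rw [h]; ring)
  · exact h15 rfl
  · exact not_pq hns 2 3 (k + 4) 0 (by norm_num) (by norm_num) (by rw [h]; ring)

theorem isSolvable_of_commutator_le {K : Subgroup M} (h : commutator M ≤ K) (hK : Group.IsSolvable K) :
    Group.IsSolvable M := by
  rw [Group.isSolvable_iff_subgroup_quotient (commutator M)]
  refine ⟨?_, ?_⟩
  · haveI := hK
    exact Group.isSolvable_of_isSolvable_injective (f := Subgroup.inclusion h) (Subgroup.inclusion_injective h)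
  · apply Group.isSolvable_of_comm
    intro a b
    obtain ⟨a, rfl⟩ := QuotientGroup.mk_surjective a
    obtain ⟨b, rfl⟩ := QuotientGroup.mk_surjective b
    rw [← QuotientGroup.mk_mul, ← QuotientGroup.mk_mul, QuotientGroup.eq]
    have e : (a * b)⁻¹ * (b * a) = ⁅b⁻¹, a⁻¹⁆ := by rw [commutatorElement_def]; group
    rw [e]
    exact Subgroup.commutator_mem_commutator (Subgroup.mem_top _) (Subgroup.mem_top _)

theorem exists_five (hns : ¬ Group.IsSolvable M)
    (hmin : ∀ L : Subgroup M, L.Normal → L ≠ ⊥ → commutator M ≤ L) {k : ℕ} (hk : k ≤ 4)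
    (hM : Nat.card M = 15 * 2 ^ k) :
    ∃ J : Subgroup M, J.index ≤ 16 ∧ 5 ∣ Nat.card J ∧ J.normalCore = ⊥ := by
  haveI : Fact (Nat.Prime 5) := ⟨by norm_num⟩
  let P : Sylow 5 M := default
  have h5M : 5 ∣ Nat.card M := by rw [hM]; exact ⟨3 * 2 ^ k, by ring⟩
  have h5P : 5 ∣ Nat.card (P : Subgroup M) := P.dvd_card_of_dvd_card h5M
  set J := Subgroup.normalizer ((P : Subgroup M) : Set M) with hJ
  have hPJ : (P : Subgroup M) ≤ J := Subgroup.le_normalizer
  have h1 : Nat.card (Sylow 5 M) = J.index := P.card_eq_index_normalizer
  have h2 := card_sylow_modEq_one 5 M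
  have h3 := P.card_dvd_index
  have h4 : (P : Subgroup M).index ∣ 3 * 2 ^ k := by
    have e1 : (P : Subgroup M).index ∣ 5 * (3 * 2 ^ k) := by
      have := (P : Subgroup M).index_dvd_card
      rw [hM] at this
      have e : 5 * (3 * 2 ^ k) = 15 * 2 ^ k := by ring
      rw [e]; exact this
    refine Nat.Coprime.dvd_of_dvd_mul_left ?_ e1
    exact ((Nat.Prime.coprime_iff_not_dvd (by norm_num)).2 P.not_dvd_index).symm
  rw [h1] at h2 h3
  have h5 : J.index ∣ 48 := by
    refine (h3.trans h4).trans ?_
    have : 48 = 3 * 2 ^ 4 := by norm_num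
    rw [this]
    exact Nat.mul_dvd_mul_left 3 (pow_dvd_pow 2 hk)
  have h6 : J.index ≤ 48 := Nat.le_of_dvd (by norm_num) h5
  have h7 : J.index = 1 ∨ J.index = 6 ∨ J.index = 16 := by
    have h8 : J.index % 5 = 1 := h2
    generalize J.index = n at h5 h6 h8
    interval_cases n <;> omega
  have hcard := J.card_mul_index
  rw [hM] at hcard
  -- `J` is solvable
  have hJs : J.index ≠ 1 → Group.IsSolvable J := by
    intro hne
    rcases h7 with h7 | h7 | h7
    · exact absurd h7 hne
    · rw [h7] at hcard
      interval_cases k
      · omega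
      · exact Asch.PaQb.isSolvable 5 2 1 0 (by norm_num) (by norm_num) (by omega)
      · exact Asch.PaQb.isSolvable 5 2 1 1 (by norm_num) (by norm_num) (by omega)
      · exact Asch.PaQb.isSolvable 5 2 1 2 (by norm_num) (by norm_num) (by omega)
      · exact Asch.PaQb.isSolvable 5 2 1 3 (by norm_num) (by norm_num) (by omega)
    · rw [h7] at hcard
      interval_cases k
      · omega
      · omega
      · omega
      · omega
      · exact Asch.PaQb.isSolvable 5 3 1 1 (by norm_num) (by norm_num) (by omega)
  have hidx : J.index ≠ 1 := by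
    intro h8
    rw [Subgroup.index_eq_one] at h8
    have hPn : (P : Subgroup M).Normal := Subgroup.normalizer_eq_top_iff.1 h8
    have hP1 : (P : Subgroup M) ≠ ⊥ := by
      intro h0
      rw [h0, Subgroup.card_bot] at h5P
      norm_num at h5P
    apply hns
    apply isSolvable_of_commutator_le (hmin _ hPn hP1)
    have : Group.IsNilpotent (P : Subgroup M) := P.2.isNilpotent
    infer_instance
  refine ⟨J, ?_, ?_, ?_⟩
  · rcases h7 with h7 | h7 | h7 <;> omega
  · exact h5P.trans (Subgroup.card_dvd_of_le hPJ)
  · by_contra hne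
    exact hns (isSolvable_of_commutator_le ((hmin _ J.normalCore_normal hne).trans J.normalCore_le)
      (hJs hidx))

end struct

theorem exists_max {G : Type u} [Group G] [Finite G] (hna : ¬ ∀ x y : G, x * y = y * x) :
    ∃ N : Subgroup G, ∃ _ : N.Normal, (¬ ∀ x y : G ⧸ N, x * y = y * x) ∧
      ∀ L : Subgroup (G ⧸ N), L.Normal → L ≠ ⊥ → commutator (G ⧸ N) ≤ L := by
  classical
  let S : Set (Subgroup G) := {N | N.Normal ∧ ¬ commutator G ≤ N}
  have hS : S.Nonempty := by
    refine ⟨⊥, inferInstance, ?_⟩
    intro h0
    apply hna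
    intro x y
    have : ⁅x, y⁆ ∈ (⊥ : Subgroup G) :=
      h0 (Subgroup.commutator_mem_commutator (Subgroup.mem_top _) (Subgroup.mem_top _))
    rwa [Subgroup.mem_bot, commutatorElement_eq_one_iff_mul_comm] at this
  obtain ⟨N, hN⟩ := (Set.toFinite S).exists_maximal hS
  have hNn : N.Normal := hN.prop.1
  refine ⟨N, hNn, ?_, ?_⟩
  · intro hcomm
    apply hN.prop.2
    rw [commutator_def, Subgroup.commutator_le]
    intro x _ y _
    rw [← QuotientGroup.eq_one_iff]
    have h1 := hcomm (QuotientGroup.mk x) (QuotientGroup.mk y)
    rw [commutatorElement_def, QuotientGroup.mk_mul, QuotientGroup.mk_mul, QuotientGroup.mk_mul,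
      QuotientGroup.mk_inv, QuotientGroup.mk_inv, h1]
    group
  · intro L hL hLne
    by_contra hcon
    have hs := QuotientGroup.mk'_surjective N
    have h1 : L.comap (QuotientGroup.mk' N) ∈ S := by
      refine ⟨inferInstance, ?_⟩
      intro h2
      apply hcon
      have h3 : (commutator G).map (QuotientGroup.mk' N) = commutator (G ⧸ N) := by
        rw [commutator_def, commutator_def, Subgroup.map_commutator, Subgroup.map_top_of_surjective _ hs]
      rw [← h3, Subgroup.map_le_iff_le_comap]
      exact h2
    have hNle : N ≤ L.comap (QuotientGroup.mk' N) := by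
      intro x hx
      rw [Subgroup.mem_comap]
      have : QuotientGroup.mk' N x = 1 := (QuotientGroup.eq_one_iff x).2 hx
      rw [this]; exact one_mem _
    have h2 := hN.le_of_ge h1 hNle
    apply hLne
    rw [eq_bot_iff]
    intro x hx
    obtain ⟨x, rfl⟩ := hs x
    rw [Subgroup.mem_bot]
    exact (QuotientGroup.eq_one_iff x).2 (h2 hx)

theorem main (b : ℕ) : ∀ (G : Type u) [Group G] [Finite G], BDeg G b → HasAb G ((b !) ^ 2) := by
  classical
  induction b using Nat.strong_induction_on with
  | _ b ih =>
    intro G _ _ h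
    haveI := Fintype.ofFinite G
    by_cases hab : ∀ x y : G, x * y = y * x
    · refine ⟨⊤, fun x _ y _ => hab x y, ?_⟩
      rw [Subgroup.index_top]
      exact Nat.one_le_pow _ _ (Nat.factorial_pos b)
    · obtain ⟨χ, hχ, n, hn, hn2⟩ := exists_nonlinear hab
      have hnb := h.le hχ hn
      have hb2 : 2 ≤ b := hn2.trans hnb
      have hb1 : 1 ≤ b := by omega
      obtain ⟨N, hNn, hna, hmin⟩ := exists_max hab
      have hs := QuotientGroup.mk'_surjective N
      set M := G ⧸ N with hM
      -- descent
      have hfac : b ^ 2 * ((b - 1)!) ^ 2 = (b !) ^ 2 := by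
        rw [← mul_pow, Nat.mul_factorial_pred (by omega)]
      have descent : ∀ K : Subgroup M, K.index ≤ b ^ 2 → BDeg (K.comap (QuotientGroup.mk' N)) (b - 1) →
          HasAb G ((b !) ^ 2) := by
        intro K hK hd
        rw [← hfac]
        apply HasAb.of_sub (H := K.comap (QuotientGroup.mk' N))
        · rw [Subgroup.index_comap_of_surjective K hs]; exact hK
        · exact ih (b - 1) (by omega) _ hd
      have hhalf := h.half hna
      have descentN : ∀ m, Nat.card M ≤ m → HasAb G (m * ((b / 2)!) ^ 2) := by
        intro m hm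
        apply HasAb.of_sub (H := N) (k := m) hm
        exact ih (b / 2) (by omega) _ hhalf
      have hDne : commutator M ≠ ⊥ := by
        intro h0
        apply hna
        intro x y
        have : ⁅x, y⁆ ∈ (⊥ : Subgroup M) := by
          rw [← h0]; exact Subgroup.commutator_mem_commutator (Subgroup.mem_top _) (Subgroup.mem_top _)
        rwa [Subgroup.mem_bot, commutatorElement_eq_one_iff_mul_comm] at this
      by_cases hZ : Subgroup.center M = ⊥
      swap
      · obtain ⟨h1, h2⟩ := h.caseA hb1 N hna hmin hZ
        exact descent _ h1 h2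
      by_cases hDab : ∀ x ∈ commutator M, ∀ y ∈ commutator M, x * y = y * x
      · -- case B
        set C := Subgroup.centralizer ((commutator M : Subgroup M) : Set M) with hC
        have hCi : C.index ≤ b := index_le (h.quot N) hDab hZ hmin hDne
        by_cases hd : BDeg (C.comap (QuotientGroup.mk' N)) (b - 1)
        · exact descent C (hCi.trans (by nlinarith)) hd
        · have h1 := h.caseB hb1 N hZ C (fun x hx y hy => cent_comm hDab hZ hx hy) hd
          have hcard := C.card_mul_index
          by_cases hb3 : 3 ≤ b
          · have h2 : Nat.card M ≤ b ^ 3 := by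
              rw [← hcard]
              calc Nat.card C * C.index ≤ b ^ 2 * b :=
                    Nat.mul_le_mul (Nat.le_of_dvd (by positivity) h1) hCi
                _ = b ^ 3 := by ring
            exact (descentN _ h2).mono (arithB hb3)
          · exfalso
            have hb : b = 2 := by omega
            rw [hb] at h1 hCi
            obtain ⟨k, _, hk⟩ := (Nat.dvd_prime_pow Nat.prime_two).1 h1
            have h3 : C.index ≠ 0 := Subgroup.index_ne_zero_of_finite
            have h4 : ∃ j, Nat.card M = 2 ^ j := by
              have h5 : C.index = 1 ∨ C.index = 2 := by omega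
              rcases h5 with h5 | h5
              · exact ⟨k, by rw [← hcard, hk, h5, mul_one]⟩
              · exact ⟨k + 1, by rw [← hcard, hk, h5]; ring⟩
            obtain ⟨j, hj⟩ := h4
            have hMp : IsPGroup 2 M := IsPGroup.of_card hj
            haveI : Fact (Nat.Prime 2) := ⟨Nat.prime_two⟩
            haveI : Nontrivial M := by
              by_contra hcon
              rw [not_nontrivial_iff_subsingleton] at hcon
              exact hna (fun x y => Subsingleton.elim _ _)
            have := hMp.center_nontrivial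
            rw [Subgroup.nontrivial_iff_ne_bot] at this
            exact this hZ
      · -- case C
        have hns := not_solvable hmin hDab
        have hMcard : 1 < Nat.card M := by
          rw [Finite.one_lt_card_iff_nontrivial]
          by_contra hcon
          rw [not_nontrivial_iff_subsingleton] at hcon
          exact hna (fun x y => Subsingleton.elim _ _)
        have hCD : Subgroup.centralizer ((commutator M : Subgroup M) : Set M) = ⊥ := by
          by_contra hne
          apply hDab
          intro x hx y hy
          exact ((Subgroup.mem_centralizer_iff.1 (hmin _ inferInstance hne hx)) y hy).symm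
        haveI : Fintype M := Fintype.ofFinite _
        obtain ⟨x, hx1, hxi⟩ := (h.quot N).exists_small hMcard
        set K := Subgroup.centralizer ({x} : Set M) with hK
        have hcore : K.normalCore = ⊥ := by
          by_contra hne
          have h1 := (hmin _ K.normalCore_normal hne).trans K.normalCore_le
          apply hx1
          rw [← Subgroup.mem_bot, ← hCD, Subgroup.mem_centralizer_iff]
          intro d hd
          exact Subgroup.mem_centralizer_singleton_iff.1 (h1 hd)
        by_cases hd : BDeg (K.comap (QuotientGroup.mk' N)) (b - 1)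
        · exact descent K hxi hd
        · have h1 := h.core_dvd hb1 N K hcore hd
          have hcard := K.card_mul_index
          by_cases hb5 : 5 ≤ b
          · have h2 : Nat.card M ≤ b ^ 4 := by
              rw [← hcard]
              calc Nat.card K * K.index ≤ b ^ 2 * b ^ 2 :=
                    Nat.mul_le_mul (Nat.le_of_dvd (by positivity) h1) hxi
                _ = b ^ 4 := by ring
            exact (descentN _ h2).mono (arithC hb5)
          · have hb : b = 2 ∨ b = 3 ∨ b = 4 := by omega
            rcases hb with hb | hb | hb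
            · exfalso
              rw [hb] at h1 hxi
              exact small_two hns h1 hxi hcard.symm
            · exfalso
              rw [hb] at h1 hxi
              exact small_three hns h1 hxi hcard.symm
            · have h1' : Nat.card K ∣ 2 ^ 4 := by rw [hb] at h1; exact h1
              have hxi' : K.index ≤ 16 := by rw [hb] at hxi; exact hxi
              obtain ⟨k, hk, hk2⟩ := small_four hns h1' hxi' hcard.symm
              obtain ⟨J, hJ1, hJ2, hJ3⟩ := exists_five hns hmin hk hk2
              have hJi : J.index ≤ b ^ 2 := by rw [hb]; exact hJ1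
              apply descent J hJi
              by_contra hd2
              have h3 := h.core_dvd hb1 N J hJ3 hd2
              rw [hb] at h3
              have h4 := hJ2.trans h3
              norm_num at h4

end Cfsg.Agent.H62.BD
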