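import Mathlib
import Cfsg.Agent.HH.GroupC
import Cfsg.Agent.H17.Orbits

set_option autoImplicit false

/-!
The exceptional case of the coprime Hall-Higman theorem against fixed-point-free actions (helper62).
-/

namespace Cfsg.Agent.H62.ExcFix

open Cfsg.Agent.HH Module
open scoped commutatorElement

universe u v w

/-! ### arithmetic -/

theorem ord_mul {p a m b : ℕ} (hp : p.Prime) (hp2 : p ≠ 2) (ha : 1 ≤ a) (hb : 1 ≤ b) (heq : p ^ a - 1 = 2 ^ b)
    {n : ℕ} (han : a ≤ n) (hm : 1 ≤ m) (hdvd : p ^ n ∣ 2 ^ m - 1) : 2 * b * p ^ (n - a) ≤ m := by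
  have hpa : 2 ^ b + 1 = p ^ a := by
    have := Nat.pos_of_ne_zero (pow_ne_zero a hp.ne_zero)
    omega
  have hp3 : 3 ≤ p := by
    have := hp.two_le; omega
  -- the order of `2` modulo `p ^ a` is `2 b`
  have hlt : ∀ i, i < b → 2 ^ i + 1 < p ^ a := by
    intro i hi
    have : 2 ^ i < 2 ^ b := Nat.pow_lt_pow_right (by norm_num) hi
    omega
  have hdvd' : p ^ a ∣ 2 ^ m - 1 := (pow_dvd_pow p han).trans hdvd
  have h2b : p ^ a ∣ 2 ^ (2 * b) - 1 := by
    have h1 : 2 ^ (2 * b) - 1 = (2 ^ b + 1) * (2 ^ b - 1) := by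
      rw [mul_comm 2 b, pow_mul, ← Nat.sq_sub_sq, one_pow]
    rw [h1, hpa]
    exact dvd_mul_right _ _
  have hpadvd : ∀ c, c ≠ 0 → c < p ^ a → ¬ p ^ a ∣ c := fun c h0 hlt h => absurd (Nat.le_of_dvd (Nat.pos_of_ne_zero h0) h) (by omega)
  have hgcd : p ^ a ∣ 2 ^ (Nat.gcd m (2 * b)) - 1 := by
    have := Nat.dvd_gcd hdvd' h2b
    rwa [Nat.pow_sub_one_gcd_pow_sub_one] at this
  set g := Nat.gcd m (2 * b) with hg
  have hg1 : 1 ≤ g := Nat.gcd_pos_of_pos_left _ hm
  have hg2 : g ∣ 2 * b := Nat.gcd_dvd_right _ _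
  have hgm : g ∣ m := Nat.gcd_dvd_left _ _
  have hgb : b < g := by
    by_contra hcon
    push Not at hcon
    have h1 : 2 ^ g - 1 < p ^ a := by
      have : 2 ^ g ≤ 2 ^ b := Nat.pow_le_pow_right (by norm_num) hcon
      omega
    exact hpadvd _ (by
      have : 2 ^ 1 ≤ 2 ^ g := Nat.pow_le_pow_right (by norm_num) hg1
      omega) h1 hgcd
  have hg3 : g = 2 * b := by
    obtain ⟨c, hc⟩ := hg2
    rcases Nat.lt_or_ge c 2 with h1 | h1
    · interval_cases c
      · omega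
      · omega
    · exfalso
      have : g * 2 ≤ g * c := Nat.mul_le_mul_left _ h1
      omega
  rw [hg3] at hgm
  obtain ⟨c, rfl⟩ := hgm
  have hc0 : c ≠ 0 := by rintro rfl; omega
  -- lifting the exponent
  haveI : Fact p.Prime := ⟨hp⟩
  have hpodd : Odd p := hp.odd_of_ne_two hp2
  have hp2b : p ∣ 2 ^ (2 * b) - 1 := (dvd_pow_self p (by omega)).trans h2b
  have hpn2 : ¬ p ∣ 2 ^ (2 * b) := by
    intro h
    have := (Nat.prime_dvd_prime_iff_eq hp Nat.prime_two).1 (hp.dvd_of_dvd_pow h)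
    exact hp2 this
  have hv1 : padicValNat p (2 ^ (2 * b) - 1) = a := by
    have h1 : 2 ^ (2 * b) - 1 = (2 ^ b + 1) * (2 ^ b - 1) := by
      rw [mul_comm 2 b, pow_mul, ← Nat.sq_sub_sq, one_pow]
    have h2 : 2 ^ b - 1 ≠ 0 := by
      have : 2 ^ 1 ≤ 2 ^ b := Nat.pow_le_pow_right (by norm_num) hb
      omega
    rw [h1, hpa, padicValNat.mul (pow_ne_zero _ hp.ne_zero) h2, padicValNat.prime_pow]
    have h3 : ¬ p ∣ 2 ^ b - 1 := by
      intro h
      have h4 : p ∣ 2 ^ b + 1 := by rw [hpa]; exact dvd_pow_self p (by omega)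
      have h5 : p ∣ 2 := by
        have h6 := Nat.dvd_sub h4 h
        have h7 : 2 ^ b + 1 - (2 ^ b - 1) = 2 := by
          have : 2 ^ 1 ≤ 2 ^ b := Nat.pow_le_pow_right (by norm_num) hb
          omega
        rwa [h7] at h6
      exact hp2 ((Nat.prime_dvd_prime_iff_eq hp Nat.prime_two).1 h5)
    rw [padicValNat.eq_zero_of_not_dvd h3, add_zero]
  have hne : 2 ^ (2 * b * c) - 1 ≠ 0 := by
    have : 2 ^ 1 ≤ 2 ^ (2 * b * c) := Nat.pow_le_pow_right (by norm_num) hm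
    omega
  have hv2 : padicValNat p (2 ^ (2 * b * c) - 1) = a + padicValNat p c := by
    have h1 := padicValNat.pow_sub_pow (p := p) (x := 2 ^ (2 * b)) (y := 1) hpodd (by
      have : 2 ^ 1 ≤ 2 ^ (2 * b) := Nat.pow_le_pow_right (by norm_num) (by omega)
      omega) hp2b hpn2 hc0
    rw [one_pow, ← pow_mul, hv1] at h1
    exact h1
  have hn : n ≤ a + padicValNat p c := by
    rw [← hv2]
    exact (padicValNat_dvd_iff_le hne).1 hdvd
  have h3 : p ^ (n - a) ∣ c := (pow_dvd_pow p (by omega)).trans pow_padicValNat_dvd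
  exact Nat.mul_le_mul_left _ (Nat.le_of_dvd (Nat.pos_of_ne_zero hc0) h3)


/-! ### semiregular action on cosets -/

section Act

variable {G : Type u} [Group G]

/-- conjugation action on cosets -/
@[reducible] def qact (K Q Z : Subgroup G) (hQ : ∀ k ∈ K, ∀ g ∈ Q, k * g * k⁻¹ ∈ Q)
    (hZ : ∀ k ∈ K, ∀ g ∈ Z, k * g * k⁻¹ ∈ Z) : MulAction K (Q ⧸ Z.subgroupOf Q) where
  smul k := Quotient.map' (fun g : Q => (⟨k * g * k⁻¹, hQ k k.2 g g.2⟩ : Q)) (by
    intro a b hab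
    rw [QuotientGroup.leftRel_apply] at hab ⊢
    rw [Subgroup.mem_subgroupOf] at hab ⊢
    have := hZ k k.2 _ hab
    rw [Subgroup.coe_mul, Subgroup.coe_inv]
    rw [Subgroup.coe_mul, Subgroup.coe_inv] at this
    convert this using 1
    push_cast
    group)
  one_smul := by
    intro q
    induction q using Quotient.inductionOn' with
    | _ a =>
      change Quotient.mk'' _ = Quotient.mk'' _
      congr 1
      apply Subtype.ext
      simp
  mul_smul := by
    intro k l q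
    induction q using Quotient.inductionOn' with
    | _ a =>
      change Quotient.mk'' _ = Quotient.mk'' _
      congr 1
      apply Subtype.ext
      simp [mul_assoc]

theorem card_dvd_relIndex_sub_one [Finite G] (K Q Z : Subgroup G) (hQ : ∀ k ∈ K, ∀ g ∈ Q, k * g * k⁻¹ ∈ Q)
    (hZ : ∀ k ∈ K, ∀ g ∈ Z, k * g * k⁻¹ ∈ Z)
    (hfree : ∀ k ∈ K, k ≠ 1 → ∀ g ∈ Q, g⁻¹ * (k * g * k⁻¹) ∈ Z → g ∈ Z) :
    Nat.card K ∣ Z.relIndex Q - 1 := by
  letI := qact K Q Z hQ hZ
  have h1 := H17.card_modEq_one_of_fixed (K := K) (X := Q ⧸ Z.subgroupOf Q) (Nat.card K)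
    (Quotient.mk'' 1) (by
      intro k
      change Quotient.mk'' _ = Quotient.mk'' _
      congr 1
      apply Subtype.ext
      simp) (by
      intro q hq
      have h2 : MulAction.stabilizer K q = ⊥ := by
        rw [eq_bot_iff]
        intro k hk
        rw [Subgroup.mem_bot]
        by_contra hk1
        apply hq
        rw [MulAction.mem_stabilizer_iff] at hk
        revert hk
        induction q using Quotient.inductionOn' with
        | _ a =>
          intro hk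
          have h3 : (Quotient.mk'' (⟨k * a * (k : G)⁻¹, hQ k k.2 a a.2⟩ : Q) : Q ⧸ Z.subgroupOf Q) =
            Quotient.mk'' a := hk
          rw [eq_comm, Quotient.eq'', QuotientGroup.leftRel_apply, Subgroup.mem_subgroupOf,
            Subgroup.coe_mul, Subgroup.coe_inv] at h3
          have h4 := hfree k k.2 (fun h => hk1 (Subtype.ext h)) a a.2 h3
          rw [Quotient.eq'', QuotientGroup.leftRel_apply, Subgroup.mem_subgroupOf]
          simpa using h4
      rw [h2, Subgroup.index_bot])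
  have h2 : Nat.card (Q ⧸ Z.subgroupOf Q) = Z.relIndex Q := rfl
  rw [h2] at h1
  exact (Nat.modEq_iff_dvd' (Nat.pos_of_ne_zero Subgroup.index_ne_zero_of_finite)).1 h1.symm

end Act

/-! ### the contradiction -/

variable {K : Type w} [Field K] {V : Type v} [AddCommGroup V] [Module K V]
variable {G : Type u} [Group G]

theorem exc_contra [Finite G] {ρ : Representation K G V} {p q n k₁ n₀ b : ℕ} [hp : Fact p.Prime] [hq : Fact q.Prime]
    {x : G} {L Q R : Subgroup G} {W U : Submodule K V} (hx : orderOf x = p ^ n)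
    (M : MinQ x p n q L Q) (h : ExcData ρ Q x p n q W k₁ n₀ b U R)
    (harith : ∀ m, 1 ≤ m → p ^ n ∣ q ^ m - 1 → 2 * b * p ^ k₁ ≤ m)
    (hfix : ∀ g ∈ Q, x * g * x⁻¹ = g → g = 1) : False := by
  classical
  have hfin : ∀ g : G, IsOfFinOrder g := fun g => isOfFinOrder_of_finite g
  set N := p ^ k₁ with hN
  have hN0 : 0 < N := pow_pos hp.out.pos _
  have hle := h.le
  have hxN : Subgroup.zpowers x ≤ Subgroup.normalizer (Q : Set G) := by
    rw [Subgroup.zpowers_le]; exact M.norm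
  have hcQ : ∀ c ∈ Subgroup.zpowers x, ∀ g ∈ Q, c * g * c⁻¹ ∈ Q := fun c hc g hg =>
    (Subgroup.mem_normalizer_iff.1 (hxN hc) g).1 hg
  have hcQ' : ∀ c ∈ Subgroup.zpowers x, ∀ g ∈ Q, c⁻¹ * g * c ∈ Q := fun c hc g hg =>
    (Subgroup.mem_normalizer_iff''.1 (hxN hc) g).1 hg
  have hxz : ∀ j : ℕ, x ^ j ∈ Subgroup.zpowers x := fun j => Subgroup.pow_mem _ (Subgroup.mem_zpowers x) j
  -- stability of `U`
  have hUy : ∀ c ∈ Subgroup.zpowers (x ^ N), ∀ w ∈ U, ρ c w ∈ U := stable_zpowers (hfin _) h.invy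
  have hRQ : ∀ g ∈ R, g ∈ Q := fun g hg => ((h.memR g).1 hg).1
  -- `R` is normalised by `x ^ N`
  have hRN : ∀ c ∈ Subgroup.zpowers (x ^ N), ∀ g ∈ R, c⁻¹ * g * c ∈ R := by
    intro c hc g hg
    have hczx : c ∈ Subgroup.zpowers x := by
      have : Subgroup.zpowers (x ^ N) ≤ Subgroup.zpowers x := by
        rw [Subgroup.zpowers_le]; exact hxz N
      exact this hc
    rw [h.memR] at hg ⊢
    refine ⟨hcQ' c hczx g hg.1, fun k hk w hw => ?_⟩
    have h4 := hg.2 _ (hcQ c hczx k hk) _ (hUy c hc w hw)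
    have h5 : ρ (c⁻¹ * g * c) (ρ k w) = ρ c⁻¹ (ρ g (ρ (c * k * c⁻¹) (ρ c w))) := by
      simp only [← rho_mul]; congr 2; group
    have h6 : ρ k (ρ (c⁻¹ * g * c) w) = ρ c⁻¹ (ρ (c * k * c⁻¹) (ρ g (ρ c w))) := by
      simp only [← rho_mul]; congr 2; group
    rw [h5, h6, h4]
  -- the conjugates of `R`
  let Rj : ℕ → Subgroup G := fun j => R.map (MulAut.conj (x ^ j)).toMonoidHom
  have hRj : ∀ j g, g ∈ Rj j ↔ (x ^ j)⁻¹ * g * x ^ j ∈ R := by
    intro j g
    constructor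
    · rintro ⟨r, hr, rfl⟩
      change (x ^ j)⁻¹ * (x ^ j * r * (x ^ j)⁻¹) * x ^ j ∈ R
      have : (x ^ j)⁻¹ * (x ^ j * r * (x ^ j)⁻¹) * x ^ j = r := by group
      rw [this]; exact hr
    · intro hg
      refine ⟨_, hg, ?_⟩
      change x ^ j * ((x ^ j)⁻¹ * g * x ^ j) * (x ^ j)⁻¹ = g
      group
  have hRjQ : ∀ j, Rj j ≤ Q := by
    intro j g hg
    have h1 := hcQ _ (hxz j) _ (hRQ _ ((hRj j g).1 hg))
    have h2 : x ^ j * ((x ^ j)⁻¹ * g * x ^ j) * (x ^ j)⁻¹ = g := by group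
    rwa [h2] at h1
  have hRcard : ∀ j, Nat.card (Rj j) = Nat.card R := by
    intro j
    exact Nat.card_congr (Subgroup.equivMapOfInjective R _ (MulAut.conj (x ^ j)).injective).toEquiv.symm
  have hRrel : ∀ j, (Rj j).relIndex Q = q ^ (2 * b) := by
    intro j
    have h1 := Subgroup.relIndex_mul_relIndex ⊥ (Rj j) Q bot_le (hRjQ j)
    have h2 := Subgroup.relIndex_mul_relIndex ⊥ R Q bot_le (fun g hg => hRQ g hg)
    rw [Subgroup.relIndex_bot_left, Subgroup.relIndex_bot_left] at h1 h2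
    rw [hRcard, ← h2, h.relR] at h1
    exact Nat.eq_of_mul_eq_mul_left Nat.card_pos h1
  have hcommj : ∀ j, ∀ g ∈ Rj j, ∀ k ∈ Q, ∀ w ∈ U, ρ g (ρ k (ρ (x ^ j) w)) = ρ k (ρ g (ρ (x ^ j) w)) := by
    intro j g hg k hk w hw
    have h1 := ((h.memR _).1 ((hRj j g).1 hg)).2 _ (hcQ' _ (hxz j) k hk) w hw
    have h2 : ρ g (ρ k (ρ (x ^ j) w)) = ρ (x ^ j) (ρ ((x ^ j)⁻¹ * g * x ^ j) (ρ ((x ^ j)⁻¹ * k * x ^ j) w)) := by
      simp only [← rho_mul]; congr 2; group
    have h3 : ρ k (ρ g (ρ (x ^ j) w)) = ρ (x ^ j) (ρ ((x ^ j)⁻¹ * k * x ^ j) (ρ ((x ^ j)⁻¹ * g * x ^ j) w)) := by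
      simp only [← rho_mul]; congr 2; group
    rw [h2, h3, h1]
  -- the intersection
  let T : ℕ → Subgroup G := fun k => Nat.rec Q (fun i S => S ⊓ Rj (i + 1)) k
  have hT0 : T 0 = Q := rfl
  have hTs : ∀ k, T (k + 1) = T k ⊓ Rj (k + 1) := fun k => rfl
  have hTmem : ∀ k g, g ∈ T k ↔ g ∈ Q ∧ ∀ j, 1 ≤ j → j ≤ k → g ∈ Rj j := by
    intro k
    induction k with
    | zero =>
      intro g
      rw [hT0]
      exact ⟨fun hg => ⟨hg, fun j h1 h2 => absurd h1 (by omega)⟩, fun hg => hg.1⟩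
    | succ k ih =>
      intro g
      rw [hTs, Subgroup.mem_inf, ih]
      constructor
      · rintro ⟨⟨h1, h2⟩, h3⟩
        refine ⟨h1, fun j hj1 hj2 => ?_⟩
        rcases Nat.lt_or_ge j (k + 1) with h4 | h4
        · exact h2 j hj1 (by omega)
        · have : j = k + 1 := by omega
          rw [this]; exact h3
      · rintro ⟨h1, h2⟩
        exact ⟨⟨h1, fun j hj1 hj2 => h2 j hj1 (by omega)⟩, h2 _ (by omega) le_rfl⟩
  have hTrel : ∀ k, (T k).relIndex Q ≤ q ^ (2 * b * k) := by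
    intro k
    induction k with
    | zero => rw [hT0, Subgroup.relIndex_self]; simp
    | succ k ih =>
      rw [hTs]
      refine (Subgroup.relIndex_inf_le).trans ?_
      rw [hRrel, Nat.mul_succ, pow_add]
      exact Nat.mul_le_mul_right _ ih
  -- the full intersection
  let D : Subgroup G :=
    { carrier := {g | g ∈ Q ∧ ∀ j : ℕ, (x ^ j)⁻¹ * g * x ^ j ∈ R}
      one_mem' := ⟨Q.one_mem, fun j => by
        have : (x ^ j)⁻¹ * 1 * x ^ j = 1 := by group
        rw [this]; exact R.one_mem⟩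
      mul_mem' := by
        rintro a c ⟨ha, ha'⟩ ⟨hc, hc'⟩
        refine ⟨Q.mul_mem ha hc, fun j => ?_⟩
        have : (x ^ j)⁻¹ * (a * c) * x ^ j = ((x ^ j)⁻¹ * a * x ^ j) * ((x ^ j)⁻¹ * c * x ^ j) := by group
        rw [this]; exact R.mul_mem (ha' j) (hc' j)
      inv_mem' := by
        rintro a ⟨ha, ha'⟩
        refine ⟨Q.inv_mem ha, fun j => ?_⟩
        have : (x ^ j)⁻¹ * a⁻¹ * x ^ j = ((x ^ j)⁻¹ * a * x ^ j)⁻¹ := by group
        rw [this]; exact R.inv_mem (ha' j) }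
  have hDQ : D ≤ Q := fun g hg => hg.1
  have hDR : D ≤ R := by
    intro g hg
    have := hg.2 0
    simpa using this
  have hDlt : D < Q := by
    refine lt_of_le_of_ne hDQ ?_
    intro heq
    obtain ⟨g, hg, hgR⟩ := h.neR
    rw [← heq] at hg
    exact hgR (hDR hg)
  have hxpow : x ^ p ^ n = 1 := by rw [← hx, pow_orderOf_eq_one]
  have hDx : ∀ g ∈ D, x * g * x⁻¹ ∈ D := by
    rintro g ⟨hg, hg'⟩
    refine ⟨?_, fun j => ?_⟩
    · have := hcQ x (Subgroup.mem_zpowers x) g hg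
      exact this
    · have h1 := hg' (j + (p ^ n - 1))
      have h2 : x ^ (j + (p ^ n - 1)) = x⁻¹ * x ^ j := by
        have h3 : x ^ (j + (p ^ n - 1)) * x = x ^ j := by
          rw [← pow_succ, show j + (p ^ n - 1) + 1 = j + p ^ n by
            have := Nat.pos_of_ne_zero (pow_ne_zero n hp.out.ne_zero); omega, pow_add, hxpow, mul_one]
        have h4 : x ^ (j + (p ^ n - 1)) = x ^ j * x⁻¹ := by rw [← h3]; group
        rw [h4]; group
      rw [h2] at h1
      have h3 : (x⁻¹ * x ^ j)⁻¹ * g * (x⁻¹ * x ^ j) = (x ^ j)⁻¹ * (x * g * x⁻¹) * x ^ j := by group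
      rwa [h3] at h1
  have hDxj : ∀ j : ℕ, ∀ g ∈ D, x ^ j * g * (x ^ j)⁻¹ ∈ D := by
    intro j
    induction j with
    | zero => intro g hg; simpa using hg
    | succ j ih =>
      intro g hg
      have h1 := hDx _ (ih g hg)
      have h2 : x * (x ^ j * g * (x ^ j)⁻¹) * x⁻¹ = x ^ (j + 1) * g * (x ^ (j + 1))⁻¹ := by
        rw [pow_succ']; group
      rwa [h2] at h1
  have hDnorm : x ∈ Subgroup.normalizer (D : Set G) := by
    rw [Subgroup.mem_normalizer_iff]
    intro g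
    refine ⟨fun hg => hDx g hg, fun hg => ?_⟩
    have h1 := hDxj (p ^ n - 1) _ hg
    have h2 : x ^ (p ^ n - 1) = x⁻¹ := by
      rw [eq_inv_iff_mul_eq_one, ← pow_succ, Nat.sub_add_cancel (Nat.pos_of_ne_zero (pow_ne_zero n hp.out.ne_zero)),
        hxpow]
    rw [h2] at h1
    have h3 : x⁻¹ * (x * g * x⁻¹) * x⁻¹⁻¹ = g := by group
    rwa [h3] at h1
  set Z : Subgroup G := Q ⊓ Subgroup.centralizer (Q : Set G) with hZ
  have hZmem : ∀ g, g ∈ Z ↔ g ∈ Q ∧ ∀ h ∈ Q, g * h = h * g := by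
    intro g
    rw [hZ, Subgroup.mem_inf, Subgroup.mem_centralizer_iff]
    exact and_congr_right (fun _ => ⟨fun h k hk => (h k hk).symm, fun h k hk => (h k hk).symm⟩)
  have hDZ : D ≤ Z := by
    intro g hg
    rw [hZmem]
    refine ⟨hDQ hg, M.cent g (hDQ hg) ?_⟩
    have h1 := M.min D hDlt hDnorm
    have h2 : ⁅g, x ^ p ^ (n - 1)⁆ ∈ ⁅D, Subgroup.zpowers (x ^ p ^ (n - 1))⁆ :=
      Subgroup.commutator_mem_commutator hg (Subgroup.mem_zpowers _)
    rw [h1, Subgroup.mem_bot, commutatorElement_eq_one_iff_mul_comm] at h2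
    exact h2.symm
  -- the index of `Z`
  have hZx : ∀ c ∈ Subgroup.zpowers x, ∀ g ∈ Z, c * g * c⁻¹ ∈ Z := by
    intro c hc g hg
    rw [hZmem] at hg ⊢
    refine ⟨hcQ c hc g hg.1, fun k hk => ?_⟩
    have h4 := hg.2 _ (hcQ' c hc k hk)
    calc c * g * c⁻¹ * k = c * (g * (c⁻¹ * k * c)) * c⁻¹ := by group
      _ = c * ((c⁻¹ * k * c) * g) * c⁻¹ := by rw [h4]
      _ = _ := by group
  obtain ⟨e, he⟩ := IsPGroup.iff_card.1 M.isP
  have hcopQ : ∀ c ∈ Subgroup.zpowers x, (Nat.card (Subgroup.zpowers c)).Coprime (Nat.card Q) := by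
    intro c hc
    have h4 : Nat.card (Subgroup.zpowers c) ∣ p ^ n := by
      rw [← hx, ← Nat.card_zpowers]
      exact Subgroup.card_dvd_of_le (by rw [Subgroup.zpowers_le]; exact hc)
    rw [he]
    exact Nat.Coprime.coprime_dvd_left h4 (Nat.Coprime.pow _ _ ((Nat.coprime_primes hp.out hq.out).2 M.ne))
  have hdvd : p ^ n ∣ Z.relIndex Q - 1 := by
    have h1 := card_dvd_relIndex_sub_one (Subgroup.zpowers x) Q Z hcQ hZx (by
      intro c hc hc1 g hg hcg
      have h4 : x ^ p ^ (n - 1) ∈ Subgroup.zpowers c := mem_zpowers_of_ne_one hx hc hc1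
      have hcz : Subgroup.zpowers c ≤ Subgroup.zpowers x := by rw [Subgroup.zpowers_le]; exact hc
      have hQZ : ∀ k ∈ Q, ∀ g ∈ Z, k * g * k⁻¹ ∈ Z := by
        intro k hk g hg
        rw [hZmem] at hg
        have : k * g * k⁻¹ = g := by rw [← hg.2 k hk]; group
        rw [this, hZmem]; exact hg
      have h6 : c * g * c⁻¹ * g⁻¹ ∈ Z := by
        have h7 := hQZ g hg _ hcg
        have h8 : g * (g⁻¹ * (c * g * c⁻¹)) * g⁻¹ = c * g * c⁻¹ * g⁻¹ := by group
        rwa [h8] at h7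
      have hstep : ∀ j : ℕ, c ^ j * g * (c ^ j)⁻¹ * g⁻¹ ∈ Z := by
        intro j
        induction j with
        | zero => simp [Z.one_mem]
        | succ j ih =>
          have h7 := hZx c hc _ ih
          have h8 : c ^ (j + 1) * g * (c ^ (j + 1))⁻¹ * g⁻¹ =
              (c * (c ^ j * g * (c ^ j)⁻¹ * g⁻¹) * c⁻¹) * (c * g * c⁻¹ * g⁻¹) := by
            rw [pow_succ']; group
          rw [h8]
          exact Z.mul_mem h7 h6
      obtain ⟨d, ⟨hdQ1, hdC⟩, hdR⟩ := Cop.fixed_points_quotient (Subgroup.zpowers c) Q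
        (hcz.trans hxN) (hcopQ c hc)
        (Or.inl inferInstance) Z (fun g hg => hg.1) (by
          intro k hk
          rw [Subgroup.mem_normalizer_iff]
          intro g
          refine ⟨fun hg => hQZ k hk g hg, fun hg => ?_⟩
          have := hQZ k⁻¹ (Q.inv_mem hk) _ hg
          have h7 : k⁻¹ * (k * g * k⁻¹) * k⁻¹⁻¹ = g := by group
          rwa [h7] at this) (by
          intro k hk
          rw [Subgroup.mem_normalizer_iff]
          intro g
          refine ⟨fun hg => hZx k (hcz hk) g hg, fun hg => ?_⟩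
          have := hZx k⁻¹ (Subgroup.inv_mem _ (hcz hk)) _ hg
          have h7 : k⁻¹ * (k * g * k⁻¹) * k⁻¹⁻¹ = g := by group
          rwa [h7] at this) g hg (by
          intro a ha
          obtain ⟨j, rfl⟩ := (Submonoid.mem_powers_iff a c).1 ((hfin c).mem_powers_iff_mem_zpowers.2 ha)
          exact hstep j)
      have hdZ : d ∈ Z := by
        rw [hZmem]
        exact ⟨hdQ1, M.cent d hdQ1 (Subgroup.mem_centralizer_iff.1 hdC _ h4)⟩
      have h9 : g = d * (g⁻¹ * d)⁻¹ := by group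
      rw [h9]
      exact Z.mul_mem hdZ (Z.inv_mem hdR))
    rwa [Nat.card_zpowers, hx] at h1
  obtain ⟨m, hmle, hm⟩ : ∃ m ≤ e, Z.relIndex Q = q ^ m := by
    apply (Nat.dvd_prime_pow hq.out).1
    rw [← he]
    exact Subgroup.relIndex_dvd_card _ _
  have hQZ : ¬ Q ≤ Z := by
    intro hcon
    obtain ⟨g, hg, k, hk, hne⟩ := h.noncomm
    exact hne (((hZmem g).1 (hcon hg)).2 k hk)
  have hm1 : 1 ≤ m := by
    rcases Nat.eq_zero_or_pos m with h0 | h0
    · exfalso
      rw [h0, pow_zero, Subgroup.relIndex_eq_one] at hm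
      exact hQZ hm
    · exact h0
  have hbm := harith m hm1 (by rw [← hm]; exact hdvd)
  -- an element
  obtain ⟨g, hgT, hgZ⟩ : ∃ g ∈ T (N - 1), g ∉ Z := by
    by_contra hcon
    push Not at hcon
    have h1 : Z.relIndex Q ≤ (T (N - 1)).relIndex Q :=
      Subgroup.relIndex_le_of_le_left hcon (by exact Subgroup.index_ne_zero_of_finite)
    rw [hm] at h1
    have h2 := h1.trans (hTrel (N - 1))
    have h3 := (Nat.pow_le_pow_iff_right hq.out.one_lt).1 h2
    have h4 : 2 * b * (N - 1) < 2 * b * N := by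
      apply Nat.mul_lt_mul_of_pos_left (by omega)
      have := h.b_pos
      omega
    omega
  have hgQ : g ∈ Q := ((hTmem _ _).1 hgT).1
  have hgj : ∀ j, 1 ≤ j → j < N → g ∈ Rj j := fun j h1 h2 => ((hTmem _ _).1 hgT).2 j h1 (by omega)
  have hmodj : ∀ j : ℕ, x ^ j = x ^ (j % N) * (x ^ N) ^ (j / N) := by
    intro j
    rw [← pow_mul, ← pow_add, Nat.mod_add_div]
  have hgR : g ∉ R := by
    intro hgR
    apply hgZ
    apply hDZ
    refine ⟨hgQ, fun j => ?_⟩
    have h1 : (x ^ (j % N))⁻¹ * g * x ^ (j % N) ∈ R := by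
      rcases Nat.eq_zero_or_pos (j % N) with h2 | h2
      · rw [h2]; simpa using hgR
      · exact (hRj _ _).1 (hgj _ h2 (Nat.mod_lt _ hN0))
    have h2 := hRN _ (Subgroup.pow_mem _ (Subgroup.mem_zpowers (x ^ N)) (j / N)) _ h1
    rw [hmodj j]
    have h3 : (x ^ (j % N) * (x ^ N) ^ (j / N))⁻¹ * g * (x ^ (j % N) * (x ^ N) ^ (j / N)) =
      ((x ^ N) ^ (j / N))⁻¹ * ((x ^ (j % N))⁻¹ * g * x ^ (j % N)) * (x ^ N) ^ (j / N) := by group
    rw [h3]; exact h2
  rw [h.memR] at hgR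
  push Not at hgR
  obtain ⟨k, hk, w₀, hw₀, hne⟩ := hgR hgQ
  set z₀ := ⁅g, k⁆ with hz₀
  have hz₀Q : z₀ ∈ Q := by
    rw [hz₀, commutatorElement_def]
    exact Q.mul_mem (Q.mul_mem (Q.mul_mem hgQ hk) (Q.inv_mem hgQ)) (Q.inv_mem hk)
  have hz₀Z : z₀ ∈ Z := (hZmem _).2 ⟨hz₀Q, fun a ha => M.class2 g hgQ k hk a ha⟩
  obtain ⟨c, hc⟩ := h.scal z₀ hz₀Q (fun a ha => M.class2 g hgQ k hk a ha)
  have hc1 : c ≠ 1 := by
    intro hc1
    apply hne
    have h1 := hc (ρ k (ρ g w₀)) (h.invQ k hk _ (h.invQ g hgQ _ hw₀))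
    rw [hc1, one_smul] at h1
    rw [← h1]
    simp only [← rho_mul]
    congr 2
    rw [hz₀, commutatorElement_def]; group
  have hw₀0 : w₀ ≠ 0 := by
    rintro rfl
    apply hne
    simp
  have htriv : ∀ j, 1 ≤ j → j < N → ∀ w ∈ U, ρ z₀ (ρ (x ^ j) w) = ρ (x ^ j) w := by
    intro j h1 h2 w hw
    set a := (x ^ j)⁻¹ * (g⁻¹ * k⁻¹) * x ^ j with ha
    have haQ : a ∈ Q := hcQ' _ (hxz j) _ (Q.mul_mem (Q.inv_mem hgQ) (Q.inv_mem hk))
    have h3 : ρ (g⁻¹ * k⁻¹) (ρ (x ^ j) w) = ρ (x ^ j) (ρ a w) := by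
      simp only [← rho_mul]; congr 2; rw [ha]; group
    have h4 : ρ z₀ (ρ (x ^ j) w) = ρ g (ρ k (ρ (x ^ j) (ρ a w))) := by
      rw [← h3]
      simp only [← rho_mul]; congr 2
      rw [hz₀, commutatorElement_def]; group
    rw [h4, hcommj j g (hgj j h1 h2) k hk _ (h.invQ a haQ w hw), ← h3]
    simp only [← rho_mul]; congr 2; group
  have hs : ∀ j : ℕ, ∀ w ∈ U, ρ z₀ (ρ (x ^ j) w) = (if N ∣ j then c else 1) • ρ (x ^ j) w := by
    intro j w hw
    have h1 : ρ (x ^ j) w = ρ (x ^ (j % N)) (ρ ((x ^ N) ^ (j / N)) w) := by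
      rw [← rho_mul, ← hmodj]
    have h2 : ρ ((x ^ N) ^ (j / N)) w ∈ U :=
      hUy _ (Subgroup.pow_mem _ (Subgroup.mem_zpowers (x ^ N)) (j / N)) w hw
    rw [h1]
    by_cases hj : N ∣ j
    · rw [if_pos hj, Nat.mod_eq_zero_of_dvd hj, pow_zero, map_one, Module.End.one_apply]
      exact hc _ h2
    · rw [if_neg hj, one_smul]
      exact htriv _ (Nat.pos_of_ne_zero (fun h0 => hj (Nat.dvd_of_mod_eq_zero h0))) (Nat.mod_lt _ hN0) _ h2
  -- the norm
  let f : ℕ → G := fun j => (x ^ j)⁻¹ * z₀ * x ^ j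
  have hfZ : ∀ j, f j ∈ Z := by
    intro j
    have h1 := hZx (x ^ j)⁻¹ (Subgroup.inv_mem _ (hxz j)) z₀ hz₀Z
    rwa [inv_inv] at h1
  let P : ℕ → G := fun k => Nat.rec 1 (fun i y => y * f i) k
  have hP0 : P 0 = 1 := rfl
  have hPs : ∀ k, P (k + 1) = P k * f k := fun k => rfl
  have hPZ : ∀ k, P k ∈ Z := by
    intro k
    induction k with
    | zero => rw [hP0]; exact Z.one_mem
    | succ k ih => rw [hPs]; exact Z.mul_mem ih (hfZ k)
  have hPx : ∀ k, x⁻¹ * P k * x = (f 0)⁻¹ * P k * f k := by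
    intro k
    induction k with
    | zero => rw [hP0]; group
    | succ k ih =>
      have h1 : x⁻¹ * f k * x = f (k + 1) := by
        change x⁻¹ * ((x ^ k)⁻¹ * z₀ * x ^ k) * x = (x ^ (k + 1))⁻¹ * z₀ * x ^ (k + 1)
        rw [pow_succ]; group
      have h2 : x⁻¹ * P (k + 1) * x = (x⁻¹ * P k * x) * (x⁻¹ * f k * x) := by rw [hPs]; group
      rw [h2, ih, h1, hPs]; group
  have hf0 : f 0 = z₀ := by change (x ^ 0)⁻¹ * z₀ * x ^ 0 = z₀; simp
  have hfn : f (p ^ n) = z₀ := by change (x ^ p ^ n)⁻¹ * z₀ * x ^ p ^ n = z₀; rw [hxpow]; simp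
  have hP1 : P (p ^ n) = 1 := by
    apply hfix _ ((hZmem _).1 (hPZ _)).1
    have h1 := hPx (p ^ n)
    rw [hf0, hfn] at h1
    have h2 : z₀⁻¹ * P (p ^ n) * z₀ = P (p ^ n) := by
      have h3 := ((hZmem _).1 (hPZ (p ^ n))).2 z₀ hz₀Q
      rw [mul_assoc, h3]; group
    rw [h2] at h1
    calc x * P (p ^ n) * x⁻¹ = x * (x⁻¹ * P (p ^ n) * x) * x⁻¹ := by rw [h1]
      _ = _ := by group
  have hPact : ∀ k, ∀ w ∈ U, ρ (P k) w = (∏ j ∈ Finset.range k, if N ∣ j then c else 1) • w := by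
    intro k
    induction k with
    | zero => intro w _; rw [hP0, map_one]; simp
    | succ k ih =>
      intro w hw
      have h1 : ρ (f k) w = (if N ∣ k then c else 1) • w := by
        change ρ ((x ^ k)⁻¹ * z₀ * x ^ k) w = _
        rw [rho_mul, rho_mul, hs k w hw, map_smul, rho_inv_apply]
      rw [hPs, rho_mul, h1, map_smul, ih w hw, Finset.prod_range_succ, smul_smul, mul_comm]
  have hprod : ∀ t, (∏ j ∈ Finset.range (N * t), if N ∣ j then c else 1) = c ^ t := by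
    intro t
    induction t with
    | zero => simp
    | succ t ih =>
      rw [Nat.mul_succ, Finset.prod_range_add, ih, pow_succ]
      congr 1
      obtain ⟨N', hN'⟩ : ∃ N', N = N' + 1 := ⟨N - 1, by omega⟩
      have h1 : ∀ i ∈ Finset.range N, (if N ∣ N * t + i then c else 1) = if i = 0 then c else 1 := by
        intro i hi
        rw [Finset.mem_range] at hi
        have h2 : N ∣ N * t + i ↔ i = 0 := by
          rw [Nat.dvd_add_right (dvd_mul_right N t)]
          constructor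
          · intro h3
            exact Nat.eq_zero_of_dvd_of_lt h3 hi
          · rintro rfl; exact dvd_zero N
        simp only [h2]
      rw [Finset.prod_congr rfl h1, Finset.prod_ite_eq' (Finset.range N) 0 (fun _ => c), if_pos (Finset.mem_range.2 hN0)]
  have hcp : c ^ p ^ (n - k₁) = 1 := by
    have h1 := hPact (p ^ n) w₀ hw₀
    rw [hP1, map_one, Module.End.one_apply] at h1
    have h2 : p ^ n = N * p ^ (n - k₁) := by
      rw [hN, ← pow_add]; congr 1; omega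
    rw [h2, hprod] at h1
    have h3 : (c ^ p ^ (n - k₁) - 1) • w₀ = 0 := by rw [sub_smul, one_smul, ← h1, sub_self]
    rcases smul_eq_zero.1 h3 with h4 | h4
    · exact sub_eq_zero.1 h4
    · exact absurd h4 hw₀0
  have hcq : c ^ q ^ e = 1 := by
    have h0 : z₀ ^ q ^ e = 1 := by
      have h1 : (⟨z₀, hz₀Q⟩ : Q) ^ Nat.card Q = 1 := pow_card_eq_one'
      rw [he] at h1
      exact congrArg Subtype.val h1
    have h1 : ∀ t : ℕ, ρ (z₀ ^ t) w₀ = c ^ t • w₀ := by
      intro t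
      induction t with
      | zero => simp
      | succ t ih =>
        rw [pow_succ, rho_mul, hc w₀ hw₀, map_smul, ih, smul_smul, pow_succ, mul_comm]
    have h2 := h1 (q ^ e)
    rw [h0, map_one, Module.End.one_apply] at h2
    have h3 : (c ^ q ^ e - 1) • w₀ = 0 := by rw [sub_smul, one_smul, ← h2, sub_self]
    rcases smul_eq_zero.1 h3 with h4 | h4
    · exact sub_eq_zero.1 h4
    · exact absurd h4 hw₀0
  apply hc1
  have h1 : orderOf c ∣ 1 := by
    have h2 : (p ^ (n - k₁)).gcd (q ^ e) = 1 :=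
      Nat.Coprime.pow _ _ ((Nat.coprime_primes hp.out hq.out).2 M.ne)
    rw [← h2]
    exact Nat.dvd_gcd (orderOf_dvd_of_pow_eq_one hcp) (orderOf_dvd_of_pow_eq_one hcq)
  exact orderOf_eq_one_iff.1 (Nat.dvd_one.1 h1)

end Cfsg.Agent.H62.ExcFix
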