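import Mathlib
import Cfsg.Agent.Solv.Core

set_option autoImplicit false

/-!
Chains of normal subgroups with nilpotent factors (Fitting height at most `m`) (helper62).
-/

namespace Cfsg.Agent.H62

universe u v

/-- Fitting height at most `m`. -/
def FitChain (G : Type u) [Group G] (m : ℕ) : Prop :=
  ∃ F : Fin (m + 1) → Subgroup G, F 0 = ⊥ ∧ F (Fin.last m) = ⊤ ∧ Monotone F ∧ (∀ i, (F i).Normal) ∧
    ∀ i : Fin m, ∃ k : ℕ, (F i.succ).lowerCentralSeries k ≤ F i.castSucc

namespace FitChain

theorem lcs_mono {G : Type u} [Group G] {S T : Subgroup G} (h : S ≤ T) (k : ℕ) :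
    S.lowerCentralSeries k ≤ T.lowerCentralSeries k := by
  induction k with
  | zero => exact h
  | succ k ih =>
    rw [Subgroup.lowerCentralSeries_succ, Subgroup.lowerCentralSeries_succ]
    exact Subgroup.commutator_mono ih h

theorem lcs_comap_le {G : Type u} [Group G] {H : Type v} [Group H] (f : G →* H) (S : Subgroup H) (k : ℕ) :
    (S.comap f).lowerCentralSeries k ≤ (S.lowerCentralSeries k).comap f := by
  rw [← Subgroup.map_le_iff_le_comap, Subgroup.map_lowerCentralSeries]
  exact lcs_mono (Subgroup.map_comap_le f S) k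

theorem zero_iff {G : Type u} [Group G] : FitChain G 0 ↔ Subsingleton G := by
  constructor
  · rintro ⟨F, h0, hl, -⟩
    have h1 : (⊥ : Subgroup G) = ⊤ := by rw [← h0, ← hl]; rfl
    exact (Subgroup.subsingleton_iff.1 (subsingleton_of_bot_eq_top h1))
  · intro h
    refine ⟨fun _ => ⊥, rfl, ?_, fun _ _ _ => le_rfl, fun _ => inferInstance, fun i => i.elim0⟩
    exact Subsingleton.elim _ _

theorem map {G : Type u} [Group G] {H : Type v} [Group H] (f : G →* H) (hf : Function.Surjective f) {m : ℕ}
    (h : FitChain G m) : FitChain H m := by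
  obtain ⟨F, h0, hl, hm, hn, hk⟩ := h
  refine ⟨fun i => (F i).map f, ?_, ?_, fun i j hij => Subgroup.map_mono (hm hij), fun i => (hn i).map f hf, ?_⟩
  · change (F 0).map f = ⊥
    rw [h0, Subgroup.map_bot]
  · change (F (Fin.last m)).map f = ⊤
    rw [hl, ← MonoidHom.range_eq_map, MonoidHom.range_eq_top.2 hf]
  · intro i
    obtain ⟨k, hk⟩ := hk i
    refine ⟨k, ?_⟩
    rw [← Subgroup.map_lowerCentralSeries]
    exact Subgroup.map_mono hk

theorem comap {G : Type u} [Group G] {H : Type v} [Group H] (f : H →* G) (hf : Function.Injective f) {m : ℕ}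
    (h : FitChain G m) : FitChain H m := by
  obtain ⟨F, h0, hl, hm, hn, hk⟩ := h
  refine ⟨fun i => (F i).comap f, ?_, ?_, fun i j hij => Subgroup.comap_mono (hm hij), fun i => (hn i).comap f, ?_⟩
  · change (F 0).comap f = ⊥
    rw [h0, MonoidHom.comap_bot, (MonoidHom.ker_eq_bot_iff f).2 hf]
  · change (F (Fin.last m)).comap f = ⊤
    rw [hl, Subgroup.comap_top]
  · intro i
    obtain ⟨k, hk⟩ := hk i
    exact ⟨k, (lcs_comap_le f _ k).trans (Subgroup.comap_mono hk)⟩

theorem congr {G : Type u} [Group G] {H : Type v} [Group H] (e : G ≃* H) {m : ℕ}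
    (h : FitChain G m) : FitChain H m := h.map e.toMonoidHom e.surjective

theorem subgroup {G : Type u} [Group G] (H : Subgroup G) {m : ℕ} (h : FitChain G m) : FitChain H m :=
  h.comap H.subtype H.subtype_injective

theorem of_quotient {G : Type u} [Group G] (N : Subgroup G) [N.Normal] (hN : Group.IsNilpotent N) {m : ℕ}
    (h : FitChain (G ⧸ N) m) : FitChain G (m + 1) := by
  obtain ⟨F, h0, hl, hm, hn, hk⟩ := h
  let F' : Fin (m + 2) → Subgroup G := Fin.cases ⊥ (fun i => (F i).comap (QuotientGroup.mk' N))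
  have hF0 : F' 0 = ⊥ := rfl
  have hFs : ∀ i : Fin (m + 1), F' i.succ = (F i).comap (QuotientGroup.mk' N) := fun i => rfl
  refine ⟨F', hF0, ?_, ?_, ?_, ?_⟩
  · have h1 : Fin.last (m + 1) = (Fin.last m).succ := rfl
    rw [h1, hFs, hl, Subgroup.comap_top]
  · intro i j hij
    induction i using Fin.cases with
    | zero => rw [hF0]; exact bot_le
    | succ i =>
      induction j using Fin.cases with
      | zero => exact absurd hij (by simp [Fin.le_def])
      | succ j =>
        rw [hFs, hFs]
        exact Subgroup.comap_mono (hm (Fin.succ_le_succ_iff.1 hij))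
  · intro i
    induction i using Fin.cases with
    | zero => rw [hF0]; infer_instance
    | succ i => rw [hFs]; exact (hn i).comap _
  · intro i
    induction i using Fin.cases with
    | zero =>
      obtain ⟨k, hk⟩ := (Subgroup.isNilpotent_iff_lowerCentralSeries N).1 hN
      refine ⟨k, ?_⟩
      rw [hFs, h0, MonoidHom.comap_bot, QuotientGroup.ker_mk', hk]
      exact bot_le
    | succ i =>
      obtain ⟨k, hk⟩ := hk i
      refine ⟨k, ?_⟩
      have h1 : i.succ.castSucc = i.castSucc.succ := rfl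
      rw [h1, hFs, hFs]
      exact (lcs_comap_le _ _ k).trans (Subgroup.comap_mono hk)

theorem succ {G : Type u} [Group G] {m : ℕ} (h : FitChain G m) : FitChain G (m + 1) :=
  of_quotient ⊥ inferInstance (h.map (QuotientGroup.mk' ⊥) (QuotientGroup.mk'_surjective _))

theorem mono {G : Type u} [Group G] {m n : ℕ} (h : FitChain G m) (hmn : m ≤ n) : FitChain G n := by
  induction hmn with
  | refl => exact h
  | step _ ih => exact ih.succ

theorem quotient_of_le {G : Type u} [Group G] {m : ℕ} (h : FitChain G (m + 1)) :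
    ∃ N : Subgroup G, N.Normal ∧ Group.IsNilpotent N ∧ ∀ M : Subgroup G, ∀ _ : M.Normal, N ≤ M → FitChain (G ⧸ M) m := by
  obtain ⟨F, h0, hl, hm, hn, hk⟩ := h
  refine ⟨F (Fin.succ 0), hn _, ?_, ?_⟩
  · rw [Subgroup.isNilpotent_iff_lowerCentralSeries]
    obtain ⟨k, hk⟩ := hk 0
    refine ⟨k, ?_⟩
    rw [eq_bot_iff, ← h0]
    exact hk
  · intro M hM hNM
    have hs := QuotientGroup.mk'_surjective M
    refine ⟨fun i => (F i.succ).map (QuotientGroup.mk' M), ?_, ?_, ?_, fun i => (hn _).map _ hs, ?_⟩
    · change (F (Fin.succ 0)).map (QuotientGroup.mk' M) = ⊥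
      rw [Subgroup.map_eq_bot_iff, QuotientGroup.ker_mk']
      exact hNM
    · change (F (Fin.last m).succ).map (QuotientGroup.mk' M) = ⊤
      have h1 : (Fin.last m).succ = Fin.last (m + 1) := rfl
      rw [h1, hl, ← MonoidHom.range_eq_map, MonoidHom.range_eq_top.2 hs]
    · intro i j hij
      exact Subgroup.map_mono (hm (Fin.succ_le_succ_iff.2 hij))
    · intro i
      obtain ⟨k, hk⟩ := hk i.succ
      refine ⟨k, ?_⟩
      rw [← Subgroup.map_lowerCentralSeries]
      exact Subgroup.map_mono hk

theorem quotient_fitting {G : Type u} [Group G] {m : ℕ} (h : FitChain G (m + 1)) :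
    FitChain (G ⧸ Cfsg.fittingSubgroup G) m := by
  obtain ⟨N, hN, hnil, h1⟩ := h.quotient_of_le
  exact h1 _ inferInstance (Solv.le_fitting hN hnil)

theorem iff_quotient_fitting {G : Type u} [Group G] [Finite G] {m : ℕ} :
    FitChain G (m + 1) ↔ FitChain (G ⧸ Cfsg.fittingSubgroup G) m :=
  ⟨quotient_fitting, fun h => of_quotient _ Solv.fitting_isNilpotent h⟩

theorem one_iff {G : Type u} [Group G] : FitChain G 1 ↔ Group.IsNilpotent G := by
  constructor
  · rintro ⟨F, h0, hl, -, -, hk⟩
    rw [← Group.isNilpotent_top, Subgroup.isNilpotent_iff_lowerCentralSeries]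
    obtain ⟨k, hk⟩ := hk 0
    refine ⟨k, ?_⟩
    rw [eq_bot_iff, ← h0, ← hl]
    exact hk
  · intro h
    refine of_quotient ⊤ (Group.isNilpotent_top.2 h) (zero_iff.2 ?_)
    exact QuotientGroup.subsingleton_quotient_top

end FitChain

end Cfsg.Agent.H62
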