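import Mathlib
import Cfsg.Agent.HH.WardCore

set_option autoImplicit false
set_option linter.style.haveILetI false
set_option linter.unusedSectionVars false

/-!
Linear lemmas on actions of non-abelian groups of order `pq` (helper62).
-/

namespace Cfsg.Agent.H62.PQ

open Cfsg.Agent.HH
open scoped commutatorElement BigOperators

universe u v

variable {k : Type*} [Field k] {M : Type*} [AddCommGroup M] [Module k M] {L : Type*} [Group L]

/-- the elements fixing a vector -/
def fixer (σ : Representation k L M) (m : M) : Subgroup L where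
  carrier := {g | σ g m = m}
  one_mem' := by change σ 1 m = m; rw [map_one]; rfl
  mul_mem' := by
    intro a b ha hb
    change σ (a * b) m = m
    rw [rho_mul, show σ b m = m from hb, show σ a m = m from ha]
  inv_mem' := by
    intro a ha
    change σ a⁻¹ m = m
    conv_lhs => rw [← show σ a m = m from ha]
    rw [rho_inv_apply]

theorem mem_fixer {σ : Representation k L M} {m : M} {g : L} : g ∈ fixer σ m ↔ σ g m = m := Iff.rfl

theorem fixer_smul {σ : Representation k L M} {m : M} {x u : L} (h : x⁻¹ * u * x ∈ fixer σ m) :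
    u ∈ fixer σ (σ x m) := by
  rw [mem_fixer] at h ⊢
  rw [← rho_mul]
  have h1 : u * x = x * (x⁻¹ * u * x) := by group
  rw [h1, rho_mul, h]

theorem final (σ : Representation k L M) (T P R : Subgroup L) [Finite L]
    (hRP : R ≤ Subgroup.normalizer (P : Set L)) (hPT : P ≤ Subgroup.normalizer (T : Set L))
    (hRT : R ≤ Subgroup.normalizer (T : Set L)) (hTk : (Nat.card T : k) ≠ 0)
    (hgen : ∀ x ∈ P, x ≠ 1 → ∀ N : Subgroup L, ⁅T, R⁆ ≤ N → (∀ u ∈ ⁅T, R⁆, x * u * x⁻¹ ∈ N) → T ≤ N)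
    (hA : ∀ m, (∀ a ∈ P ⊔ R, σ a m = m) → m = 0)
    (hTfix : ∀ m, (∀ t ∈ T, σ t m = m) → m = 0)
    {m : M} (hR : ∀ r ∈ R, σ r m = m) (hTR : ∀ t ∈ ⁅T, R⁆, σ t m = m) : m = 0 := by
  classical
  haveI := Fintype.ofFinite P
  set T₁ := ⁅T, R⁆ with hT₁
  haveI := Fintype.ofFinite T₁
  have hT₁T : T₁ ≤ T := Subgroup.le_normalizer_iff_commutator_le_left.1 hRT
  have hTT₁ : T ≤ Subgroup.normalizer (T₁ : Set L) := Subgroup.normalizer_commutator_ge_left T R
  set w : M := ∑ x : P, σ (x : L) m with hw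
  have hw0 : w = 0 := by
    apply hA
    intro a ha
    have h1 : P ⊔ R ≤ fixer σ w := by
      apply sup_le
      · intro y hy
        exact sum_smul_fixed m hy
      · intro r hr
        rw [mem_fixer, hw, map_sum]
        let f : P ≃ P :=
          { toFun := fun x => ⟨r * x * r⁻¹, (Subgroup.mem_normalizer_iff.1 (hRP hr) x).1 x.2⟩
            invFun := fun x => ⟨r⁻¹ * x * r, (Subgroup.mem_normalizer_iff''.1 (hRP hr) x).1 x.2⟩
            left_inv := fun x => Subtype.ext (by change r⁻¹ * (r * (x : L) * r⁻¹) * r = x; group)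
            right_inv := fun x => Subtype.ext (by change r * (r⁻¹ * (x : L) * r) * r⁻¹ = x; group) }
        conv_rhs => rw [← Equiv.sum_comp f]
        apply Finset.sum_congr rfl
        intro x _
        change σ r (σ (x : L) m) = σ (r * x * r⁻¹) m
        rw [← rho_mul]
        conv_lhs => rw [show r * (x : L) = (r * x * r⁻¹) * r by group, rho_mul, hR r hr]
    exact h1 ha
  set e : Module.End k M := ∑ τ : T₁, σ (τ : L) with he
  have hes : ∀ v, e v = ∑ τ : T₁, σ (τ : L) v := fun v => by rw [he, LinearMap.sum_apply]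
  have hex : ∀ x : P, x ≠ 1 → e (σ (x : L) m) = 0 := by
    intro x hx
    apply hTfix
    intro t ht
    have hx1 : (x : L) ≠ 1 := fun h => hx (Subtype.ext h)
    have h1 : T ≤ fixer σ (e (σ (x : L) m)) := by
      refine hgen x x.2 hx1 _ ?_ ?_
      · intro y hy
        rw [mem_fixer, hes]
        exact sum_smul_fixed _ hy
      · intro u hu
        rw [mem_fixer, hes, map_sum]
        apply Finset.sum_congr rfl
        intro τ _
        have h2 : (x : L) * u * (x : L)⁻¹ * τ = τ * ((τ : L)⁻¹ * ((x : L) * u * (x : L)⁻¹) * τ) := by group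
        rw [← rho_mul, h2, rho_mul]
        congr 1
        apply fixer_smul
        have hτ : (x : L)⁻¹ * τ * x ∈ T := (Subgroup.mem_normalizer_iff''.1 (hPT x.2) _).1 (hT₁T τ.2)
        have h3 : (x : L)⁻¹ * ((τ : L)⁻¹ * ((x : L) * u * (x : L)⁻¹) * τ) * x =
            ((x : L)⁻¹ * τ * x)⁻¹ * u * ((x : L)⁻¹ * τ * x) := by group
        rw [h3]
        exact hTR _ ((Subgroup.mem_normalizer_iff''.1 (hTT₁ hτ) u).1 hu)
    exact h1 ht
  have h1 : e w = (Nat.card T₁ : k) • m := by
    rw [hw, map_sum, Finset.sum_eq_single (1 : P) (fun x _ hx => hex x hx) (fun h => absurd (Finset.mem_univ _) h)]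
    have h2 : σ ((1 : P) : L) m = m := by
      rw [Subgroup.coe_one, map_one]; rfl
    rw [h2, hes, Finset.sum_congr rfl (fun (τ : T₁) _ => hTR τ τ.2), Finset.sum_const, Finset.card_univ,
      ← Nat.card_eq_fintype_card, Nat.cast_smul_eq_nsmul]
  rw [hw0, map_zero] at h1
  rcases smul_eq_zero.1 h1.symm with h2 | h2
  · exfalso
    apply hTk
    obtain ⟨c, hc⟩ := Subgroup.card_dvd_of_le hT₁T
    rw [hc, Nat.cast_mul, h2, zero_mul]
  · exact h2

theorem sum_eq_of_fibers {α β γ : Type*} [Fintype α] [DecidableEq β] [AddCommMonoid γ] (f g : α → β) (n : ℕ)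
    (hn : 0 < n) (hf : ∀ a, (Finset.univ.filter (fun a' => f a' = f a)).card = n)
    (hg : ∀ a, (Finset.univ.filter (fun a' => g a' = g a)).card = n) (hsub : ∀ a, ∃ a', f a' = g a) (e : β → γ) :
    ∑ a, e (g a) = ∑ a, e (f a) := by
  classical
  have key : ∀ h : α → β, (∀ a, (Finset.univ.filter (fun a' => h a' = h a)).card = n) →
      (Fintype.card α = (Finset.univ.image h).card * n) ∧ ∑ a, e (h a) = ∑ b ∈ Finset.univ.image h, n • e b := by
    intro h hh
    constructor
    · rw [← Finset.card_univ, Finset.card_eq_sum_card_image h Finset.univ,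
        Finset.sum_congr rfl (g := fun _ => n)]
      · rw [Finset.sum_const, smul_eq_mul]
      · intro b hb
        obtain ⟨a, _, rfl⟩ := Finset.mem_image.1 hb
        exact hh a
    · rw [Finset.sum_comp e h]
      apply Finset.sum_congr rfl
      intro b hb
      obtain ⟨a, _, rfl⟩ := Finset.mem_image.1 hb
      rw [hh a]
  obtain ⟨h1, h2⟩ := key f hf
  obtain ⟨h3, h4⟩ := key g hg
  have h5 : Finset.univ.image g = Finset.univ.image f := by
    apply Finset.eq_of_subset_of_card_le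
    · intro b hb
      obtain ⟨a, _, rfl⟩ := Finset.mem_image.1 hb
      obtain ⟨a', ha'⟩ := hsub a
      exact Finset.mem_image.2 ⟨a', Finset.mem_univ _, ha'⟩
    · have h6 : (Finset.univ.image f).card * n = (Finset.univ.image g).card * n := by rw [← h1, ← h3]
      exact (Nat.eq_of_mul_eq_mul_right hn h6).le
  rw [h2, h4, h5]

/-- Frobenius groups and fixed points, on an invariant subspace. -/
theorem frob (σ : Representation k L M) (T R : Subgroup L) [Finite L]
    (hRT : R ≤ Subgroup.normalizer (T : Set L)) (hTk : (Nat.card T : k) ≠ 0) (W : Submodule k M)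
    (hWT : ∀ t ∈ T, ∀ w ∈ W, σ t w ∈ W) (hWR : ∀ r ∈ R, ∀ w ∈ W, σ r w ∈ W)
    (hT : ∀ w ∈ W, (∀ t ∈ T, σ t w = w) → w = 0) (hR : ∀ w ∈ W, (∀ r ∈ R, σ r w = w) → w = 0)
    (hcl : ∀ r ∈ R, r ≠ 1 → ∀ t ∈ T, (∀ w ∈ W, σ (t * r * t⁻¹ * r⁻¹) w = w) → ∀ w ∈ W, σ t w = w) :
    ∀ w ∈ W, w = 0 := by
  classical
  haveI := Fintype.ofFinite T
  haveI := Fintype.ofFinite R
  intro m hm
  -- the kernel
  let N : Subgroup L :=
    { carrier := {t | t ∈ T ∧ ∀ w ∈ W, σ t w = w}
      one_mem' := ⟨T.one_mem, fun w _ => by rw [map_one]; rfl⟩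
      mul_mem' := by
        rintro a b ⟨ha, ha'⟩ ⟨hb, hb'⟩
        exact ⟨T.mul_mem ha hb, fun w hw => by rw [rho_mul, hb' w hw, ha' w hw]⟩
      inv_mem' := by
        rintro a ⟨ha, ha'⟩
        refine ⟨T.inv_mem ha, fun w hw => ?_⟩
        conv_lhs => rw [← ha' w hw]
        rw [rho_inv_apply] }
  have hNT : N ≤ T := fun t ht => ht.1
  have hsum : ∀ r ∈ R, r ≠ 1 → ∀ w ∈ W, ∑ t : T, σ ((t : L) * r * (t : L)⁻¹ * r⁻¹) w = 0 := by
    intro r hr hr1 w hw
    let f : T → (W → M) := fun t w => σ (t : L) w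
    let g : T → (W → M) := fun t w => σ ((t : L) * r * (t : L)⁻¹ * r⁻¹) w
    have hfN : ∀ t t' : T, f t' = f t ↔ (t : L)⁻¹ * t' ∈ N := by
      intro t t'
      constructor
      · intro h
        refine ⟨T.mul_mem (T.inv_mem t.2) t'.2, fun w hw => ?_⟩
        have h1 : σ (t' : L) w = σ (t : L) w := congrFun h ⟨w, hw⟩
        rw [rho_mul, h1, rho_inv_apply]
      · rintro ⟨_, h⟩
        funext ⟨w, hw⟩
        change σ (t' : L) w = σ (t : L) w
        have h1 := h w hw
        rw [rho_mul] at h1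
        rw [← h1, rho_apply_inv, h1]
    have hgN : ∀ t t' : T, g t' = g t ↔ (t : L)⁻¹ * t' ∈ N := by
      intro t t'
      set s : L := (t : L)⁻¹ * t' with hs
      have hsT : s ∈ T := T.mul_mem (T.inv_mem t.2) t'.2
      have ht' : (t' : L) = t * s := by rw [hs]; group
      have hdec : (t' : L) * r * (t' : L)⁻¹ * r⁻¹ = t * (s * r * s⁻¹ * r⁻¹) * (r * (t : L)⁻¹ * r⁻¹) := by
        rw [ht']; group
      have hdec' : (t : L) * r * (t : L)⁻¹ * r⁻¹ = t * (r * (t : L)⁻¹ * r⁻¹) := by group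
      have hrt : ∀ τ ∈ T, r * τ * r⁻¹ ∈ T := fun τ hτ => (Subgroup.mem_normalizer_iff.1 (hRT hr) τ).1 hτ
      have hrt' : ∀ τ ∈ T, r⁻¹ * τ * r ∈ T := fun τ hτ => (Subgroup.mem_normalizer_iff''.1 (hRT hr) τ).1 hτ
      constructor
      · intro h
        refine ⟨hsT, hcl r hr hr1 s hsT ?_⟩
        intro w hw
        -- w = σ (r t⁻¹ r⁻¹) w'
        have hw' : σ (r * (t : L) * r⁻¹) w ∈ W := hWT _ (hrt _ t.2) w hw
        have h1 : σ ((t' : L) * r * (t' : L)⁻¹ * r⁻¹) (σ (r * (t : L) * r⁻¹) w) =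
            σ ((t : L) * r * (t : L)⁻¹ * r⁻¹) (σ (r * (t : L) * r⁻¹) w) :=
          congrFun h ⟨_, hw'⟩
        rw [hdec, hdec'] at h1
        have h2 : ∀ y : L, σ (y * (r * (t : L)⁻¹ * r⁻¹)) (σ (r * (t : L) * r⁻¹) w) = σ y w := by
          intro y
          rw [← rho_mul]
          congr 2
          group
        rw [h2, h2, rho_mul] at h1
        have h3 := congrArg (σ (t : L)⁻¹) h1
        rw [rho_inv_apply, rho_inv_apply] at h3
        exact h3
      · rintro ⟨_, h⟩
        funext ⟨w, hw⟩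
        change σ ((t' : L) * r * (t' : L)⁻¹ * r⁻¹) w = σ ((t : L) * r * (t : L)⁻¹ * r⁻¹) w
        rw [hdec, hdec', rho_mul, rho_mul, rho_mul _ (t : L)]
        congr 1
        set w' := σ (r * (t : L)⁻¹ * r⁻¹) w with hw'
        have hw'W : w' ∈ W := hWT _ (hrt _ (T.inv_mem t.2)) w hw
        have h4 : ∀ v ∈ W, σ s⁻¹ v = v := fun v hv => by
          conv_lhs => rw [← h v hv]
          rw [rho_inv_apply]
        have h5 : σ r⁻¹ w' ∈ W := hWR _ (R.inv_mem hr) _ hw'W
        rw [rho_mul, rho_mul, rho_mul, h4 _ h5, rho_apply_inv, h _ hw'W]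
    have hcard : ∀ h : T → (W → M), (∀ t t' : T, h t' = h t ↔ (t : L)⁻¹ * t' ∈ N) →
        ∀ a, (Finset.univ.filter (fun a' => h a' = h a)).card = Nat.card N := by
      intro h hh a
      haveI := Fintype.ofFinite N
      rw [Nat.card_eq_fintype_card, ← Finset.card_univ]
      refine Finset.card_bij' (s := Finset.univ.filter (fun a' => h a' = h a)) (t := (Finset.univ : Finset N))
        (fun (a' : T) ha' => (⟨(a : L)⁻¹ * a', (hh a a').1 (Finset.mem_filter.1 ha').2⟩ : N))
        (fun (n : N) _ => (⟨(a : L) * n, T.mul_mem a.2 (hNT n.2)⟩ : T)) (fun _ _ => Finset.mem_univ _) ?_ ?_ ?_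
      · intro n _
        rw [Finset.mem_filter]
        refine ⟨Finset.mem_univ _, (hh a _).2 ?_⟩
        change (a : L)⁻¹ * ((a : L) * n) ∈ N
        rw [inv_mul_cancel_left]; exact n.2
      · intro a' _
        apply Subtype.ext
        change (a : L) * ((a : L)⁻¹ * a') = a'
        group
      · intro n _
        apply Subtype.ext
        change (a : L)⁻¹ * ((a : L) * n) = n
        group
    have h1 := sum_eq_of_fibers f g (Nat.card N) Nat.card_pos (hcard f hfN) (hcard g hgN) (by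
      intro t
      refine ⟨⟨(t : L) * r * (t : L)⁻¹ * r⁻¹, ?_⟩, rfl⟩
      have h2 : (t : L) * r * (t : L)⁻¹ * r⁻¹ = t * (r * (t : L)⁻¹ * r⁻¹) := by group
      rw [h2]
      exact T.mul_mem t.2 ((Subgroup.mem_normalizer_iff.1 (hRT hr) _).1 (T.inv_mem t.2))) (fun φ => φ ⟨w, hw⟩)
    have h2 : ∑ t : T, σ ((t : L) * r * (t : L)⁻¹ * r⁻¹) w = ∑ t : T, σ (t : L) w := h1
    rw [h2]
    apply hT _ (W.sum_mem (fun t _ => hWT _ t.2 w hw))
    intro t ht
    exact sum_smul_fixed w ht
  have hmain : ∑ r : R, ∑ t : T, σ ((t : L) * r * (t : L)⁻¹) m = 0 := by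
    rw [Finset.sum_comm]
    apply Finset.sum_eq_zero
    intro t _
    have h1 : ∑ r : R, σ ((t : L) * r * (t : L)⁻¹) m = σ (t : L) (∑ r : R, σ (r : L) (σ (t : L)⁻¹ m)) := by
      rw [map_sum]
      apply Finset.sum_congr rfl
      intro r _
      rw [rho_mul, rho_mul]
    rw [h1, hR _ (W.sum_mem (fun r _ => hWR _ r.2 _ (hWT _ (T.inv_mem t.2) m hm)))
      (fun r hr => sum_smul_fixed _ hr), map_zero]
  rw [Finset.sum_eq_single (1 : R)] at hmain
  · have h1 : ∑ t : T, σ ((t : L) * ((1 : R) : L) * (t : L)⁻¹) m = (Nat.card T : k) • m := by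
      rw [Finset.sum_congr rfl (g := fun _ => m)]
      · rw [Finset.sum_const, Finset.card_univ, ← Nat.card_eq_fintype_card, Nat.cast_smul_eq_nsmul]
      · intro t _
        rw [Subgroup.coe_one, mul_one, mul_inv_cancel, map_one]; rfl
    rw [h1] at hmain
    rcases smul_eq_zero.1 hmain with h2 | h2
    · exact absurd h2 hTk
    · exact h2
  · intro r _ hr1
    have h1 : ∀ t : T, σ ((t : L) * r * (t : L)⁻¹) m = σ ((t : L) * r * (t : L)⁻¹ * (r : L)⁻¹) (σ (r : L) m) := by
      intro t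
      rw [← rho_mul]; congr 2; group
    rw [Finset.sum_congr rfl (fun t _ => h1 t)]
    exact hsum r r.2 (fun h => hr1 (Subtype.ext h)) _ (hWR _ r.2 m hm)
  · intro h; exact absurd (Finset.mem_univ _) h

end Cfsg.Agent.H62.PQ
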