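import Mathlib
import Cfsg.Agent.H62.PQ1
import Cfsg.Agent.HH.GroupC

set_option autoImplicit false
set_option linter.style.haveILetI false
set_option linter.unusedSectionVars false

/-!
Weights of abelian subgroups (helper62).
-/

namespace Cfsg.Agent.H62.PQ

open Cfsg.Agent.HH
open scoped commutatorElement BigOperators

universe u v w

variable {K : Type w} [Field K] {V : Type v} [AddCommGroup V] [Module K V] {G : Type u} [Group G]

/-- the weight space -/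
def wsp (ρ : Representation K G V) (Z : Subgroup G) (μ : G → K) : Submodule K V where
  carrier := {v | ∀ z ∈ Z, ρ z v = μ z • v}
  add_mem' := by
    intro a b ha hb z hz
    rw [map_add, ha z hz, hb z hz, smul_add]
  zero_mem' := by
    intro z _
    rw [map_zero, smul_zero]
  smul_mem' := by
    intro c a ha z hz
    rw [map_smul, ha z hz, smul_comm]

variable {ρ : Representation K G V} {Z : Subgroup G} {μ ν : G → K}

theorem mem_wsp {v : V} : v ∈ wsp ρ Z μ ↔ ∀ z ∈ Z, ρ z v = μ z • v := Iff.rfl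

/-- `μ` is multiplicative on `Z` -/
structure Mult (Z : Subgroup G) (μ : G → K) : Prop where
  one : μ 1 = 1
  mul : ∀ a ∈ Z, ∀ b ∈ Z, μ (a * b) = μ a * μ b

theorem Mult.inv_mul (h : Mult Z μ) {a : G} (ha : a ∈ Z) : μ a⁻¹ * μ a = 1 := by
  rw [← h.mul _ (Z.inv_mem ha) _ ha, inv_mul_cancel, h.one]

theorem Mult.ne_zero (h : Mult Z μ) {a : G} (ha : a ∈ Z) : μ a ≠ 0 := by
  intro h0
  have := h.inv_mul ha
  rw [h0, mul_zero] at this
  exact zero_ne_one this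

theorem Mult.inv (h : Mult Z μ) {a : G} (ha : a ∈ Z) : μ a⁻¹ = (μ a)⁻¹ :=
  eq_inv_of_mul_eq_one_left (h.inv_mul ha)

theorem Mult.pow (h : Mult Z μ) {a : G} (ha : a ∈ Z) (n : ℕ) : μ (a ^ n) = μ a ^ n := by
  induction n with
  | zero => rw [pow_zero, pow_zero, h.one]
  | succ n ih => rw [pow_succ, h.mul _ (Z.pow_mem ha n) _ ha, ih, pow_succ]

theorem mult_of_ne (hne : wsp ρ Z μ ≠ ⊥) : Mult Z μ := by
  obtain ⟨v, hv, hv0⟩ := (Submodule.ne_bot_iff _).1 hne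
  constructor
  · have h1 := hv 1 Z.one_mem
    rw [map_one] at h1
    have h2 : (μ 1 - 1) • v = 0 := by
      rw [sub_smul, one_smul, ← h1, Module.End.one_apply, sub_self]
    rcases smul_eq_zero.1 h2 with h3 | h3
    · exact sub_eq_zero.1 h3
    · exact absurd h3 hv0
  · intro a ha b hb
    have h1 := hv _ (Z.mul_mem ha hb)
    rw [rho_mul, hv b hb, map_smul, hv a ha, smul_smul] at h1
    have h2 : (μ (a * b) - μ a * μ b) • v = 0 := by
      rw [sub_smul, ← h1, mul_comm (μ b), sub_self]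
    rcases smul_eq_zero.1 h2 with h3 | h3
    · exact sub_eq_zero.1 h3
    · exact absurd h3 hv0

theorem Mult.conj (h : Mult Z μ) {x : G} (hx : x ∈ Subgroup.normalizer (Z : Set G)) :
    Mult Z (fun z => μ (x⁻¹ * z * x)) := by
  constructor
  · simp [h.one]
  · intro a ha b hb
    have h1 : x⁻¹ * (a * b) * x = (x⁻¹ * a * x) * (x⁻¹ * b * x) := by group
    change μ (x⁻¹ * (a * b) * x) = _
    rw [h1, h.mul _ ((Subgroup.mem_normalizer_iff''.1 hx a).1 ha) _ ((Subgroup.mem_normalizer_iff''.1 hx b).1 hb)]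

theorem wsp_move {x : G} (hx : x ∈ Subgroup.normalizer (Z : Set G)) {v : V} (hv : v ∈ wsp ρ Z μ) :
    ρ x v ∈ wsp ρ Z (fun z => μ (x⁻¹ * z * x)) := by
  intro z hz
  have h1 : z * x = x * (x⁻¹ * z * x) := by group
  rw [← rho_mul, h1, rho_mul, hv _ ((Subgroup.mem_normalizer_iff''.1 hx z).1 hz), map_smul]

theorem wsp_congr (h : ∀ z ∈ Z, μ z = ν z) : wsp ρ Z μ = wsp ρ Z ν := by
  ext v
  rw [mem_wsp, mem_wsp]
  exact forall₂_congr (fun z hz => by rw [h z hz])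

theorem wsp_stab {x : G} (hx : x ∈ stabW Z μ) {v : V} (hv : v ∈ wsp ρ Z μ) : ρ x v ∈ wsp ρ Z μ := by
  have h1 := wsp_move hx.1 hv
  rwa [wsp_congr hx.2] at h1

theorem exists_weight [IsAlgClosed K] [FiniteDimensional K V] (ρ : Representation K G V) (Z : Subgroup G) [Finite Z]
    (hZ : ∀ a ∈ Z, ∀ b ∈ Z, a * b = b * a) (hZK : (Nat.card Z : K) ≠ 0) (hnt : ∃ g ∈ Z, ρ g ≠ 1) :
    ∃ μ : G → K, wsp ρ Z μ ≠ ⊥ ∧ ∃ z ∈ Z, μ z ≠ 1 := by
  classical
  obtain ⟨W, hW0, hWinv, hWfix⟩ := exists_nofix_norm ρ Z hZK hnt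
  obtain ⟨W₀, hW₀W, hW₀, hW₀inv, hW₀min⟩ := exists_min_inv ρ Z hW0 (fun g hg => hWinv g (Subgroup.le_normalizer hg))
  have hχ : ∀ z : Z, ∃ c : K, ∀ w ∈ W₀, ρ z w = c • w := fun z =>
    schur_min hW₀ hW₀inv hW₀min (ρ z) (fun w hw => hW₀inv z z.2 w hw)
      (fun g hg w _ => by rw [← rho_mul, ← rho_mul, hZ z z.2 g hg])
  choose χ hχ using hχ
  set μ : G → K := fun g => if h : g ∈ Z then χ ⟨g, h⟩ else 0 with hμ
  have hμz : ∀ z ∈ Z, ∀ w ∈ W₀, ρ z w = μ z • w := by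
    intro z hz w hw
    rw [hμ]
    simp only [dif_pos hz]
    exact hχ ⟨z, hz⟩ w hw
  have hle : W₀ ≤ wsp ρ Z μ := fun w hw z hz => hμz z hz w hw
  refine ⟨μ, fun h => hW₀ (le_bot_iff.1 (h ▸ hle)), ?_⟩
  by_contra hcon
  push Not at hcon
  apply hW₀
  rw [eq_bot_iff]
  intro w hw
  rw [Submodule.mem_bot]
  apply hWfix w (hW₀W hw)
  intro g hg
  rw [hμz g hg w hw, hcon g hg, one_smul]

/-- projection to the weight space -/
noncomputable def proj (ρ : Representation K G V) (Z : Subgroup G) [Fintype Z] (μ : G → K) : Module.End K V :=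
  ∑ z : Z, μ (z : G)⁻¹ • ρ (z : G)

theorem proj_apply [Fintype Z] (v : V) : proj ρ Z μ v = ∑ z : Z, μ (z : G)⁻¹ • ρ (z : G) v := by
  rw [proj, LinearMap.sum_apply]; rfl

theorem proj_mem [Fintype Z] (h : Mult Z μ) (v : V) : proj ρ Z μ v ∈ wsp ρ Z μ := by
  intro y hy
  rw [proj_apply, map_sum, Finset.smul_sum]
  conv_rhs => rw [← Equiv.sum_comp (Equiv.mulLeft (⟨y, hy⟩ : Z))]
  apply Finset.sum_congr rfl
  intro z _
  rw [map_smul, ← rho_mul, smul_smul]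
  congr 1
  change μ (z : G)⁻¹ = μ y * μ (y * z)⁻¹
  rw [mul_inv_rev, h.mul _ (Z.inv_mem z.2) _ (Z.inv_mem hy), mul_comm (μ (z : G)⁻¹), ← mul_assoc, mul_comm (μ y),
    h.inv_mul hy, one_mul]

theorem proj_eq [Fintype Z] (h : Mult Z μ) {v : V} (hv : v ∈ wsp ρ Z μ) : proj ρ Z μ v = (Nat.card Z : K) • v := by
  rw [proj_apply, Finset.sum_congr rfl (g := fun _ => v), Finset.sum_const, Finset.card_univ,
    ← Nat.card_eq_fintype_card, Nat.cast_smul_eq_nsmul]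
  intro z _
  rw [hv z z.2, smul_smul, h.inv_mul z.2, one_smul]

theorem proj_zero [Fintype Z] (h : Mult Z μ) (h' : Mult Z ν) (hne : ∃ z ∈ Z, ν z ≠ μ z) {v : V}
    (hv : v ∈ wsp ρ Z ν) : proj ρ Z μ v = 0 := by
  obtain ⟨y, hy, hyne⟩ := hne
  have h1 : proj ρ Z μ v = (∑ z : Z, μ (z : G)⁻¹ * ν z) • v := by
    rw [proj_apply, Finset.sum_smul]
    apply Finset.sum_congr rfl
    intro z _
    rw [hv z z.2, smul_smul]
  set s := ∑ z : Z, μ (z : G)⁻¹ * ν z with hs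
  have h2 : s = (μ y⁻¹ * ν y) * s := by
    conv_lhs => rw [hs, ← Equiv.sum_comp (Equiv.mulLeft (⟨y, hy⟩ : Z))]
    rw [hs, Finset.mul_sum]
    apply Finset.sum_congr rfl
    intro z _
    change μ (y * z)⁻¹ * ν (y * z) = _
    rw [mul_inv_rev, h.mul _ (Z.inv_mem z.2) _ (Z.inv_mem hy), h'.mul _ hy _ z.2]
    ring
  have h3 : (1 - μ y⁻¹ * ν y) * s = 0 := by rw [sub_mul, one_mul, ← h2, sub_self]
  rcases mul_eq_zero.1 h3 with h4 | h4
  · exfalso
    apply hyne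
    have h5 : μ y⁻¹ * ν y = 1 := (sub_eq_zero.1 h4).symm
    calc ν y = (μ y⁻¹ * μ y) * ν y := by rw [h.inv_mul hy, one_mul]
      _ = (μ y⁻¹ * ν y) * μ y := by ring
      _ = μ y := by rw [h5, one_mul]
  · rw [h1, h4, zero_smul]

/-- vectors of weight `μ` fixed by the stabilizer of `μ` give fixed vectors. -/
theorem stab_fixed_eq_zero {A : Subgroup G} [Finite A] [Finite Z] (hAZ : A ≤ Subgroup.normalizer (Z : Set G))
    (hAK : (Nat.card A : K) ≠ 0) (hZK : (Nat.card Z : K) ≠ 0) (hV : ∀ v, (∀ a ∈ A, ρ a v = v) → v = 0)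
    (hμ : Mult Z μ) {u : V} (hu : u ∈ wsp ρ Z μ) (hfix : ∀ a ∈ A ⊓ stabW Z μ, ρ a u = u) : u = 0 := by
  classical
  haveI := Fintype.ofFinite A
  haveI := Fintype.ofFinite Z
  have h0 : ∑ a : A, ρ (a : G) u = 0 := hV _ (fun a ha => sum_smul_fixed u ha)
  have h1 := congrArg (proj ρ Z μ) h0
  rw [map_sum, map_zero] at h1
  have h2 : ∀ a : A, proj ρ Z μ (ρ (a : G) u) = if (a : G) ∈ stabW Z μ then (Nat.card Z : K) • u else 0 := by
    intro a
    split_ifs with h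
    · rw [hfix a ⟨a.2, h⟩, proj_eq hμ hu]
    · refine proj_zero hμ (hμ.conj (hAZ a.2)) ?_ (wsp_move (hAZ a.2) hu)
      by_contra hcon
      push Not at hcon
      exact h ⟨hAZ a.2, hcon⟩
  rw [Finset.sum_congr rfl (fun a _ => h2 a), ← Finset.sum_filter, Finset.sum_const] at h1
  have h3 : (Finset.univ.filter (fun a : A => (a : G) ∈ stabW Z μ)).card = Nat.card (A ⊓ stabW Z μ : Subgroup G) := by
    have e : {a : A // (a : G) ∈ stabW Z μ} ≃ (A ⊓ stabW Z μ : Subgroup G) :=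
      { toFun := fun a => ⟨a.1, a.1.2, a.2⟩
        invFun := fun a => ⟨⟨a.1, a.2.1⟩, a.2.2⟩
        left_inv := fun a => rfl
        right_inv := fun a => rfl }
    rw [← Nat.card_congr e, Nat.card_eq_fintype_card, Fintype.card_subtype]
  rw [h3, ← Nat.cast_smul_eq_nsmul K] at h1
  rcases smul_eq_zero.1 h1 with h4 | h4
  · exfalso
    apply hAK
    obtain ⟨c, hc⟩ := Subgroup.card_dvd_of_le (inf_le_left : A ⊓ stabW Z μ ≤ A)
    rw [hc, Nat.cast_mul, h4, zero_mul]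
  · rcases smul_eq_zero.1 h4 with h5 | h5
    · exact absurd h5 hZK
    · exact h5

theorem Mult.inv' (h : Mult Z μ) : Mult Z (fun z => μ z⁻¹) := by
  constructor
  · change μ (1 : G)⁻¹ = 1
    rw [inv_one, h.one]
  · intro a ha b hb
    change μ (a * b)⁻¹ = _
    rw [mul_inv_rev, h.mul _ (Z.inv_mem hb) _ (Z.inv_mem ha), mul_comm]

/-- the dual weight occurs -/
theorem wsp_dual [Finite Z] (hZK : (Nat.card Z : K) ≠ 0) (ω : LinearMap.BilinForm K V)
    (hω : ∀ g x y, ω (ρ g x) (ρ g y) = ω x y) (hnd : ∀ x, (∀ y, ω x y = 0) → x = 0)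
    (hne : wsp ρ Z μ ≠ ⊥) : wsp ρ Z (fun z => μ z⁻¹) ≠ ⊥ := by
  haveI := Fintype.ofFinite Z
  have hμ := mult_of_ne hne
  obtain ⟨u, hu, hu0⟩ := (Submodule.ne_bot_iff _).1 hne
  have h1 : ∃ y, ω u y ≠ 0 := by
    by_contra hcon
    push Not at hcon
    exact hu0 (hnd u hcon)
  obtain ⟨y, hy⟩ := h1
  rw [Submodule.ne_bot_iff]
  refine ⟨_, proj_mem hμ.inv' y, ?_⟩
  intro h0
  have h2 : ω u (proj ρ Z (fun z => μ z⁻¹) y) = (Nat.card Z : K) * ω u y := by
    rw [proj_apply, map_sum, Finset.sum_congr rfl (g := fun _ => ω u y), Finset.sum_const, Finset.card_univ,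
      ← Nat.card_eq_fintype_card, nsmul_eq_mul]
    intro z _
    rw [map_smul, smul_eq_mul, inv_inv]
    have h3 : ω u (ρ (z : G) y) = ω (ρ (z : G)⁻¹ u) y := by
      rw [← hω (z : G) (ρ (z : G)⁻¹ u) y, rho_apply_inv]
    rw [h3, hu _ (Z.inv_mem z.2), map_smul, LinearMap.smul_apply, smul_eq_mul, ← mul_assoc, mul_comm (μ (z : G)),
      hμ.inv_mul z.2, one_mul]
  rw [h0, map_zero] at h2
  rcases mul_eq_zero.1 h2.symm with h3 | h3
  · exact hZK h3
  · exact hy h3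

end Cfsg.Agent.H62.PQ
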