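import Mathlib
import Cfsg.Agent.H62.PQ2

set_option autoImplicit false
set_option linter.style.haveILetI false
set_option linter.unusedSectionVars false

/-!
Eigenvalues and dual weights (helper62).
-/

namespace Cfsg.Agent.H62.PQ

open Cfsg.Agent.HH Module
open scoped commutatorElement BigOperators TensorProduct

universe u v w

variable {K : Type w} [Field K] {V : Type v} [AddCommGroup V] [Module K V] {G : Type u} [Group G]

theorem exists_eig [IsAlgClosed K] [FiniteDimensional K V] [Finite G] {ρ : Representation K G V} {r t : ℕ}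
    [hr : Fact r.Prime] [ht : Fact t.Prime] {b : G} {Q Z T : Subgroup G} (hM : MinQ b r 1 t T Q)
    (hb : orderOf b = r) (hexc : ∀ j, 1 ≤ j → r - 1 ≠ t ^ j) (htK : (t : K) ≠ 0) (hrK : (r : K) ≠ 0)
    (hZQ : Z ≤ Q) (hZc : ∀ z ∈ Z, ∀ g ∈ Q, z * g = g * z) (hbZ : b ∈ Subgroup.normalizer (Z : Set G)) [Fintype Z]
    {μ ν : G → K} (hμ : wsp ρ Z μ ≠ ⊥) (hnt : ∃ z ∈ Z, μ z ≠ 1) (hν : Mult Z ν)
    (hne : ∀ j : ℕ, ∃ z ∈ Z, μ ((b ^ j)⁻¹ * z * b ^ j) ≠ ν z) {z : K} (hz : z ^ r = 1) :
    ∃ v, ρ b v = z • v ∧ proj ρ Z μ v ≠ 0 ∧ proj ρ Z ν v = 0 := by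
  have hμm := mult_of_ne hμ
  have hZK : (Nat.card Z : K) ≠ 0 := by
    obtain ⟨k, hk⟩ := IsPGroup.iff_card.1 (hM.isP.to_le hZQ)
    rw [hk, Nat.cast_pow]
    exact pow_ne_zero _ htK
  have hbj : ∀ j : ℕ, b ^ j ∈ Subgroup.normalizer (Z : Set G) := fun j => Subgroup.pow_mem _ hbZ j
  have hνz : ∀ (j : ℕ) (v : V), v ∈ wsp ρ Z μ → proj ρ Z ν (ρ (b ^ j) v) = 0 := by
    intro j v hv
    exact proj_zero hν (hμm.conj (hbj j)) (hne j) (wsp_move (hbj j) hv)
  by_cases hbs : b ∈ stabW Z μ
  · obtain ⟨W, hWle, hW⟩ := exists_irrOn ρ Q b hμ (by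
      intro g hg w hw y hy
      rw [← rho_mul, hZc y hy g hg, rho_mul, hw y hy, map_smul]) (fun w hw => wsp_stab hbs hw)
    rcases core_C (p := r) (n := 1) hM.ne htK hrK hM.isP (by rw [hb, pow_one]) hM.norm hM.comm hM.cent hM.class2 hW (by
      intro w hw hfix
      obtain ⟨y, hy, hy1⟩ := hnt
      have h1 := hfix y (hZQ hy)
      rw [hWle hw y hy] at h1
      have h2 : (μ y - 1) • w = 0 := by rw [sub_smul, one_smul, h1, sub_self]
      rcases smul_eq_zero.1 h2 with h3 | h3
      · exact absurd (sub_eq_zero.1 h3) hy1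
      · exact h3) with h1 | h1
    · obtain ⟨v, hvW, hv0, hv⟩ := h1 z (by rw [pow_one]; exact hz)
      refine ⟨v, hv, ?_, ?_⟩
      · rw [proj_eq hμm (hWle hvW)]
        intro h0
        rcases smul_eq_zero.1 h0 with h3 | h3
        · exact hZK h3
        · exact hv0 h3
      · have := hνz 0 v (hWle hvW)
        rwa [pow_zero, map_one] at this
    · exfalso
      obtain ⟨k₁, n₀, b', U, R, hE⟩ := h1
      have h1 := hE.one_le
      have h2 := hE.le
      have h3 : n₀ = 1 := by omega
      have h4 := hE.eq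
      rw [h3, pow_one] at h4
      exact hexc b' hE.b_pos h4
  · obtain ⟨u, hu, hu0⟩ := (Submodule.ne_bot_iff _).1 hμ
    have hTr : (ρ b) ^ r = 1 := by rw [← map_pow, ← hb, pow_orderOf_eq_one, map_one]
    have hz0 : z ≠ 0 := by
      rintro rfl
      rw [zero_pow hr.out.ne_zero] at hz
      exact zero_ne_one hz
    refine ⟨eproj (ρ b) r z u, ?_, ?_, ?_⟩
    · rw [← Module.End.mul_apply, T_mul_eproj _ hTr hr.out.pos hz, LinearMap.smul_apply]
    · rw [eproj, LinearMap.smul_apply, LinearMap.sum_apply, map_smul, map_sum, Finset.sum_eq_single 0]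
      · rw [pow_zero, pow_zero, one_smul, Module.End.one_apply, proj_eq hμm hu]
        intro h0
        rcases smul_eq_zero.1 h0 with h3 | h3
        · exact inv_ne_zero hrK h3
        · rcases smul_eq_zero.1 h3 with h4 | h4
          · exact hZK h4
          · exact hu0 h4
      · intro j hj hj0
        rw [Finset.mem_range] at hj
        rw [LinearMap.smul_apply, map_smul, ← map_pow, proj_zero hμm (hμm.conj (hbj j)) ?_ (wsp_move (hbj j) hu),
          smul_zero]
        by_contra hcon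
        push Not at hcon
        have h1 : b ^ j ∈ stabW Z μ := ⟨hbj j, hcon⟩
        apply hbs
        have h2 : Nat.Coprime j r := by
          rw [Nat.coprime_comm, hr.out.coprime_iff_not_dvd]
          intro hd
          exact absurd (Nat.le_of_dvd (Nat.pos_of_ne_zero hj0) hd) (by omega)
        have h3 : Subgroup.zpowers (b ^ j) = Subgroup.zpowers b := by
          apply Subgroup.eq_of_le_of_card_ge
          · rw [Subgroup.zpowers_le]; exact Subgroup.pow_mem _ (Subgroup.mem_zpowers b) j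
          · rw [Nat.card_zpowers, Nat.card_zpowers, Nat.Coprime.orderOf_pow (by rw [hb]; exact h2.symm)]
        have h4 : b ∈ Subgroup.zpowers (b ^ j) := by rw [h3]; exact Subgroup.mem_zpowers b
        exact (Subgroup.zpowers_le.2 h1) h4
      · intro h
        exact absurd (Finset.mem_range.2 hr.out.pos) h
    · rw [eproj, LinearMap.smul_apply, LinearMap.sum_apply, map_smul, map_sum, Finset.sum_eq_zero, smul_zero]
      intro j _
      rw [LinearMap.smul_apply, map_smul, ← map_pow, hνz j u hu, smul_zero]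

theorem two_le_finrank [FiniteDimensional K V] (f : Module.End K V) {z : K} {e₁ e₂ : Module.End K V} {v w : V}
    (hv : f v = z • v) (hw : f w = z • w) (h1 : e₁ v ≠ 0) (h2 : e₂ v = 0) (h3 : e₂ w ≠ 0) (h4 : e₁ w = 0) :
    2 ≤ finrank K (Module.End.eigenspace f z) := by
  have hli : LinearIndependent K ![(⟨v, Module.End.mem_eigenspace_iff.2 hv⟩ : Module.End.eigenspace f z),
      ⟨w, Module.End.mem_eigenspace_iff.2 hw⟩] := by
    rw [LinearIndependent.pair_iff]
    intro s t h
    have h5 : s • v + t • w = 0 := congrArg Subtype.val h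
    have h6 := congrArg e₁ h5
    have h7 := congrArg e₂ h5
    rw [map_add, map_smul, map_smul, h4, smul_zero, add_zero, map_zero] at h6
    rw [map_add, map_smul, map_smul, h2, smul_zero, zero_add, map_zero] at h7
    exact ⟨(smul_eq_zero.1 h6).resolve_right h1, (smul_eq_zero.1 h7).resolve_right h3⟩
  have := hli.fintype_card_le_finrank
  simpa using this

theorem range_ge [FiniteDimensional K V] (f : Module.End K V) {r : ℕ} (hr : 0 < r) (hf : f ^ r = 1) (hrK : (r : K) ≠ 0)
    {ζ : K} (hζ : IsPrimitiveRoot ζ r) (h2 : ∀ z : K, z ^ r = 1 → 2 ≤ finrank K (Module.End.eigenspace f z)) :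
    2 * (r - 1) ≤ finrank K (LinearMap.range (f - 1)) := by
  obtain ⟨s, rfl⟩ : ∃ s, r = s + 1 := ⟨r - 1, by omega⟩
  have h3 := sum_finrank_eigs f hf hr hrK hζ
  rw [Fin.sum_univ_succ] at h3
  have h4 : LinearMap.ker (f - 1) = eigs f ζ ((0 : Fin (s + 1)) : ℕ) := by
    ext v
    rw [LinearMap.mem_ker, mem_eigs, LinearMap.sub_apply, Module.End.one_apply, sub_eq_zero]
    simp
  have h5 := LinearMap.finrank_range_add_finrank_ker (f - 1)
  rw [h4] at h5
  have h6 : ∑ i : Fin s, 2 ≤ ∑ i : Fin s, finrank K (eigs f ζ ((i.succ : Fin (s + 1)) : ℕ)) := by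
    apply Finset.sum_le_sum
    intro i _
    apply h2
    rw [← pow_mul, mul_comm, pow_mul, hζ.pow_eq_one, one_pow]
  rw [Finset.sum_const, Finset.card_univ, Fintype.card_fin, smul_eq_mul] at h6
  omega

end Cfsg.Agent.H62.PQ
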