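import Mathlib
import Cfsg.Agent.H62.PQ3

set_option autoImplicit false
set_option linter.style.haveILetI false
set_option linter.unusedSectionVars false

/-!
Automorphisms of small rank of symplectic spaces over the field with two elements (helper62).
-/

namespace Cfsg.Agent.H62.PQ

open Cfsg.Agent.HH Module
open scoped commutatorElement BigOperators TensorProduct

universe u v w

section bc

variable {F : Type w} [Field F] {M : Type v} [AddCommGroup M] [Module F M] [FiniteDimensional F M]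

theorem bc_form_nd (ω : LinearMap.BilinForm F M) (hs : ∀ x y, ω x y = ω y x)
    (hnd : ∀ x, (∀ y, ω x y = 0) → x = 0) :
    ∀ x : AlgebraicClosure F ⊗[F] M, (∀ y, ω.baseChange (AlgebraicClosure F) x y = 0) → x = 0 := by
  classical
  intro x hx
  let B := Module.finBasis F M
  have hinj : Function.Injective (ω : M →ₗ[F] M →ₗ[F] F) := by
    rw [injective_iff_map_eq_zero]
    intro m hm
    exact hnd m (fun y => by rw [hm]; rfl)
  have hsurj : Function.Surjective (ω : M →ₗ[F] M →ₗ[F] F) := by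
    apply (LinearMap.injective_iff_surjective_of_finrank_eq_finrank _).1 hinj
    exact (Subspace.dual_finrank_eq).symm
  have hy : ∀ i, ∃ y, ∀ m, ω m y = B.coord i m := by
    intro i
    obtain ⟨y, hy⟩ := hsurj (B.coord i)
    exact ⟨y, fun m => by rw [hs, hy]⟩
  choose y hy using hy
  let BK := B.baseChange (AlgebraicClosure F)
  apply BK.ext_elem
  intro i
  rw [map_zero, Finsupp.zero_apply]
  have h1 := hx (1 ⊗ₜ[F] y i)
  rw [← BK.sum_repr x, map_sum, LinearMap.sum_apply, Finset.sum_eq_single i] at h1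
  · rw [map_smul, LinearMap.smul_apply, Module.Basis.baseChange_apply, LinearMap.BilinForm.baseChange_tmul, hy,
      Module.Basis.coord_apply, Module.Basis.repr_self, Finsupp.single_eq_same, one_smul, smul_eq_mul] at h1
    simpa using h1
  · intro j _ hj
    rw [map_smul, LinearMap.smul_apply, Module.Basis.baseChange_apply, LinearMap.BilinForm.baseChange_tmul, hy,
      Module.Basis.coord_apply, Module.Basis.repr_self, Finsupp.single_eq_of_ne (Ne.symm hj), zero_smul, smul_zero]
  · intro h; exact absurd (Finset.mem_univ _) h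

theorem bc_form_inv {L : Type u} [Group L] (σ : Representation F L M) (ω : LinearMap.BilinForm F M)
    (hω : ∀ g x y, ω (σ g x) (σ g y) = ω x y) (g : L) (x y : AlgebraicClosure F ⊗[F] M) :
    ω.baseChange (AlgebraicClosure F) (bc F σ g x) (bc F σ g y) = ω.baseChange (AlgebraicClosure F) x y := by
  induction x using TensorProduct.induction_on with
  | zero => simp
  | add x₁ x₂ h₁ h₂ => rw [map_add, map_add, LinearMap.add_apply, h₁, h₂, map_add, LinearMap.add_apply]
  | tmul a m =>
    induction y using TensorProduct.induction_on with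
    | zero => simp
    | add y₁ y₂ h₁ h₂ => rw [map_add, map_add, h₁, h₂, map_add]
    | tmul c n =>
      change ω.baseChange (AlgebraicClosure F) (a ⊗ₜ σ g m) (c ⊗ₜ σ g n) = _
      rw [LinearMap.BilinForm.baseChange_tmul, LinearMap.BilinForm.baseChange_tmul, hω]

theorem finrank_range_bc {L : Type u} [Group L] (σ : Representation F L M) (g : L) :
    finrank (AlgebraicClosure F) (LinearMap.range (bc F σ g - 1)) ≤ finrank F (LinearMap.range (σ g - 1)) := by
  set f := σ g - 1 with hf
  have h1 : bc F σ g - 1 = f.baseChange (AlgebraicClosure F) := by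
    rw [bc_apply]
    have h2 : (Module.End.baseChangeHom F (AlgebraicClosure F) M) f = f.baseChange (AlgebraicClosure F) := rfl
    rw [← h2, hf, map_sub, map_one]
  have h2 : f.baseChange (AlgebraicClosure F) =
      ((LinearMap.range f).subtype.baseChange (AlgebraicClosure F)).comp
        (f.rangeRestrict.baseChange (AlgebraicClosure F)) := by
    rw [← LinearMap.baseChange_comp]
    rfl
  rw [h1, h2]
  calc finrank _ (LinearMap.range _) ≤
      finrank (AlgebraicClosure F) (LinearMap.range ((LinearMap.range f).subtype.baseChange (AlgebraicClosure F))) :=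
        Submodule.finrank_mono (LinearMap.range_comp_le_range _ _)
    _ ≤ finrank (AlgebraicClosure F) (AlgebraicClosure F ⊗[F] (LinearMap.range f)) := LinearMap.finrank_range_le _
    _ = _ := Module.finrank_baseChange

end bc

theorem eq_one_of_mul_self {K : Type w} [Field K] [CharP K 2] {x : K} (h : x * x = 1) : x = 1 := by
  have h5 : (x - 1) ^ 2 = 0 := by
    have h6 : (x - 1) ^ 2 = x * x + 1 - (2 : ℕ) * x := by push_cast; ring
    rw [h6, CharP.cast_eq_zero K 2, zero_mul, sub_zero, h, CharTwo.add_self_eq_zero]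
  exact sub_eq_zero.1 ((pow_eq_zero_iff (two_ne_zero)).1 h5)

section main

variable {M : Type v} [AddCommGroup M] [Module (ZMod 2) M] [Finite M] {L : Type u} [Group L] [Finite L]
  {σ : Representation (ZMod 2) L M}

theorem comm_eq_bot (hinj : Function.Injective σ) {T : Subgroup L} {t r e : ℕ} [ht : Fact t.Prime] [hr : Fact r.Prime]
    (hT : IsPGroup t T) (ht2 : t ≠ 2) (htr : t ≠ r) (hre : r = 2 ^ e + 1) (he : 1 ≤ e) {b : L} (hb : orderOf b = r)
    (hbT : b ∈ Subgroup.normalizer (T : Set L)) (ω : LinearMap.BilinForm (ZMod 2) M)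
    (hω : ∀ g x y, ω (σ g x) (σ g y) = ω x y) (hs : ∀ x y, ω x y = ω y x) (hnd : ∀ x, (∀ y, ω x y = 0) → x = 0)
    (hrk : finrank (ZMod 2) (LinearMap.range (σ b - 1)) ≤ 2 * e) : ⁅T, Subgroup.zpowers b⁆ = ⊥ := by
  classical
  haveI : Module.Finite (ZMod 2) M := Module.Finite.of_finite
  by_contra hnt
  have hcop : (Nat.card T).Coprime r := by
    obtain ⟨k, hk⟩ := IsPGroup.iff_card.1 hT
    rw [hk]
    exact ((Nat.coprime_primes ht.out hr.out).2 htr).pow_left k
  obtain ⟨q, hq, Q, hM⟩ := exists_minQ (p := r) (n := 1) T hcop (x := b) (by rw [hb, pow_one]) hbT (by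
    rw [show r ^ (1 - 1) = 1 from by norm_num, pow_one]; exact hnt)
  have hqt : q = t := by
    haveI := hq
    obtain ⟨x, hx⟩ := Subgroup.ne_bot_iff_exists_ne_one.1 hM.nt
    obtain ⟨k, hk⟩ := hM.isP x
    obtain ⟨k', hk'⟩ := (hT.to_le hM.le) x
    by_contra hne
    apply hx
    have h1 : orderOf x ∣ q ^ k := orderOf_dvd_of_pow_eq_one hk
    have h2 : orderOf x ∣ t ^ k' := orderOf_dvd_of_pow_eq_one hk'
    have h3 : Nat.Coprime (q ^ k) (t ^ k') := Nat.Coprime.pow _ _ ((Nat.coprime_primes hq.out ht.out).2 hne)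
    exact orderOf_eq_one_iff.1 (Nat.dvd_one.1 (by rw [← h3]; exact Nat.dvd_gcd h1 h2))
  subst hqt
  set Z : Subgroup L := Q ⊓ Subgroup.centralizer (Q : Set L) with hZ
  haveI := Fintype.ofFinite Z
  have hZQ : Z ≤ Q := inf_le_left
  have hZc : ∀ z ∈ Z, ∀ g ∈ Q, z * g = g * z := fun z hz g hg => (Subgroup.mem_centralizer_iff.1 hz.2 g hg).symm
  have hbZ : b ∈ Subgroup.normalizer (Z : Set L) := by
    rw [Subgroup.mem_normalizer_iff]
    have key : ∀ c : L, c ∈ Subgroup.normalizer (Q : Set L) → ∀ z ∈ Z, c * z * c⁻¹ ∈ Z := by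
      intro c hc z hz
      refine ⟨(Subgroup.mem_normalizer_iff.1 hc z).1 hz.1, Subgroup.mem_centralizer_iff.2 ?_⟩
      intro g hg
      have h1 := hZc z hz (c⁻¹ * g * c) ((Subgroup.mem_normalizer_iff''.1 hc g).1 hg)
      calc g * (c * z * c⁻¹) = c * ((c⁻¹ * g * c) * z) * c⁻¹ := by group
        _ = c * z * c⁻¹ * g := by rw [← h1]; group
    intro z
    constructor
    · exact key b hM.norm z
    · intro h
      have h1 := key b⁻¹ (Subgroup.inv_mem _ hM.norm) _ h
      have h2 : b⁻¹ * (b * z * b⁻¹) * b⁻¹⁻¹ = z := by group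
      rwa [h2] at h1
  have hZnt : Z ≠ ⊥ := by
    haveI : Nontrivial Q := (Subgroup.nontrivial_iff_ne_bot Q).2 hM.nt
    haveI := hM.isP.center_nontrivial
    obtain ⟨z, hz⟩ := exists_ne (1 : Subgroup.center Q)
    rw [Subgroup.ne_bot_iff_exists_ne_one]
    refine ⟨⟨((z : Q) : L), (z : Q).2, Subgroup.mem_centralizer_iff.2 ?_⟩, ?_⟩
    · intro g hg
      exact congrArg Subtype.val (Subgroup.mem_center_iff.1 z.2 ⟨g, hg⟩)
    · intro h
      apply hz
      have h1 : ((z : Q) : L) = 1 := congrArg (fun x : Z => (x : L)) h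
      exact Subtype.ext (Subtype.ext h1)
  -- base change
  set K := AlgebraicClosure (ZMod 2) with hK
  set ρ := bc (ZMod 2) σ with hρ
  have hρinj : Function.Injective ρ := bc_injective (ZMod 2) σ hinj
  haveI : CharP K 2 := charP_of_injective_algebraMap (algebraMap (ZMod 2) (AlgebraicClosure (ZMod 2))).injective 2
  have htK : (q : K) ≠ 0 := cast_ne_zero_bc ht.out (Ne.symm ht2)
  have hr2 : r ≠ 2 := by
    have : 2 ^ 1 ≤ 2 ^ e := Nat.pow_le_pow_right (by norm_num) he
    omega
  have hrK : (r : K) ≠ 0 := cast_ne_zero_bc hr.out (Ne.symm hr2)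
  have hZK : (Nat.card Z : K) ≠ 0 := by
    obtain ⟨k, hk⟩ := IsPGroup.iff_card.1 (hM.isP.to_le hZQ)
    rw [hk, Nat.cast_pow]
    exact pow_ne_zero _ htK
  obtain ⟨μ, hμ, z₀, hz₀, hz₀1⟩ := exists_weight ρ Z (fun a ha c hc => hZc a ha c (hZQ hc)) hZK
    (exists_ne_of_injective hρinj hZnt)
  have hμm := mult_of_ne hμ
  have hν : wsp ρ Z (fun z => μ z⁻¹) ≠ ⊥ :=
    wsp_dual hZK (ω.baseChange K) (bc_form_inv σ ω hω) (bc_form_nd ω hs hnd) hμ
  have hνm := mult_of_ne hν
  have hexc : ∀ j, 1 ≤ j → r - 1 ≠ q ^ j := by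
    intro j hj h
    rw [hre, Nat.add_sub_cancel] at h
    have h1 : 2 ∣ q ^ j := by rw [← h]; exact dvd_pow_self 2 (by omega)
    exact ht2 ((Nat.prime_dvd_prime_iff_eq Nat.prime_two ht.out).1 (Nat.prime_two.dvd_of_dvd_pow h1)).symm
  have key : ∀ j : ℕ, ¬ ∀ z ∈ Z, μ ((b ^ j)⁻¹ * z * b ^ j) = μ z⁻¹ := by
    intro j h
    have hbj : b ^ j ∈ Subgroup.normalizer (Z : Set L) := Subgroup.pow_mem _ hbZ j
    have h1 : b ^ j * b ^ j ∈ stabW Z μ := by
      refine ⟨Subgroup.mul_mem _ hbj hbj, fun z hz => ?_⟩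
      have h2 : (b ^ j * b ^ j)⁻¹ * z * (b ^ j * b ^ j) = (b ^ j)⁻¹ * ((b ^ j)⁻¹ * z * b ^ j) * b ^ j := by group
      have h3 := (Subgroup.mem_normalizer_iff''.1 hbj z).1 hz
      rw [h2, h _ h3, hμm.inv h3, h z hz, hμm.inv hz, inv_inv]
    obtain ⟨c, hc⟩ : Odd r := hr.out.odd_of_ne_two hr2
    have h2 : b ^ j ∈ stabW Z μ := by
      have h3 : (b ^ j * b ^ j) ^ (c + 1) = b ^ j := by
        rw [← pow_add, ← pow_mul]
        have h4 : (j + j) * (c + 1) = r * j + j := by rw [hc]; ring
        rw [h4, pow_add, pow_mul, ← hb, pow_orderOf_eq_one, one_pow, one_mul]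
      rw [← h3]
      exact Subgroup.pow_mem _ h1 _
    apply hz₀1
    have h3 := h2.2 z₀ hz₀
    rw [h z₀ hz₀, hμm.inv hz₀] at h3
    apply eq_one_of_mul_self
    have h4 := mul_inv_cancel₀ (hμm.ne_zero hz₀)
    rw [h3] at h4
    exact h4
  have h1 : ∀ z : K, z ^ r = 1 → 2 ≤ finrank K (Module.End.eigenspace (ρ b) z) := by
    intro z hz
    obtain ⟨v, hv, hv1, hv2⟩ := exists_eig hM hb hexc htK hrK hZQ hZc hbZ hμ ⟨z₀, hz₀, hz₀1⟩ hνm (by
      intro j
      have := key j
      push Not at this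
      exact this) hz
    obtain ⟨w, hw, hw1, hw2⟩ := exists_eig hM hb hexc htK hrK hZQ hZc hbZ hν
      ⟨z₀⁻¹, Z.inv_mem hz₀, by rw [inv_inv]; exact hz₀1⟩ hμm (by
      intro j
      by_contra hcon
      push Not at hcon
      apply key j
      intro z hz
      have h2 := hcon z⁻¹ (Z.inv_mem hz)
      have h3 : ((b ^ j)⁻¹ * z⁻¹ * b ^ j)⁻¹ = (b ^ j)⁻¹ * z * b ^ j := by group
      rw [h3] at h2
      exact h2) hz
    exact two_le_finrank _ hv hw hv1 hv2 hw1 hw2
  haveI : NeZero (r : K) := ⟨hrK⟩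
  obtain ⟨ζ, hζ⟩ := HasEnoughRootsOfUnity.exists_primitiveRoot K r
  have h2 := range_ge (ρ b) hr.out.pos (by rw [← map_pow, ← hb, pow_orderOf_eq_one, map_one]) hrK hζ h1
  have h3 := finrank_range_bc σ b
  have h4 : e < 2 ^ e := Nat.lt_two_pow_self
  have h5 : 2 * (r - 1) ≤ 2 * e := h2.trans (h3.trans hrk)
  omega

theorem aeval_pow_two {A : Type*} [Ring A] [Algebra (ZMod 2) A] (a : A) (f : Polynomial (ZMod 2)) (k : ℕ) :
    Polynomial.aeval (a ^ 2 ^ k) f = (Polynomial.aeval a f) ^ 2 ^ k := by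
  induction k with
  | zero => simp
  | succ k ih =>
    have h1 : a ^ 2 ^ (k + 1) = (a ^ 2 ^ k) ^ 2 := by rw [← pow_mul, pow_succ]
    rw [h1, ← Polynomial.expand_aeval, ZMod.expand_card, map_pow, ih, ← pow_mul, ← pow_succ]

theorem dual_trivial (hinj : Function.Injective σ) {T : Subgroup L} {t r e : ℕ} [ht : Fact t.Prime] [hr : Fact r.Prime]
    (hT : IsPGroup t T) (ht2 : t ≠ 2) (htr : t ≠ r) (hre : r = 2 ^ e + 1) (he : 1 ≤ e) {b : L} (hb : orderOf b = r)
    (hbT : b ∈ Subgroup.normalizer (T : Set L)) (ω : LinearMap.BilinForm (ZMod 2) M)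
    (hω : ∀ g x y, ω (σ g x) (σ g y) = ω x y) (hs : ∀ x y, ω x y = ω y x) (hnd : ∀ x, (∀ y, ω x y = 0) → x = 0)
    (hrk : finrank (ZMod 2) (LinearMap.range (σ b - 1)) ≤ 2 * e)
    (hfix : ∀ m, σ b m = m → (∀ u ∈ ⁅T, Subgroup.zpowers b⁆, σ u m = m) → m = 0) : T = ⊥ := by
  classical
  haveI : Module.Finite (ZMod 2) M := Module.Finite.of_finite
  have hcomm := comm_eq_bot hinj hT ht2 htr hre he hb hbT ω hω hs hnd hrk
  have hC : ∀ m, σ b m = m → m = 0 := by
    intro m hm
    apply hfix m hm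
    intro u hu
    rw [hcomm, Subgroup.mem_bot] at hu
    rw [hu, map_one]; rfl
  by_contra hTne
  obtain ⟨τ, hτ⟩ := Subgroup.ne_bot_iff_exists_ne_one.1 hTne
  have hτ1 : (τ : L) ≠ 1 := fun h => hτ (Subtype.ext h)
  have hτb : (τ : L) * b = b * τ := by
    have h1 : ⁅(τ : L), b⁆ ∈ ⁅T, Subgroup.zpowers b⁆ :=
      Subgroup.commutator_mem_commutator τ.2 (Subgroup.mem_zpowers b)
    rw [hcomm, Subgroup.mem_bot, commutatorElement_eq_one_iff_mul_comm] at h1
    exact h1
  have hm₀ : ∃ m₀ : M, m₀ ≠ 0 := by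
    by_contra hcon
    push Not at hcon
    apply hτ1
    apply hinj
    apply LinearMap.ext
    intro m
    rw [hcon m, map_zero, map_zero]
  obtain ⟨m₀, hm₀⟩ := hm₀
  have hrkM : finrank (ZMod 2) M ≤ 2 * e := by
    have h1 := LinearMap.finrank_range_add_finrank_ker (σ b - 1)
    have h2 : LinearMap.ker (σ b - 1) = ⊥ := by
      rw [LinearMap.ker_eq_bot']
      intro m hm
      rw [LinearMap.sub_apply, Module.End.one_apply, sub_eq_zero] at hm
      exact hC m hm
    rw [h2, finrank_bot] at h1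
    omega
  -- irreducibility
  have hirr : ∀ W : Submodule (ZMod 2) M, (∀ w ∈ W, σ b w ∈ W) → W ≠ ⊥ → W = ⊤ := by
    intro W hW hW0
    have hpow : ∀ g : Subgroup.zpowers b, ∀ w ∈ W, σ (g : L) w ∈ W := by
      rintro ⟨g, hg⟩ w hw
      obtain ⟨k, rfl⟩ := (isOfFinOrder_of_finite b).mem_powers_iff_mem_zpowers.2 hg
      induction k with
      | zero => simpa using hw
      | succ k ih =>
        have h1 := hW _ (ih (Subgroup.npow_mem_zpowers b k))
        change σ (b ^ (k + 1)) w ∈ W
        rw [pow_succ', rho_mul]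
        exact h1
    letI : MulAction (Subgroup.zpowers b) W :=
      { smul := fun g w => ⟨σ (g : L) w, hpow g w w.2⟩
        one_smul := fun w => Subtype.ext (by change σ ((1 : Subgroup.zpowers b) : L) (w : M) = w; simp)
        mul_smul := fun g h w => Subtype.ext (by
          change σ ((g * h : Subgroup.zpowers b) : L) (w : M) = σ (g : L) (σ (h : L) w)
          rw [Subgroup.coe_mul, rho_mul]) }
    have hpg : IsPGroup r (Subgroup.zpowers b) := IsPGroup.of_card (n := 1) (by rw [Nat.card_zpowers, hb, pow_one])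
    have h1 := hpg.card_modEq_card_fixedPoints (α := W)
    have h2 : Nat.card (MulAction.fixedPoints (Subgroup.zpowers b) W) = 1 := by
      rw [Nat.card_eq_one_iff_unique]
      refine ⟨⟨?_⟩, ⟨⟨0, ?_⟩⟩⟩
      · have h3 : ∀ x : MulAction.fixedPoints (Subgroup.zpowers b) W, ((x : W) : M) = 0 := by
          rintro ⟨x, hx⟩
          apply hC
          exact congrArg Subtype.val (hx ⟨b, Subgroup.mem_zpowers b⟩)
        intro x y
        exact Subtype.ext (Subtype.ext ((h3 x).trans (h3 y).symm))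
      · intro g
        apply Subtype.ext
        change σ (g : L) ((0 : W) : M) = 0
        simp
    rw [h2] at h1
    have h3 : Nat.card W = 2 ^ finrank (ZMod 2) W := by
      have := Module.natCard_eq_pow_finrank (K := ZMod 2) (V := W)
      rwa [Nat.card_zmod] at this
    rw [h3] at h1
    set d := finrank (ZMod 2) W with hd
    have hd0 : d ≠ 0 := by
      intro h
      exact hW0 (Submodule.finrank_eq_zero.1 h)
    have hdM : d ≤ finrank (ZMod 2) M := Submodule.finrank_le W
    have hd2 : r ∣ 2 ^ d - 1 := (Nat.modEq_iff_dvd' Nat.one_le_two_pow).1 h1.symm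
    have hd2e : d = 2 * e := by
      by_contra hne
      have h1d : 1 < 2 ^ d := Nat.one_lt_two_pow hd0
      rcases Nat.lt_or_ge e d with h4 | h4
      · -- e < d < 2 e
        obtain ⟨c, hc⟩ : ∃ c, d = e + c := ⟨d - e, by omega⟩
        have hce : c < e := by omega
        have hce' : 2 ^ c < 2 ^ e := Nat.pow_lt_pow_right (by norm_num) hce
        have h5 : r ∣ 2 ^ c + 1 := by
          have h6 : 2 ^ d - 1 + (2 ^ c + 1) = 2 ^ c * r := by
            rw [hc, pow_add, hre]
            have : 1 ≤ 2 ^ e * 2 ^ c := Nat.one_le_iff_ne_zero.2 (by positivity)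
            have h7 : 2 ^ c * (2 ^ e + 1) = 2 ^ e * 2 ^ c + 2 ^ c := by ring
            omega
          exact (Nat.dvd_add_right hd2).1 (by rw [h6]; exact dvd_mul_left r _)
        have := Nat.le_of_dvd (by positivity) h5
        omega
      · have h5 : 2 ^ d ≤ 2 ^ e := Nat.pow_le_pow_right (by norm_num) h4
        have := Nat.le_of_dvd (by omega) hd2
        omega
    apply Submodule.eq_top_of_finrank_eq
    omega
  -- `τ` is a polynomial in `b`
  let N : Submodule (ZMod 2) M :=
    { carrier := {x | ∃ f : Polynomial (ZMod 2), x = Polynomial.aeval (σ b) f m₀}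
      add_mem' := by
        rintro _ _ ⟨f, rfl⟩ ⟨g, rfl⟩
        exact ⟨f + g, by rw [map_add, LinearMap.add_apply]⟩
      zero_mem' := ⟨0, by rw [map_zero, LinearMap.zero_apply]⟩
      smul_mem' := by
        rintro c _ ⟨f, rfl⟩
        exact ⟨c • f, by rw [map_smul, LinearMap.smul_apply]⟩ }
  have hN : N = ⊤ := by
    apply hirr
    · rintro _ ⟨f, rfl⟩
      exact ⟨Polynomial.X * f, by rw [map_mul, Polynomial.aeval_X, Module.End.mul_apply]⟩
    · intro h0
      apply hm₀
      have h1 : m₀ ∈ N := ⟨1, by rw [map_one, Module.End.one_apply]⟩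
      rw [h0, Submodule.mem_bot] at h1
      exact h1
  obtain ⟨f, hf⟩ : ∃ f : Polynomial (ZMod 2), σ τ m₀ = Polynomial.aeval (σ b) f m₀ := by
    have h1 : σ τ m₀ ∈ N := by rw [hN]; trivial
    exact h1
  have hcm : ∀ g : Polynomial (ZMod 2), ∀ x, Polynomial.aeval (σ b) g (σ b x) = σ b (Polynomial.aeval (σ b) g x) := by
    intro g x
    have h1 : Polynomial.aeval (σ b) (g * Polynomial.X) = Polynomial.aeval (σ b) (Polynomial.X * g) := by rw [mul_comm]
    rw [map_mul, map_mul, Polynomial.aeval_X] at h1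
    exact congrArg (fun φ : Module.End (ZMod 2) M => φ x) h1
  have hτf : σ τ = Polynomial.aeval (σ b) f := by
    have h1 : LinearMap.eqLocus (σ τ) (Polynomial.aeval (σ b) f) = ⊤ := by
      apply hirr
      · intro w hw
        rw [LinearMap.mem_eqLocus] at hw ⊢
        rw [← rho_mul, hτb, rho_mul, hw, hcm]
      · intro h0
        apply hm₀
        have h1 : m₀ ∈ LinearMap.eqLocus (σ τ) (Polynomial.aeval (σ b) f) := hf
        rw [h0, Submodule.mem_bot] at h1
        exact h1
    apply LinearMap.ext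
    intro x
    have h2 : x ∈ LinearMap.eqLocus (σ τ) (Polynomial.aeval (σ b) f) := by rw [h1]; trivial
    exact h2
  have hbi : ∀ x y, ω (σ b x) y = ω x (σ b⁻¹ y) := by
    intro x y
    rw [← hω b⁻¹ (σ b x) y, rho_inv_apply]
  have hadj : ∀ (g : Polynomial (ZMod 2)) (x y : M),
      ω (Polynomial.aeval (σ b) g x) y = ω x (Polynomial.aeval (σ b⁻¹) g y) := by
    intro g
    induction g using Polynomial.induction_on' with
    | add p q hp hq =>
      intro x y
      rw [map_add, map_add, LinearMap.add_apply, LinearMap.add_apply, map_add, map_add, LinearMap.add_apply, hp, hq]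
    | monomial n a =>
      intro x y
      rw [Polynomial.aeval_monomial, Polynomial.aeval_monomial, Module.End.mul_apply, Module.End.mul_apply,
        Module.algebraMap_end_apply, Module.algebraMap_end_apply, map_smul, map_smul, LinearMap.smul_apply]
      congr 1
      induction n generalizing x y with
      | zero => simp
      | succ n ih =>
        rw [pow_succ', Module.End.mul_apply, hbi, ih, pow_succ, Module.End.mul_apply]
  have hbinv : b⁻¹ = b ^ 2 ^ e := by
    symm
    apply eq_inv_of_mul_eq_one_left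
    rw [← pow_succ, ← hre, ← hb, pow_orderOf_eq_one]
  have hfin : σ (τ : L)⁻¹ = σ ((τ : L) ^ 2 ^ e) := by
    apply LinearMap.ext
    intro y
    have h1 : σ (τ : L)⁻¹ y - σ ((τ : L) ^ 2 ^ e) y = 0 := by
      apply hnd
      intro x
      rw [hs, map_sub]
      have h2 : ω x (σ (τ : L)⁻¹ y) = ω (σ τ x) y := by
        rw [← hω (τ : L)⁻¹ (σ τ x) y, rho_inv_apply]
      rw [h2, hτf, hadj, hbinv, map_pow, aeval_pow_two, ← hτf, ← map_pow, sub_self]
    exact sub_eq_zero.1 h1
  have h1 : (τ : L) ^ r = 1 := by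
    rw [hre, pow_succ, ← hinj hfin, inv_mul_cancel]
  obtain ⟨k, hk⟩ := hT τ
  have h2 : orderOf (τ : L) ∣ t ^ k := by
    apply orderOf_dvd_of_pow_eq_one
    have := congrArg Subtype.val hk
    simpa using this
  have h3 : orderOf (τ : L) ∣ r := orderOf_dvd_of_pow_eq_one h1
  have h4 : Nat.Coprime (t ^ k) r := ((Nat.coprime_primes ht.out hr.out).2 htr).pow_left k
  exact hτ1 (orderOf_eq_one_iff.1 (Nat.dvd_one.1 (by rw [← h4]; exact Nat.dvd_gcd h2 h3)))

end main

end Cfsg.Agent.H62.PQ
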