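import Mathlib
import Cfsg.Agent.H62.PQ4
import Cfsg.Agent.Cop.MinAct
import Cfsg.Agent.BG3.Section

set_option autoImplicit false
set_option linter.style.haveILetI false
set_option linter.unusedSectionVars false

/-!
The configuration of two coprime sections and a non-abelian group of order `pq` (helper62).
-/

namespace Cfsg.Agent.H62.PQ

open Cfsg.Agent.HH Module
open scoped commutatorElement BigOperators TensorProduct

universe u v w

variable {Γ : Type u} [Group Γ]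

/-- the configuration -/
structure Cfg (s t p q : ℕ) (S T P R A : Subgroup Γ) : Prop where
  Sn : S.Normal
  hS : IsPGroup s S
  hT : IsPGroup t T
  hP : Nat.card P = p
  hR : Nat.card R = q
  hp : p.Prime
  hq : q.Prime
  hs : s.Prime
  ht : t.Prime
  st : s ≠ t
  ps : p ≠ s
  pt : p ≠ t
  qs : q ≠ s
  qt : q ≠ t
  pq : p ≠ q
  RP : R ≤ Subgroup.normalizer (P : Set Γ)
  AT : A ≤ Subgroup.normalizer (T : Set Γ)
  sup : P ⊔ R = A
  PR : P ⊓ Subgroup.centralizer (R : Set Γ) = ⊥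
  CS : S ⊓ Subgroup.centralizer (A : Set Γ) = ⊥
  CT : T ⊓ Subgroup.centralizer (A : Set Γ) = ⊥

/-- prime order: a subgroup containing a nontrivial element contains everything -/
theorem le_of_prime_card {P E : Subgroup Γ} (hP : (Nat.card P).Prime) {y : Γ} (hyP : y ∈ P) (hyE : y ∈ E)
    (hy1 : y ≠ 1) : P ≤ E := by
  haveI : Finite P := Nat.finite_of_card_ne_zero hP.ne_zero
  have h1 : Nat.card (E ⊓ P : Subgroup Γ) ∣ Nat.card P := Subgroup.card_dvd_of_le inf_le_right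
  rcases (Nat.dvd_prime hP).1 h1 with h2 | h2
  · exfalso
    apply hy1
    have h3 := Subgroup.eq_bot_of_card_eq _ h2
    have h4 : y ∈ E ⊓ P := ⟨hyE, hyP⟩
    rw [h3, Subgroup.mem_bot] at h4
    exact h4
  · have h3 : E ⊓ P = P := Subgroup.eq_of_le_of_card_ge inf_le_right h2.ge
    rw [← h3]; exact inf_le_left

theorem card_sup_coprime [Finite Γ] {N B : Subgroup Γ} (h : B ≤ Subgroup.normalizer (N : Set Γ))
    (hcop : (Nat.card N).Coprime (Nat.card B)) : Nat.card (N ⊔ B : Subgroup Γ) = Nat.card N * Nat.card B := by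
  have h1 := (Cop.isComplement'_subgroupOf_sup h hcop).card_mul_card
  rw [Nat.card_congr (Subgroup.subgroupOfEquivOfLe (le_sup_left : N ≤ N ⊔ B)).toEquiv,
    Nat.card_congr (Subgroup.subgroupOfEquivOfLe (le_sup_right : B ≤ N ⊔ B)).toEquiv] at h1
  exact h1.symm

theorem le_normalizer_comm {A T B : Subgroup Γ} (hAT : A ≤ Subgroup.normalizer (T : Set Γ))
    (hAB : A ≤ Subgroup.normalizer (B : Set Γ)) : A ≤ Subgroup.normalizer ((⁅T, B⁆ : Subgroup Γ) : Set Γ) :=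
  fun a ha => H49.mem_normalizer_commutator (b := a) (hAT ha) (hAB ha)

theorem le_normalizer_sup {A T B : Subgroup Γ} (hAT : A ≤ Subgroup.normalizer (T : Set Γ))
    (hAB : A ≤ Subgroup.normalizer (B : Set Γ)) : A ≤ Subgroup.normalizer ((T ⊔ B : Subgroup Γ) : Set Γ) := by
  intro a ha
  have key : ∀ a : Γ, a ∈ Subgroup.normalizer (T : Set Γ) → a ∈ Subgroup.normalizer (B : Set Γ) →
      ∀ x ∈ T ⊔ B, a * x * a⁻¹ ∈ T ⊔ B := by
    intro a haT haB x hx
    have h1 : T ⊔ B ≤ (T ⊔ B).comap (MulAut.conj a).toMonoidHom := by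
      apply sup_le
      · intro y hy
        exact Subgroup.mem_sup_left ((Subgroup.mem_normalizer_iff.1 haT y).1 hy)
      · intro y hy
        exact Subgroup.mem_sup_right ((Subgroup.mem_normalizer_iff.1 haB y).1 hy)
    exact h1 hx
  rw [Subgroup.mem_normalizer_iff]
  intro x
  constructor
  · exact key a (hAT ha) (hAB ha) x
  · intro h
    have h1 := key a⁻¹ (Subgroup.inv_mem _ (hAT ha)) (Subgroup.inv_mem _ (hAB ha)) _ h
    have h2 : a⁻¹ * (a * x * a⁻¹) * a⁻¹⁻¹ = x := by group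
    rwa [h2] at h1

/-- `T` normalizes `B [T,B]` -/
theorem left_le_normalizer (T B : Subgroup Γ) :
    T ≤ Subgroup.normalizer ((B ⊔ ⁅T, B⁆ : Subgroup Γ) : Set Γ) := by
  have key : ∀ a ∈ T, ∀ x ∈ (B ⊔ ⁅T, B⁆ : Subgroup Γ), a * x * a⁻¹ ∈ (B ⊔ ⁅T, B⁆ : Subgroup Γ) := by
    intro a ha x hx
    have h1 : B ⊔ ⁅T, B⁆ ≤ (B ⊔ ⁅T, B⁆).comap (MulAut.conj a).toMonoidHom := by
      apply sup_le
      · intro y hy
        change a * y * a⁻¹ ∈ (B ⊔ ⁅T, B⁆ : Subgroup Γ)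
        have h2 : a * y * a⁻¹ = ⁅a, y⁆ * y := by rw [commutatorElement_def]; group
        rw [h2]
        exact Subgroup.mul_mem _ (Subgroup.mem_sup_right (Subgroup.commutator_mem_commutator ha hy))
          (Subgroup.mem_sup_left hy)
      · intro y hy
        have h3 : a ∈ Subgroup.normalizer ((⁅T, B⁆ : Subgroup Γ) : Set Γ) := Subgroup.normalizer_commutator_ge_left T B ha
        exact Subgroup.mem_sup_right ((Subgroup.mem_normalizer_iff.1 h3 y).1 hy)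
    exact h1 hx
  intro a ha
  rw [Subgroup.mem_normalizer_iff]
  intro x
  constructor
  · exact key a ha x
  · intro h
    have h1 := key a⁻¹ (T.inv_mem ha) _ h
    have h2 : a⁻¹ * (a * x * a⁻¹) * a⁻¹⁻¹ = x := by group
    rwa [h2] at h1

variable {s t p q : ℕ} {S T P R A : Subgroup Γ}

namespace Cfg

variable (h : Cfg s t p q S T P R A)

include h

theorem PA : P ≤ A := h.sup ▸ le_sup_left
theorem RA : R ≤ A := h.sup ▸ le_sup_right

theorem AP : A ≤ Subgroup.normalizer (P : Set Γ) := by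
  rw [← h.sup]
  exact sup_le Subgroup.le_normalizer h.RP

theorem cardA [Finite Γ] : Nat.card A = p * q := by
  rw [← h.sup, card_sup_coprime h.RP (by rw [h.hP, h.hR]; exact (Nat.coprime_primes h.hp h.hq).2 h.pq), h.hP, h.hR]

variable [Finite Γ]

theorem copT : (Nat.card A).Coprime (Nat.card T) := by
  haveI : Fact t.Prime := ⟨h.ht⟩
  obtain ⟨k, hk⟩ := IsPGroup.iff_card.1 h.hT
  rw [hk, h.cardA]
  apply Nat.Coprime.pow_right
  exact Nat.Coprime.mul_left ((Nat.coprime_primes h.hp h.ht).2 h.pt) ((Nat.coprime_primes h.hq h.ht).2 h.qt)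

theorem copS : (Nat.card A).Coprime (Nat.card S) := by
  haveI : Fact s.Prime := ⟨h.hs⟩
  obtain ⟨k, hk⟩ := IsPGroup.iff_card.1 h.hS
  rw [hk, h.cardA]
  apply Nat.Coprime.pow_right
  exact Nat.Coprime.mul_left ((Nat.coprime_primes h.hp h.hs).2 h.ps) ((Nat.coprime_primes h.hq h.hs).2 h.qs)

theorem copTs : (Nat.card T).Coprime s := by
  haveI : Fact t.Prime := ⟨h.ht⟩
  obtain ⟨k, hk⟩ := IsPGroup.iff_card.1 h.hT
  rw [hk]
  exact ((Nat.coprime_primes h.ht h.hs).2 (Ne.symm h.st)).pow_left k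

theorem solT : Group.IsSolvable T := by
  haveI : Fact t.Prime := ⟨h.ht⟩
  haveI := h.hT.isNilpotent
  exact inferInstance

theorem solS : Group.IsSolvable S := by
  haveI : Fact s.Prime := ⟨h.hs⟩
  haveI := h.hS.isNilpotent
  exact inferInstance

theorem TA : ⁅T, A⁆ = T := by
  have h1 := Cop.commutator_sup_centralizer h.AT h.copT (Or.inr h.solT)
  rw [h.CT, sup_bot_eq] at h1
  exact h1

/-- two complements generate -/
theorem gen_A {x : Γ} (hx : x ∈ P) (hx1 : x ≠ 1) {E : Subgroup Γ} (hRE : R ≤ E)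
    (hRE' : ∀ r ∈ R, x * r * x⁻¹ ∈ E) : A ≤ E := by
  have h1 : ∃ r ∈ R, x * r * x⁻¹ * r⁻¹ ≠ 1 := by
    by_contra hcon
    push Not at hcon
    apply hx1
    have h2 : x ∈ P ⊓ Subgroup.centralizer (R : Set Γ) := by
      refine ⟨hx, Subgroup.mem_centralizer_iff.2 ?_⟩
      intro r hr
      have h3 := hcon r hr
      rw [mul_inv_eq_one, mul_inv_eq_iff_eq_mul] at h3
      exact h3.symm
    rw [h.PR, Subgroup.mem_bot] at h2
    exact h2
  obtain ⟨r, hr, hne⟩ := h1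
  rw [← h.sup]
  refine sup_le (le_of_prime_card (by rw [h.hP]; exact h.hp) (y := x * r * x⁻¹ * r⁻¹) ?_
    (E.mul_mem (hRE' r hr) (E.inv_mem (hRE hr))) hne) hRE
  have h2 : x * r * x⁻¹ * r⁻¹ = x * (r * x⁻¹ * r⁻¹) := by group
  rw [h2]
  exact P.mul_mem hx ((Subgroup.mem_normalizer_iff.1 (h.RP hr) _).1 (P.inv_mem hx))

theorem gen_T {x : Γ} (hx : x ∈ P) (hx1 : x ≠ 1) {N : Subgroup Γ} (h1 : ⁅T, R⁆ ≤ N)
    (h2 : ∀ u ∈ ⁅T, R⁆, x * u * x⁻¹ ∈ N) : T ≤ N := by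
  set N₂ : Subgroup Γ := ⁅T, R⁆ ⊔ (⁅T, R⁆).map (MulAut.conj x).toMonoidHom with hN₂
  have hN : N₂ ≤ N := by
    apply sup_le h1
    rintro _ ⟨u, hu, rfl⟩
    exact h2 u hu
  have hxT : x ∈ Subgroup.normalizer (T : Set Γ) := h.AT (h.PA hx)
  -- the elements acting trivially on `T / N₂`
  have hmulmem : ∀ a b : Γ, (∀ τ ∈ T, ⁅τ, a⁆ ∈ N₂) → (∀ τ ∈ T, ⁅τ, b⁆ ∈ N₂) → b ∈ Subgroup.normalizer (T : Set Γ) →
      ∀ τ ∈ T, ⁅τ, a * b⁆ ∈ N₂ := by
    intro a b ha hb hbT τ hτ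
    have h3 : ⁅τ, a * b⁆ = ⁅τ, a⁆ * (⁅⁅τ, b⁆, a⁆⁻¹ * ⁅τ, b⁆) := by
      simp only [commutatorElement_def]; group
    rw [h3]
    have h4 : ⁅τ, b⁆ ∈ T := by
      rw [commutatorElement_def]
      have h5 : τ * b * τ⁻¹ * b⁻¹ = τ * (b * τ⁻¹ * b⁻¹) := by group
      rw [h5]
      exact T.mul_mem hτ ((Subgroup.mem_normalizer_iff.1 hbT _).1 (T.inv_mem hτ))
    exact N₂.mul_mem (ha τ hτ) (N₂.mul_mem (N₂.inv_mem (ha _ h4)) (hb τ hτ))
  let D : Subgroup Γ :=
    { carrier := {a | a ∈ Subgroup.normalizer (T : Set Γ) ∧ ∀ τ ∈ T, ⁅τ, a⁆ ∈ N₂}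
      one_mem' := ⟨Subgroup.one_mem _, fun τ _ => by rw [commutatorElement_one_right]; exact N₂.one_mem⟩
      mul_mem' := by
        rintro a b ⟨ha, ha'⟩ ⟨hb, hb'⟩
        exact ⟨Subgroup.mul_mem _ ha hb, hmulmem a b ha' hb' hb⟩
      inv_mem' := by
        rintro a ⟨ha, ha'⟩
        refine ⟨Subgroup.inv_mem _ ha, fun τ hτ => ?_⟩
        have h3 := N₂.inv_mem (ha' _ ((Subgroup.mem_normalizer_iff''.1 ha τ).1 hτ))
        have h4 : ⁅a⁻¹ * τ * a, a⁆⁻¹ = ⁅τ, a⁻¹⁆ := by simp only [commutatorElement_def]; group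
        rwa [h4] at h3 }
  have hAD : A ≤ D := by
    apply h.gen_A hx hx1
    · intro r hr
      exact ⟨h.AT (h.RA hr), fun τ hτ => Subgroup.mem_sup_left (Subgroup.commutator_mem_commutator hτ hr)⟩
    · intro r hr
      refine ⟨Subgroup.mul_mem _ (Subgroup.mul_mem _ hxT (h.AT (h.RA hr))) (Subgroup.inv_mem _ hxT), fun τ hτ => ?_⟩
      apply Subgroup.mem_sup_right
      refine ⟨⁅x⁻¹ * τ * x, r⁆, Subgroup.commutator_mem_commutator
        ((Subgroup.mem_normalizer_iff''.1 hxT τ).1 hτ) hr, ?_⟩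
      change x * ⁅x⁻¹ * τ * x, r⁆ * x⁻¹ = _
      simp only [commutatorElement_def]; group
  calc T = ⁅T, A⁆ := h.TA.symm
    _ ≤ N₂ := by
      rw [Subgroup.commutator_le]
      intro τ hτ a ha
      exact (hAD ha).2 τ hτ
    _ ≤ N := hN

end Cfg

/-- a normal section as a module for the whole group -/
structure GMod (s : ℕ) (S Z : Subgroup Γ) (M : Type u) [AddCommGroup M] [Module (ZMod s) M] where
  σ : Representation (ZMod s) Γ M
  π : S → M
  surj : Function.Surjective π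
  mul : ∀ a b : S, π (a * b) = π a + π b
  ker : ∀ a : S, π a = 0 ↔ (a : Γ) ∈ Z
  equiv : ∀ (g : Γ) (a b : S), (b : Γ) = g * a * g⁻¹ → π b = σ g (π a)

theorem exists_gmod [Finite Γ] {s : ℕ} {S Z : Subgroup Γ} (hS : S.Normal) (hZ : Z.Normal)
    (hpow : ∀ x ∈ S, x ^ s ∈ Z) (hcomm : ∀ x ∈ S, ∀ y ∈ S, x * y * x⁻¹ * y⁻¹ ∈ Z) :
    ∃ (M : Type u) (_ : AddCommGroup M) (_ : Module (ZMod s) M) (_ : Finite M), Nonempty (GMod s S Z M) := by
  have hn : ∀ (K : Subgroup Γ), K.Normal → ∀ L : Subgroup Γ, L ≤ Subgroup.normalizer (K : Set Γ) := by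
    intro K hK L
    haveI := hK
    rw [Subgroup.normalizer_eq_top]
    exact le_top
  obtain ⟨M, iA, iM, ⟨E⟩⟩ := BG3.exists_secMod (ℓ := s) (M := S) (M1 := Z) (Y := ⊤) (hn Z hZ S) (hn S hS ⊤)
    (hn Z hZ ⊤) hpow hcomm
  refine ⟨M, iA, iM, E.finite, ⟨{
    σ := E.ρ.comp (Subgroup.topEquiv.symm : Γ ≃* (⊤ : Subgroup Γ)).toMonoidHom
    π := fun a => (E.π a).toAdd
    surj := fun v => E.exists_rep v
    mul := fun a b => by rw [map_mul, toAdd_mul]
    ker := fun a => by rw [← E.ker]; exact toAdd_eq_zero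
    equiv := ?_ }⟩⟩
  intro g a b hb
  have h1 := E.equiv ⟨g, Subgroup.mem_top g⟩ a
  have h2 : BG3.cjHom (hn S hS ⊤) ⟨g, Subgroup.mem_top g⟩ a = b := Subtype.ext hb.symm
  rw [h2] at h1
  exact h1

namespace GMod

variable {s : ℕ} {S Z : Subgroup Γ} {M : Type u} [AddCommGroup M] [Module (ZMod s) M] (E : GMod s S Z M)

include E

theorem eq_iff (a b : S) : E.π a = E.π b ↔ (b : Γ)⁻¹ * a ∈ Z := by
  have h1 : E.π a = E.π b + E.π (b⁻¹ * a) := by rw [← E.mul, mul_inv_cancel_left]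
  rw [h1, add_eq_left, E.ker]
  rfl

theorem fix_iff (g : Γ) (a : S) (hg : g * a * g⁻¹ ∈ S) :
    E.σ g (E.π a) = E.π a ↔ (a : Γ)⁻¹ * (g * a * g⁻¹) ∈ Z := by
  rw [← E.equiv g a ⟨_, hg⟩ rfl, E.eq_iff]

/-- fixed points -/
theorem eq_zero [Finite Γ] (hs : s.Prime) (hSs : IsPGroup s S) (hSn : S.Normal) (hZn : Z.Normal) (hZS : Z ≤ S)
    {X : Subgroup Γ} (hX : (Nat.card X).Coprime s) (hC : S ⊓ Subgroup.centralizer (X : Set Γ) ≤ Z)
    {m : M} (hm : ∀ x ∈ X, E.σ x m = m) : m = 0 := by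
  haveI : Fact s.Prime := ⟨hs⟩
  haveI := hSn
  haveI := hZn
  obtain ⟨a, rfl⟩ := E.surj m
  rw [E.ker]
  have hsol : Group.IsSolvable S := by
    haveI := hSs.isNilpotent
    exact inferInstance
  obtain ⟨c, hc, hac⟩ := Cop.fixed_points_quotient X S (by rw [Subgroup.normalizer_eq_top]; exact le_top)
    (Cop.coprime_card_of_isPGroup hSs hX) (Or.inr hsol) Z hZS (by rw [Subgroup.normalizer_eq_top]; exact le_top)
    (by rw [Subgroup.normalizer_eq_top]; exact le_top) a a.2 (by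
      intro x hx
      have h1 : x * a * x⁻¹ ∈ S := hSn.conj_mem a a.2 x
      have h2 := (E.fix_iff x a h1).1 (hm x hx)
      have h3 := hZn.conj_mem _ h2 a
      have h4 : (a : Γ) * ((a : Γ)⁻¹ * (x * a * x⁻¹)) * (a : Γ)⁻¹ = x * a * x⁻¹ * (a : Γ)⁻¹ := by group
      rwa [h4] at h3)
  have h1 := Z.mul_mem (hC hc) (Z.inv_mem hac)
  have h2 : c * ((a : Γ)⁻¹ * c)⁻¹ = a := by group
  rwa [h2] at h1

end GMod

theorem fixS_apply {s : ℕ} {M : Type u} [AddCommGroup M] [Module (ZMod s) M] (σ : Representation (ZMod s) Γ M)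
    (X : Subgroup Γ) : ∃ W : Submodule (ZMod s) M, ∀ w, w ∈ W ↔ ∀ x ∈ X, σ x w = w :=
  ⟨{ carrier := {w | ∀ x ∈ X, σ x w = w}
     add_mem' := fun {a b} ha hb x hx => by rw [map_add, ha x hx, hb x hx]
     zero_mem' := fun x _ => map_zero _
     smul_mem' := fun c a ha x hx => by rw [map_smul, ha x hx] }, fun _ => Iff.rfl⟩

theorem fix_move {s : ℕ} [Fact s.Prime] {M : Type u} [AddCommGroup M] [Module (ZMod s) M] {σ : Representation (ZMod s) Γ M}
    {X : Subgroup Γ} {y : Γ} (hy : y ∈ Subgroup.normalizer (X : Set Γ)) {w : M} (hw : ∀ x ∈ X, σ x w = w) :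
    ∀ x ∈ X, σ x (σ y w) = σ y w := by
  intro x hx
  rw [← rho_mul]
  have h1 : x * y = y * (y⁻¹ * x * y) := by group
  rw [h1, rho_mul, hw _ ((Subgroup.mem_normalizer_iff''.1 hy x).1 hx)]

namespace Cfg

variable [Finite Γ] (h : Cfg s t p q S T P R A)

include h

theorem T_coprime : (Nat.card T : ZMod s) ≠ 0 := by
  rw [Ne, ZMod.natCast_eq_zero_iff]
  intro hd
  exact h.hs.one_lt.ne' (Nat.eq_one_of_dvd_coprimes h.copTs hd (dvd_refl s))

theorem starP (hZn : (S ⊓ Subgroup.centralizer (T : Set Γ)).Normal)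
    (hpow : ∀ x ∈ S, x ^ s ∈ S ⊓ Subgroup.centralizer (T : Set Γ))
    (hcomm : ∀ x ∈ S, ∀ y ∈ S, x * y * x⁻¹ * y⁻¹ ∈ S ⊓ Subgroup.centralizer (T : Set Γ)) :
    S ⊓ Subgroup.centralizer ((P ⊔ ⁅T, P⁆ : Subgroup Γ) : Set Γ) ≤ S ⊓ Subgroup.centralizer (T : Set Γ) := by
  classical
  haveI : Fact s.Prime := ⟨h.hs⟩
  obtain ⟨M, iA, iM, iF, ⟨E⟩⟩ := exists_gmod h.Sn hZn hpow hcomm
  obtain ⟨W, hW⟩ := fixS_apply E.σ (P ⊔ ⁅T, P⁆)
  have hAs : (Nat.card A).Coprime s := by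
    rw [h.cardA]
    exact Nat.Coprime.mul_left ((Nat.coprime_primes h.hp h.hs).2 h.ps) ((Nat.coprime_primes h.hq h.hs).2 h.qs)
  have hAX : A ≤ Subgroup.normalizer ((P ⊔ ⁅T, P⁆ : Subgroup Γ) : Set Γ) :=
    le_normalizer_sup h.AP (le_normalizer_comm h.AT h.AP)
  have hfixT : ∀ m : M, (∀ t ∈ T, E.σ t m = m) → m = 0 := fun m hm =>
    E.eq_zero h.hs h.hS h.Sn hZn inf_le_left h.copTs le_rfl hm
  have hfixA : ∀ m : M, (∀ a ∈ A, E.σ a m = m) → m = 0 := fun m hm =>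
    E.eq_zero h.hs h.hS h.Sn hZn inf_le_left hAs (by rw [h.CS]; exact bot_le) hm
  have key := frob E.σ T R (h.RA.trans h.AT) h.T_coprime W
    (fun t ht w hw => (hW _).2 (fix_move (left_le_normalizer T P ht) ((hW w).1 hw)))
    (fun r hr w hw => (hW _).2 (fix_move (hAX (h.RA hr)) ((hW w).1 hw)))
    (fun w _ hw => hfixT w hw)
    (by
      intro w hw hwR
      apply hfixA
      have h1 : A ≤ fixer E.σ w := by
        rw [← h.sup]
        apply sup_le
        · intro x hx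
          exact (hW w).1 hw x (Subgroup.mem_sup_left hx)
        · intro x hx
          exact hwR x hx
      intro a ha
      exact h1 ha)
    (by
      intro r hr hr1 τ hτ hfix
      -- the kernel
      let N : Subgroup Γ :=
        { carrier := {x | x ∈ T ∧ ∀ w ∈ W, E.σ x w = w}
          one_mem' := ⟨T.one_mem, fun w _ => by rw [map_one]; rfl⟩
          mul_mem' := by
            rintro a b ⟨ha, ha'⟩ ⟨hb, hb'⟩
            exact ⟨T.mul_mem ha hb, fun w hw => by rw [rho_mul, hb' w hw, ha' w hw]⟩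
          inv_mem' := by
            rintro a ⟨ha, ha'⟩
            refine ⟨T.inv_mem ha, fun w hw => ?_⟩
            conv_lhs => rw [← ha' w hw]
            rw [rho_inv_apply] }
      have hN : ∀ c : Γ, c ∈ Subgroup.normalizer (T : Set Γ) → (∀ w ∈ W, E.σ c w ∈ W) → (∀ w ∈ W, E.σ c⁻¹ w ∈ W) →
          c ∈ Subgroup.normalizer (N : Set Γ) := by
        have hN1 : ∀ c : Γ, c ∈ Subgroup.normalizer (T : Set Γ) → (∀ w ∈ W, E.σ c⁻¹ w ∈ W) →
            ∀ x ∈ N, c * x * c⁻¹ ∈ N := by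
          rintro c hc hcW x ⟨hx, hx'⟩
          refine ⟨(Subgroup.mem_normalizer_iff.1 hc x).1 hx, fun w hw => ?_⟩
          rw [rho_mul, rho_mul, hx' _ (hcW w hw), rho_apply_inv]
        intro c hc hcW hcW'
        rw [Subgroup.mem_normalizer_iff]
        intro x
        constructor
        · exact hN1 c hc hcW' x
        · intro hx
          have h1 := hN1 c⁻¹ (Subgroup.inv_mem _ hc) (by rw [inv_inv]; exact hcW) _ hx
          have h2 : c⁻¹ * (c * x * c⁻¹) * c⁻¹⁻¹ = x := by group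
          rwa [h2] at h1
      have hTN : T ≤ Subgroup.normalizer (N : Set Γ) := by
        intro c hc
        have h1 : ∀ c ∈ T, ∀ w ∈ W, E.σ c w ∈ W := fun c hc w hw =>
          (hW _).2 (fix_move (left_le_normalizer T P hc) ((hW w).1 hw))
        exact hN c (Subgroup.le_normalizer hc) (h1 c hc) (h1 _ (T.inv_mem hc))
      have hAN : A ≤ Subgroup.normalizer (N : Set Γ) := by
        intro c hc
        have h1 : ∀ c ∈ A, ∀ w ∈ W, E.σ c w ∈ W := fun c hc w hw =>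
          (hW _).2 (fix_move (hAX hc) ((hW w).1 hw))
        exact hN c (h.AT hc) (h1 c hc) (h1 _ (A.inv_mem hc))
      have hcomm_mem : ∀ a ∈ A, a * τ * a⁻¹ * τ⁻¹ ∈ N := by
        let D : Subgroup Γ :=
          { carrier := {a | a ∈ A ∧ a * τ * a⁻¹ * τ⁻¹ ∈ N}
            one_mem' := ⟨A.one_mem, by
              have h1 : 1 * τ * (1 : Γ)⁻¹ * τ⁻¹ = 1 := by group
              rw [h1]; exact N.one_mem⟩
            mul_mem' := by
              rintro a b ⟨ha, ha'⟩ ⟨hb, hb'⟩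
              refine ⟨A.mul_mem ha hb, ?_⟩
              have h1 : a * b * τ * (a * b)⁻¹ * τ⁻¹ = (a * (b * τ * b⁻¹ * τ⁻¹) * a⁻¹) * (a * τ * a⁻¹ * τ⁻¹) := by group
              rw [h1]
              exact N.mul_mem ((Subgroup.mem_normalizer_iff.1 (hAN ha) _).1 hb') ha'
            inv_mem' := by
              rintro a ⟨ha, ha'⟩
              refine ⟨A.inv_mem ha, ?_⟩
              have h1 : a⁻¹ * τ * a⁻¹⁻¹ * τ⁻¹ = (a⁻¹ * (a * τ * a⁻¹ * τ⁻¹) * a)⁻¹ := by group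
              rw [h1]
              exact N.inv_mem ((Subgroup.mem_normalizer_iff''.1 (hAN ha) _).1 ha') }
        have hAD : A ≤ D := by
          rw [← h.sup]
          apply sup_le
          · intro x hx
            refine ⟨h.PA hx, ?_⟩
            have h1 : x * τ * x⁻¹ * τ⁻¹ = ⁅τ, x⁆⁻¹ := by rw [commutatorElement_def]; group
            have h2 : ⁅τ, x⁆ ∈ ⁅T, P⁆ := Subgroup.commutator_mem_commutator hτ hx
            rw [h1]
            apply N.inv_mem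
            refine ⟨?_, fun w hw => (hW w).1 hw _ (Subgroup.mem_sup_right h2)⟩
            exact (Subgroup.le_normalizer_iff_commutator_le_left.1 (h.PA.trans h.AT)) h2
          · apply le_of_prime_card (by rw [h.hR]; exact h.hq) hr ?_ hr1
            refine ⟨h.RA hr, ?_⟩
            have h1 : r * τ * r⁻¹ * τ⁻¹ = (τ * r * τ⁻¹ * r⁻¹)⁻¹ := by group
            rw [h1]
            apply N.inv_mem
            refine ⟨?_, hfix⟩
            have h2 : τ * r * τ⁻¹ * r⁻¹ = τ * (r * τ⁻¹ * r⁻¹) := by group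
            rw [h2]
            exact T.mul_mem hτ ((Subgroup.mem_normalizer_iff.1 (h.AT (h.RA hr)) _).1 (T.inv_mem hτ))
        intro a ha
        exact (hAD ha).2
      obtain ⟨c, hc, hc'⟩ := Cop.fixed_points_quotient A T h.AT h.copT (Or.inr h.solT) N (fun x hx => hx.1) hTN hAN
        τ hτ hcomm_mem
      rw [h.CT, Subgroup.mem_bot] at hc
      rw [hc, mul_one] at hc'
      have h1 := N.inv_mem hc'
      rw [inv_inv] at h1
      exact h1.2)
  intro x hx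
  have h1 : E.π ⟨x, hx.1⟩ = 0 := by
    apply key
    rw [hW]
    intro y hy
    rw [E.fix_iff y ⟨x, hx.1⟩ (h.Sn.conj_mem x hx.1 y)]
    have h2 : y * x = x * y := Subgroup.mem_centralizer_iff.1 hx.2 y hy
    have h3 : x⁻¹ * (y * x * y⁻¹) = 1 := by rw [h2]; group
    change x⁻¹ * (y * x * y⁻¹) ∈ _
    rw [h3]
    exact Subgroup.one_mem _
  exact (E.ker _).1 h1

theorem starR (hZn : (S ⊓ Subgroup.centralizer (T : Set Γ)).Normal)
    (hpow : ∀ x ∈ S, x ^ s ∈ S ⊓ Subgroup.centralizer (T : Set Γ))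
    (hcomm : ∀ x ∈ S, ∀ y ∈ S, x * y * x⁻¹ * y⁻¹ ∈ S ⊓ Subgroup.centralizer (T : Set Γ)) :
    S ⊓ Subgroup.centralizer ((R ⊔ ⁅T, R⁆ : Subgroup Γ) : Set Γ) ≤ S ⊓ Subgroup.centralizer (T : Set Γ) := by
  classical
  haveI : Fact s.Prime := ⟨h.hs⟩
  obtain ⟨M, iA, iM, iF, ⟨E⟩⟩ := exists_gmod h.Sn hZn hpow hcomm
  have hAs : (Nat.card A).Coprime s := by
    rw [h.cardA]
    exact Nat.Coprime.mul_left ((Nat.coprime_primes h.hp h.hs).2 h.ps) ((Nat.coprime_primes h.hq h.hs).2 h.qs)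
  intro x hx
  have h1 : E.π ⟨x, hx.1⟩ = 0 := by
    have h0 : ∀ y ∈ (R ⊔ ⁅T, R⁆ : Subgroup Γ), E.σ y (E.π ⟨x, hx.1⟩) = E.π ⟨x, hx.1⟩ := by
      intro y hy
      rw [E.fix_iff y ⟨x, hx.1⟩ (h.Sn.conj_mem x hx.1 y)]
      have h2 : y * x = x * y := Subgroup.mem_centralizer_iff.1 hx.2 y hy
      have h3 : x⁻¹ * (y * x * y⁻¹) = 1 := by rw [h2]; group
      change x⁻¹ * (y * x * y⁻¹) ∈ _
      rw [h3]
      exact Subgroup.one_mem _
    refine final E.σ T P R h.RP (h.PA.trans h.AT) (h.RA.trans h.AT) h.T_coprime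
      (fun y hy hy1 N h2 h3 => h.gen_T hy hy1 h2 h3) ?_ ?_ (fun r hr => h0 r (Subgroup.mem_sup_left hr))
      (fun u hu => h0 u (Subgroup.mem_sup_right hu))
    · intro m hm
      rw [h.sup] at hm
      exact E.eq_zero h.hs h.hS h.Sn hZn inf_le_left hAs (by rw [h.CS]; exact bot_le) hm
    · intro m hm
      exact E.eq_zero h.hs h.hS h.Sn hZn inf_le_left h.copTs le_rfl hm
  exact (E.ker _).1 h1

end Cfg

end Cfsg.Agent.H62.PQ
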