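import Mathlib
import Cfsg.Agent.H62.PQ5

set_option autoImplicit false
set_option linter.style.haveILetI false
set_option linter.unusedSectionVars false

/-!
The special case: the form attached to a weight of the centre (helper62).
-/

namespace Cfsg.Agent.H62.PQ

open Cfsg.Agent.HH Module
open scoped commutatorElement BigOperators TensorProduct

universe u v w

variable {Γ : Type u} [Group Γ] {K : Type w} [Field K]

/-- class two data -/
structure C2 (S Z : Subgroup Γ) (μ : Γ → K) : Prop where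
  Sn : S.Normal
  ZS : Z ≤ S
  cen : ∀ z ∈ Z, ∀ g ∈ S, z * g = g * z
  comm : ∀ g ∈ S, ∀ h ∈ S, ⁅g, h⁆ ∈ Z
  mult : Mult Z μ

namespace C2

variable {S Z : Subgroup Γ} {μ : Γ → K} (c : C2 S Z μ)

include c

theorem comm_mul_left {g g' h : Γ} (hg : g ∈ S) (hg' : g' ∈ S) (hh : h ∈ S) :
    ⁅g * g', h⁆ = ⁅g, h⁆ * ⁅g', h⁆ := by
  have h1 := c.cen _ (c.comm g' hg' h hh) g hg
  have h2 : ⁅g * g', h⁆ = g * ⁅g', h⁆ * g⁻¹ * ⁅g, h⁆ := by
    simp only [commutatorElement_def]; group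
  rw [h2, ← h1, mul_assoc _ g, mul_inv_cancel, mul_one]
  exact c.cen _ (c.comm g' hg' h hh) _ (c.ZS (c.comm g hg h hh))

theorem comm_mul_right {g h h' : Γ} (hg : g ∈ S) (hh : h ∈ S) (hh' : h' ∈ S) :
    ⁅g, h * h'⁆ = ⁅g, h⁆ * ⁅g, h'⁆ := by
  have h1 : ∀ x y : Γ, ⁅x, y⁆ = ⁅y, x⁆⁻¹ := fun x y => by simp only [commutatorElement_def]; group
  rw [h1, c.comm_mul_left hh hh' hg, mul_inv_rev, ← h1, ← h1]
  exact c.cen _ (c.comm g hg h' hh') _ (c.ZS (c.comm g hg h hh))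

theorem left {g g' h : Γ} (hg : g ∈ S) (hg' : g' ∈ S) (hh : h ∈ S) :
    μ ⁅g * g', h⁆ = μ ⁅g, h⁆ * μ ⁅g', h⁆ := by
  rw [c.comm_mul_left hg hg' hh, c.mult.mul _ (c.comm g hg h hh) _ (c.comm g' hg' h hh)]

theorem right {g h h' : Γ} (hg : g ∈ S) (hh : h ∈ S) (hh' : h' ∈ S) :
    μ ⁅g, h * h'⁆ = μ ⁅g, h⁆ * μ ⁅g, h'⁆ := by
  rw [c.comm_mul_right hg hh hh', c.mult.mul _ (c.comm g hg h hh) _ (c.comm g hg h' hh')]

theorem one_left {h : Γ} : μ ⁅(1 : Γ), h⁆ = 1 := by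
  rw [commutatorElement_one_left, c.mult.one]

theorem inv_left {g h : Γ} (hg : g ∈ S) (hh : h ∈ S) : μ ⁅g⁻¹, h⁆ * μ ⁅g, h⁆ = 1 := by
  rw [← c.left (S.inv_mem hg) hg hh, inv_mul_cancel, c.one_left]

/-- the radical -/
def rad : Subgroup Γ where
  carrier := {g | g ∈ S ∧ ∀ h ∈ S, μ ⁅g, h⁆ = 1}
  one_mem' := ⟨S.one_mem, fun h _ => c.one_left⟩
  mul_mem' := by
    rintro a b ⟨ha, ha'⟩ ⟨hb, hb'⟩
    exact ⟨S.mul_mem ha hb, fun h hh => by rw [c.left ha hb hh, ha' h hh, hb' h hh, mul_one]⟩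
  inv_mem' := by
    rintro a ⟨ha, ha'⟩
    refine ⟨S.inv_mem ha, fun h hh => ?_⟩
    have h1 := c.inv_left ha hh
    rwa [ha' h hh, mul_one] at h1

theorem mem_rad {g : Γ} : g ∈ c.rad ↔ g ∈ S ∧ ∀ h ∈ S, μ ⁅g, h⁆ = 1 := Iff.rfl

theorem rad_le : c.rad ≤ S := fun _ hg => hg.1

theorem Z_le_rad : Z ≤ c.rad := by
  intro z hz
  refine ⟨c.ZS hz, fun h hh => ?_⟩
  have h1 : ⁅z, h⁆ = 1 := by
    rw [commutatorElement_eq_one_iff_mul_comm]
    exact c.cen z hz h hh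
  rw [h1, c.mult.one]

/-- the stabilizer of the weight normalizes the radical -/
theorem stab_norm : stabW Z μ ≤ Subgroup.normalizer (c.rad : Set Γ) := by
  haveI := c.Sn
  have key : ∀ y ∈ stabW Z μ, ∀ g ∈ c.rad, y * g * y⁻¹ ∈ c.rad := by
    rintro y hy g ⟨hg, hg'⟩
    refine ⟨c.Sn.conj_mem g hg y, fun h hh => ?_⟩
    have h1 : y⁻¹ * h * y ∈ S := by
      have := c.Sn.conj_mem h hh y⁻¹
      rwa [inv_inv] at this
    have h2 : ⁅y * g * y⁻¹, h⁆ = y * ⁅g, y⁻¹ * h * y⁆ * y⁻¹ := by simp only [commutatorElement_def]; group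
    have h3 := hy.2 (y * ⁅g, y⁻¹ * h * y⁆ * y⁻¹)
      ((Subgroup.mem_normalizer_iff.1 hy.1 _).1 (c.comm g hg _ h1))
    have h4 : y⁻¹ * (y * ⁅g, y⁻¹ * h * y⁆ * y⁻¹) * y = ⁅g, y⁻¹ * h * y⁆ := by group
    rw [h2, ← h3, h4, hg' _ h1]
  intro y hy
  rw [Subgroup.mem_normalizer_iff]
  intro g
  constructor
  · exact key y hy g
  · intro hg
    have h1 := key y⁻¹ ((stabW Z μ).inv_mem hy) _ hg
    have h2 : y⁻¹ * (y * g * y⁻¹) * y⁻¹⁻¹ = g := by group
    rwa [h2] at h1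

theorem S_le_stab : S ≤ stabW Z μ := by
  intro g hg
  have h1 : ∀ z ∈ Z, g⁻¹ * z * g = z := fun z hz => by rw [mul_assoc, c.cen z hz g hg, inv_mul_cancel_left]
  refine ⟨?_, fun z hz => by rw [h1 z hz]⟩
  rw [Subgroup.mem_normalizer_iff]
  intro z
  constructor
  · intro hz
    rw [← c.cen z hz g hg, mul_inv_cancel_right]
    exact hz
  · intro hz
    have h2 := h1 _ hz
    have h3 : g⁻¹ * (g * z * g⁻¹) * g = z := by group
    rw [h3] at h2
    rw [h2]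
    exact hz

/-- invariance of the form under the stabilizer -/
theorem inv_form {y g h : Γ} (hy : y ∈ stabW Z μ) (hg : g ∈ S) (hh : h ∈ S) :
    μ ⁅y * g * y⁻¹, y * h * y⁻¹⁆ = μ ⁅g, h⁆ := by
  have h1 : ⁅y * g * y⁻¹, y * h * y⁻¹⁆ = y * ⁅g, h⁆ * y⁻¹ := by simp only [commutatorElement_def]; group
  have h2 := hy.2 (y * ⁅g, h⁆ * y⁻¹) ((Subgroup.mem_normalizer_iff.1 hy.1 _).1 (c.comm g hg _ hh))
  have h3 : y⁻¹ * (y * ⁅g, h⁆ * y⁻¹) * y = ⁅g, h⁆ := by group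
  rw [h1, ← h2, h3]

/-- `[S,B]` is orthogonal to `C_S(B)` -/
theorem orth {B : Subgroup Γ} (hB : B ≤ stabW Z μ) {g e : Γ} (hg : g ∈ ⁅S, B⁆) (he : e ∈ S)
    (heB : e ∈ Subgroup.centralizer (B : Set Γ)) : μ ⁅g, e⁆ = 1 := by
  let D : Subgroup Γ :=
    { carrier := {g | g ∈ S ∧ μ ⁅g, e⁆ = 1}
      one_mem' := ⟨S.one_mem, c.one_left⟩
      mul_mem' := by
        rintro a b ⟨ha, ha'⟩ ⟨hb, hb'⟩
        exact ⟨S.mul_mem ha hb, by rw [c.left ha hb he, ha', hb', mul_one]⟩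
      inv_mem' := by
        rintro a ⟨ha, ha'⟩
        refine ⟨S.inv_mem ha, ?_⟩
        have h1 := c.inv_left ha he
        rwa [ha', mul_one] at h1 }
  have h1 : ⁅S, B⁆ ≤ D := by
    rw [Subgroup.commutator_le]
    intro x hx β hβ
    have h2 : ⁅x, β⁆ = x * (β * x⁻¹ * β⁻¹) := by rw [commutatorElement_def]; group
    have h3 : β * x⁻¹ * β⁻¹ ∈ S := c.Sn.conj_mem _ (S.inv_mem hx) β
    rw [h2]
    refine ⟨S.mul_mem hx h3, ?_⟩
    have h4 : β * e * β⁻¹ = e := by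
      rw [Subgroup.mem_centralizer_iff.1 heB β hβ, mul_inv_cancel_right]
    have h5 : μ ⁅β * x⁻¹ * β⁻¹, e⁆ = μ ⁅x⁻¹, e⁆ := by
      have := c.inv_form (hB hβ) (S.inv_mem hx) he
      rwa [h4] at this
    rw [c.left hx h3 he, h5, mul_comm]
    exact c.inv_left hx he
  exact (h1 hg).2

end C2

/-- a form over the field with two elements from a pairing with values `1` and `-1` -/
theorem exists_form {M : Type*} [AddCommGroup M] [Module (ZMod 2) M] (h2 : (2 : K) ≠ 0) (β : M → M → K)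
    (h1 : ∀ m m' n, β (m + m') n = β m n * β m' n) (h1' : ∀ m n n', β m (n + n') = β m n * β m n')
    (hsq : ∀ m n, β m n = 1 ∨ β m n = -1) :
    ∃ ω : LinearMap.BilinForm (ZMod 2) M, (∀ m n, ω m n = 0 ↔ β m n = 1) ∧
      (∀ m n m' n', β m n = β m' n' → ω m n = ω m' n') := by
  classical
  have hne : (-1 : K) ≠ 1 := by
    intro h
    apply h2
    have : (2 : K) = 1 - -1 := by ring
    rw [this, h, sub_self]
  let f : M → M → ZMod 2 := fun m n => if β m n = 1 then 0 else 1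
  have hadd : ∀ a b : K, (a = 1 ∨ a = -1) → (b = 1 ∨ b = -1) →
      (if a * b = 1 then (0 : ZMod 2) else 1) = (if a = 1 then 0 else 1) + (if b = 1 then 0 else 1) := by
    rintro a b (rfl | rfl) (rfl | rfl)
    · simp
    · simp [hne]
    · simp [hne]
    · simp only [mul_neg, mul_one, neg_neg, if_true, if_neg hne]
      decide
  have h0 : ∀ n, β 0 n = 1 := by
    intro n
    have h3 := h1 0 0 n
    rw [add_zero] at h3
    rcases hsq 0 n with h4 | h4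
    · exact h4
    · rw [h4] at h3
      exfalso
      apply hne
      rw [h3]; ring
  have h0' : ∀ n, β n 0 = 1 := by
    intro n
    have h3 := h1' n 0 0
    rw [add_zero] at h3
    rcases hsq n 0 with h4 | h4
    · exact h4
    · rw [h4] at h3
      exfalso
      apply hne
      rw [h3]; ring
  have hzm : ∀ c : ZMod 2, c = 0 ∨ c = 1 := by decide
  refine ⟨LinearMap.mk₂ (ZMod 2) f ?_ ?_ ?_ ?_, ?_, ?_⟩
  · intro m m' n
    change (if β (m + m') n = 1 then (0 : ZMod 2) else 1) = _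
    rw [h1, hadd _ _ (hsq m n) (hsq m' n)]
  · intro c m n
    rcases hzm c with rfl | rfl
    · change (if β ((0 : ZMod 2) • m) n = 1 then (0 : ZMod 2) else 1) = _
      rw [zero_smul, h0, if_pos rfl, zero_smul]
    · rw [one_smul, one_smul]
  · intro m n n'
    change (if β m (n + n') = 1 then (0 : ZMod 2) else 1) = _
    rw [h1', hadd _ _ (hsq m n) (hsq m n')]
  · intro c m n
    rcases hzm c with rfl | rfl
    · change (if β m ((0 : ZMod 2) • n) = 1 then (0 : ZMod 2) else 1) = _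
      rw [zero_smul, h0', if_pos rfl, zero_smul]
    · rw [one_smul, one_smul]
  · intro m n
    change (if β m n = 1 then (0 : ZMod 2) else 1) = 0 ↔ _
    split_ifs with h <;> simp [h]
  · intro m n m' n' h
    change (if β m n = 1 then (0 : ZMod 2) else 1) = if β m' n' = 1 then (0 : ZMod 2) else 1
    rw [h]

end Cfsg.Agent.H62.PQ
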