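import Mathlib
import Cfsg.Agent.H62.PQ6

set_option autoImplicit false
set_option linter.style.haveILetI false
set_option linter.unusedSectionVars false

/-!
The special case (helper62).
-/

namespace Cfsg.Agent.H62.PQ

open Cfsg.Agent.HH Module
open scoped commutatorElement BigOperators TensorProduct

universe u v w

theorem dual_trivial' {M : Type v} [AddCommGroup M] [Module (ZMod 2) M] [Finite M] {L : Type u} [Group L] [Finite L]
    (σ : Representation (ZMod 2) L M) {T : Subgroup L} {t r e : ℕ} [ht : Fact t.Prime] [hr : Fact r.Prime]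
    (hT : IsPGroup t T) (ht2 : t ≠ 2) (htr : t ≠ r) (hre : r = 2 ^ e + 1) (he : 1 ≤ e) {b : L} (hb : orderOf b = r)
    (hbT : b ∈ Subgroup.normalizer (T : Set L)) (ω : LinearMap.BilinForm (ZMod 2) M)
    (hω : ∀ g x y, ω (σ g x) (σ g y) = ω x y) (hs : ∀ x y, ω x y = ω y x) (hnd : ∀ x, (∀ y, ω x y = 0) → x = 0)
    (hrk : finrank (ZMod 2) (LinearMap.range (σ b - 1)) ≤ 2 * e)
    (hfix : ∀ m, σ b m = m → (∀ u ∈ ⁅T, Subgroup.zpowers b⁆, σ u m = m) → m = 0) : ∀ τ ∈ T, σ τ = 1 := by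
  classical
  set N : Subgroup L := MonoidHom.ker (σ : L →* Module.End (ZMod 2) M) with hN
  have hNmem : ∀ g, g ∈ N ↔ σ g = 1 := fun g => MonoidHom.mem_ker
  by_cases hbN : b ∈ N
  · have h1 : ∀ m : M, m = 0 := by
      intro m
      apply hfix m
      · rw [(hNmem b).1 hbN]; rfl
      · intro u hu
        have h2 : ⁅T, Subgroup.zpowers b⁆ ≤ N := by
          calc ⁅T, Subgroup.zpowers b⁆ ≤ ⁅(⊤ : Subgroup L), N⁆ :=
                Subgroup.commutator_mono le_top (Subgroup.zpowers_le.2 hbN)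
            _ ≤ N := Subgroup.commutator_le_right _ _
        rw [(hNmem u).1 (h2 hu)]; rfl
    intro τ _
    apply LinearMap.ext
    intro m
    rw [h1 (σ τ m), h1 ((1 : Module.End (ZMod 2) M) m)]
  · let π : L →* L ⧸ N := QuotientGroup.mk' N
    have hπs : Function.Surjective π := QuotientGroup.mk'_surjective N
    let σ' : Representation (ZMod 2) (L ⧸ N) M := QuotientGroup.lift N (σ : L →* Module.End (ZMod 2) M) le_rfl
    have hσ' : ∀ g, σ' (π g) = σ g := fun g => rfl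
    have hinj : Function.Injective σ' := by
      rw [injective_iff_map_eq_one]
      intro x
      obtain ⟨g, rfl⟩ := hπs x
      intro hg
      rw [hσ'] at hg
      exact (QuotientGroup.eq_one_iff g).2 ((hNmem g).2 hg)
    have hb1 : π b ≠ 1 := fun h => hbN ((QuotientGroup.eq_one_iff b).1 h)
    have hbo : orderOf (π b) = r := by
      apply orderOf_eq_prime _ hb1
      rw [← map_pow, ← hb, pow_orderOf_eq_one, map_one]
    have h1 := dual_trivial hinj (T := T.map π) (hT.map π) ht2 htr hre he hbo (by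
      rw [Subgroup.mem_normalizer_iff]
      intro x
      obtain ⟨g, rfl⟩ := hπs x
      have hsub : ∀ c : L, c ∈ Subgroup.normalizer (T : Set L) → ∀ y ∈ T.map π, π c * y * (π c)⁻¹ ∈ T.map π := by
        rintro c hc _ ⟨z, hz, rfl⟩
        exact ⟨c * z * c⁻¹, (Subgroup.mem_normalizer_iff.1 hc z).1 hz, by simp⟩
      constructor
      · exact hsub b hbT _
      · intro h
        have h2 := hsub b⁻¹ (Subgroup.inv_mem _ hbT) _ h
        have h3 : π b⁻¹ * (π b * π g * (π b)⁻¹) * (π b⁻¹)⁻¹ = π g := by rw [map_inv]; group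
        rwa [h3] at h2) ω (by
      intro x
      obtain ⟨g, rfl⟩ := hπs x
      exact hω g) hs hnd hrk (by
      intro m hm hm'
      apply hfix m hm
      intro u hu
      rw [← hσ']
      apply hm'
      rw [← MonoidHom.map_zpowers, ← Subgroup.map_commutator]
      exact Subgroup.mem_map_of_mem _ hu)
    intro τ hτ
    have h2 : π τ ∈ T.map π := Subgroup.mem_map_of_mem _ hτ
    rw [h1, Subgroup.mem_bot] at h2
    exact (hNmem τ).1 ((QuotientGroup.eq_one_iff τ).1 h2)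

variable {Γ : Type u} [Group Γ] {K : Type w} [Field K] {V : Type v} [AddCommGroup V] [Module K V]

theorem exists_nofix_on [FiniteDimensional K V] (ρ : Representation K Γ V) (Q : Subgroup Γ) [Finite Q]
    (hQK : (Nat.card Q : K) ≠ 0) (y : Γ) (hyQ : ∀ g ∈ Q, y * g * y⁻¹ ∈ Q) (hyQ' : ∀ g ∈ Q, y⁻¹ * g * y ∈ Q)
    {W₀ : Submodule K V} (hW₀ : ∀ g ∈ Q, ∀ w ∈ W₀, ρ g w ∈ W₀) (hW₀y : ∀ w ∈ W₀, ρ y w ∈ W₀)
    (hnt : ∃ g ∈ Q, ∃ w ∈ W₀, ρ g w ≠ w) :
    ∃ W ≤ W₀, W ≠ ⊥ ∧ (∀ g ∈ Q, ∀ w ∈ W, ρ g w ∈ W) ∧ (∀ w ∈ W, ρ y w ∈ W) ∧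
      ∀ w ∈ W, (∀ g ∈ Q, ρ g w = w) → w = 0 := by
  classical
  haveI := Fintype.ofFinite Q
  set e : Module.End K V := ∑ g : Q, ρ (g : Γ) with he
  have heQ : ∀ k ∈ Q, e * ρ k = e := by
    intro k hk
    rw [he, Finset.sum_mul]
    conv_rhs => rw [← Equiv.sum_comp (Equiv.mulRight (⟨k, hk⟩ : Q))]
    apply Finset.sum_congr rfl
    intro g _
    rw [← map_mul]; rfl
  have hey : e * ρ y = ρ y * e := by
    let f : Q ≃ Q :=
      { toFun := fun g => ⟨y * g * y⁻¹, hyQ g g.2⟩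
        invFun := fun g => ⟨y⁻¹ * g * y, hyQ' g g.2⟩
        left_inv := fun g => Subtype.ext (by change y⁻¹ * (y * (g : Γ) * y⁻¹) * y = g; group)
        right_inv := fun g => Subtype.ext (by change y * (y⁻¹ * (g : Γ) * y) * y⁻¹ = g; group) }
    rw [he, Finset.sum_mul, Finset.mul_sum, ← Equiv.sum_comp f]
    apply Finset.sum_congr rfl
    intro g _
    rw [← map_mul, ← map_mul]
    congr 1
    change (y * g * y⁻¹) * y = y * (g : Γ)
    group
  refine ⟨W₀ ⊓ LinearMap.ker e, inf_le_left, ?_, ?_, ?_, ?_⟩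
  · intro h0
    obtain ⟨g, hg, w, hw, hne⟩ := hnt
    apply hne
    have h1 : ρ g w - w ∈ W₀ ⊓ LinearMap.ker e := by
      refine ⟨W₀.sub_mem (hW₀ g hg w hw) hw, ?_⟩
      change e (ρ g w - w) = 0
      rw [map_sub, ← Module.End.mul_apply, heQ g hg, sub_self]
    rw [h0, Submodule.mem_bot, sub_eq_zero] at h1
    exact h1
  · rintro g hg w ⟨hw, hw'⟩
    refine ⟨hW₀ g hg w hw, ?_⟩
    change e w = 0 at hw'
    change e (ρ g w) = 0
    rw [← Module.End.mul_apply, heQ g hg, hw']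
  · rintro w ⟨hw, hw'⟩
    refine ⟨hW₀y w hw, ?_⟩
    change e w = 0 at hw'
    change e (ρ y w) = 0
    rw [← Module.End.mul_apply, hey, Module.End.mul_apply, hw', map_zero]
  · rintro w ⟨hw, hw'⟩ hfix
    change e w = 0 at hw'
    rw [he, LinearMap.sum_apply,
      Finset.sum_congr rfl (fun (g : Q) _ => hfix g g.2), Finset.sum_const, Finset.card_univ,
      ← Nat.cast_smul_eq_nsmul K, ← Nat.card_eq_fintype_card] at hw'
    rcases smul_eq_zero.1 hw' with h1 | h1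
    · exact absurd h1 hQK
    · exact h1

/-- in class two, fixed points of `B` in `[S,B]` are central -/
theorem comm_cent [Finite Γ] {s r : ℕ} (hs : s.Prime) {S Z B : Subgroup Γ} (hSn : S.Normal) (hZn : Z.Normal)
    (hpow : ∀ x ∈ S, x ^ s ∈ Z) (hcomm : ∀ x ∈ S, ∀ y ∈ S, x * y * x⁻¹ * y⁻¹ ∈ Z) (hB : Nat.card B = r)
    (hrs : Nat.Coprime r s) {g : Γ} (hg : g ∈ ⁅S, B⁆) (hgB : ∀ β ∈ B, β * g = g * β) : g ∈ Z := by
  classical
  haveI : Fact s.Prime := ⟨hs⟩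
  haveI := Fintype.ofFinite B
  obtain ⟨M, iA, iM, iF, ⟨E⟩⟩ := exists_gmod hSn hZn hpow hcomm
  have hBS : B ≤ Subgroup.normalizer (S : Set Γ) := by
    haveI := hSn
    rw [Subgroup.normalizer_eq_top]; exact le_top
  have hgS : g ∈ S := Subgroup.le_normalizer_iff_commutator_le_left.1 hBS hg
  let D : Subgroup Γ :=
    { carrier := {x | ∃ hx : x ∈ S, ∑ β : B, E.σ (β : Γ) (E.π ⟨x, hx⟩) = 0}
      one_mem' := by
        refine ⟨S.one_mem, ?_⟩
        have h1 : E.π ⟨1, S.one_mem⟩ = 0 := (E.ker _).2 Z.one_mem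
        rw [h1]
        simp
      mul_mem' := by
        rintro a b ⟨ha, ha'⟩ ⟨hb, hb'⟩
        refine ⟨S.mul_mem ha hb, ?_⟩
        have h1 : E.π ⟨a * b, S.mul_mem ha hb⟩ = E.π ⟨a, ha⟩ + E.π ⟨b, hb⟩ := E.mul ⟨a, ha⟩ ⟨b, hb⟩
        rw [h1]
        simp only [map_add, Finset.sum_add_distrib]
        rw [ha', hb', add_zero]
      inv_mem' := by
        rintro a ⟨ha, ha'⟩
        refine ⟨S.inv_mem ha, ?_⟩
        have h1 : E.π ⟨a⁻¹, S.inv_mem ha⟩ = - E.π ⟨a, ha⟩ := by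
          rw [eq_neg_iff_add_eq_zero, ← E.mul, E.ker]
          change a⁻¹ * a ∈ Z
          rw [inv_mul_cancel]; exact Z.one_mem
        rw [h1]
        simp only [map_neg, Finset.sum_neg_distrib]
        rw [ha', neg_zero] }
  have h1 : ⁅S, B⁆ ≤ D := by
    rw [Subgroup.commutator_le]
    intro x hx β hβ
    have h3 : β * x⁻¹ * β⁻¹ ∈ S := hSn.conj_mem _ (S.inv_mem hx) β
    have h2 : ⁅x, β⁆ = x * (β * x⁻¹ * β⁻¹) := by rw [commutatorElement_def]; group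
    rw [h2]
    refine ⟨S.mul_mem hx h3, ?_⟩
    have h4 : E.π ⟨x * (β * x⁻¹ * β⁻¹), S.mul_mem hx h3⟩ = E.π ⟨x, hx⟩ + E.π ⟨β * x⁻¹ * β⁻¹, h3⟩ :=
      E.mul ⟨x, hx⟩ ⟨_, h3⟩
    have h5 : E.π ⟨β * x⁻¹ * β⁻¹, h3⟩ = E.σ β (E.π ⟨x⁻¹, S.inv_mem hx⟩) := E.equiv β ⟨x⁻¹, S.inv_mem hx⟩ ⟨_, h3⟩ rfl
    have h6 : E.π ⟨x⁻¹, S.inv_mem hx⟩ = - E.π ⟨x, hx⟩ := by
      rw [eq_neg_iff_add_eq_zero, ← E.mul, E.ker]
      change x⁻¹ * x ∈ Z
      rw [inv_mul_cancel]; exact Z.one_mem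
    rw [h4, h5, h6, map_neg]
    simp only [map_add, map_neg, Finset.sum_add_distrib, Finset.sum_neg_distrib]
    rw [add_neg_eq_zero]
    conv_lhs => rw [← Equiv.sum_comp (Equiv.mulRight (⟨β, hβ⟩ : B))]
    apply Finset.sum_congr rfl
    intro γ _
    rw [← rho_mul]
    rfl
  obtain ⟨h2, h3⟩ := h1 hg
  have h4 : ∀ β : B, E.σ (β : Γ) (E.π ⟨g, h2⟩) = E.π ⟨g, h2⟩ := by
    intro β
    symm
    apply E.equiv
    change g = (β : Γ) * g * (β : Γ)⁻¹
    rw [hgB β β.2, mul_inv_cancel_right]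
  rw [Finset.sum_congr rfl (fun β _ => h4 β), Finset.sum_const, Finset.card_univ, ← Nat.card_eq_fintype_card,
    hB, ← Nat.cast_smul_eq_nsmul (ZMod s)] at h3
  rcases smul_eq_zero.1 h3 with h5 | h5
  · exfalso
    rw [ZMod.natCast_eq_zero_iff] at h5
    exact hs.one_lt.ne' (Nat.eq_one_of_dvd_coprimes hrs h5 (dvd_refl s))
  · exact (E.ker _).1 h5

end Cfsg.Agent.H62.PQ
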