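import Mathlib
import Cfsg.Agent.H62.PQ7

set_option autoImplicit false
set_option linter.style.haveILetI false
set_option linter.unusedSectionVars false

/-!
The special case, conclusion (helper62).
-/

namespace Cfsg.Agent.H62.PQ

open Cfsg.Agent.HH Module
open scoped commutatorElement BigOperators TensorProduct

universe u v w

variable {Γ : Type u} [Group Γ] [Finite Γ] {K : Type w} [Field K]

/-- the hypotheses of the special case -/
structure Sp (s t r : ℕ) (S T B Z : Subgroup Γ) (b : Γ) (μ : Γ → K) : Prop where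
  c2 : C2 S Z μ
  Zn : Z.Normal
  hs : s.Prime
  ht : t.Prime
  hr : r.Prime
  st : s ≠ t
  rs : r ≠ s
  tr : t ≠ r
  hS : IsPGroup s S
  hT : IsPGroup t T
  pow : ∀ x ∈ S, x ^ s ∈ Z
  TZ : T ≤ stabW Z μ
  BT : B ≤ Subgroup.normalizer (T : Set Γ)
  Bc : Nat.card B = r
  bB : b ∈ B
  bo : orderOf b = r
  Bz : Subgroup.zpowers b = B
  Bμ : B ≤ stabW Z μ
  star : S ⊓ Subgroup.centralizer ((B ⊔ ⁅T, B⁆ : Subgroup Γ) : Set Γ) ≤ Z
  ST : ⁅S, T⁆ = S
  nrad : ¬ ∀ g ∈ S, ∀ h ∈ S, μ ⁅g, h⁆ = 1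

namespace Sp

variable {s t r : ℕ} {S T B Z : Subgroup Γ} {b : Γ} {μ : Γ → K} (d : Sp s t r S T B Z b μ)

include d

theorem YS : stabW Z μ ≤ Subgroup.normalizer (S : Set Γ) := by
  haveI := d.c2.Sn
  rw [Subgroup.normalizer_eq_top]; exact le_top

/-- fixed points modulo the radical -/
theorem mem_rad_of_fixed {x : Γ} (hx : x ∈ S)
    (hfix : ∀ y ∈ (B ⊔ ⁅T, B⁆ : Subgroup Γ), y * x * y⁻¹ * x⁻¹ ∈ d.c2.rad) : x ∈ d.c2.rad := by
  haveI : Fact s.Prime := ⟨d.hs⟩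
  haveI : Fact t.Prime := ⟨d.ht⟩
  haveI := d.c2.Sn
  have hX : (B ⊔ ⁅T, B⁆ : Subgroup Γ) ≤ stabW Z μ :=
    sup_le d.Bμ (by
      rw [Subgroup.commutator_le]
      intro y hy z hz
      rw [commutatorElement_def]
      exact Subgroup.mul_mem _ (Subgroup.mul_mem _ (Subgroup.mul_mem _ (d.TZ hy) (d.Bμ hz))
        (Subgroup.inv_mem _ (d.TZ hy))) (Subgroup.inv_mem _ (d.Bμ hz)))
  have hXle : (B ⊔ ⁅T, B⁆ : Subgroup Γ) ≤ T ⊔ B :=
    sup_le le_sup_right ((Subgroup.le_normalizer_iff_commutator_le_left.1 d.BT).trans le_sup_left)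
  have hcop : (Nat.card (B ⊔ ⁅T, B⁆ : Subgroup Γ)).Coprime (Nat.card S) := by
    apply Cop.coprime_card_of_isPGroup d.hS
    apply Nat.Coprime.coprime_dvd_left (Subgroup.card_dvd_of_le hXle)
    have hTc : (Nat.card T).Coprime s := by
      obtain ⟨k, hk⟩ := IsPGroup.iff_card.1 d.hT
      rw [hk]
      exact ((Nat.coprime_primes d.ht d.hs).2 (Ne.symm d.st)).pow_left k
    have hTB : (Nat.card T).Coprime (Nat.card B) := by
      obtain ⟨k, hk⟩ := IsPGroup.iff_card.1 d.hT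
      rw [hk, d.Bc]
      exact ((Nat.coprime_primes d.ht d.hr).2 d.tr).pow_left k
    rw [card_sup_coprime d.BT hTB, d.Bc]
    exact Nat.Coprime.mul_left hTc ((Nat.coprime_primes d.hr d.hs).2 d.rs)
  have hsol : Group.IsSolvable S := by
    haveI := d.hS.isNilpotent
    exact inferInstance
  obtain ⟨c, hc, hac⟩ := Cop.fixed_points_quotient (B ⊔ ⁅T, B⁆) S (hX.trans d.YS) hcop (Or.inr hsol) d.c2.rad
    d.c2.rad_le (d.c2.S_le_stab.trans d.c2.stab_norm) (hX.trans d.c2.stab_norm) x hx hfix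
  have h1 := d.c2.Z_le_rad (d.star hc)
  have h2 := d.c2.rad.mul_mem h1 (d.c2.rad.inv_mem hac)
  have h3 : c * (x⁻¹ * c)⁻¹ = x := by group
  rwa [h3] at h2

theorem not_le_rad : ¬ S ≤ d.c2.rad := fun h => d.nrad (fun _ hg h' hh' => (h hg).2 h' hh')

theorem B_norm_S : B ≤ Subgroup.normalizer (S : Set Γ) := d.Bμ.trans d.YS

/-- case `α` -/
theorem caseA (hQ : ∀ g ∈ ⁅S, B⁆, ∀ h ∈ S, μ ⁅g, h⁆ = 1) : False := by
  have hQS : ⁅S, B⁆ ≤ S := Subgroup.le_normalizer_iff_commutator_le_left.1 d.B_norm_S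
  have hQr : ⁅S, B⁆ ≤ d.c2.rad := fun g hg => ⟨hQS hg, hQ g hg⟩
  have hSn := d.c2.Sn
  -- the elements acting trivially on `S / Rad`
  have hstab : ∀ x ∈ stabW Z μ, ∀ y ∈ d.c2.rad, x * y * x⁻¹ ∈ d.c2.rad := fun x hx y hy =>
    (Subgroup.mem_normalizer_iff.1 (d.c2.stab_norm hx) y).1 hy
  have hstab' : ∀ x ∈ stabW Z μ, ∀ y ∈ d.c2.rad, x⁻¹ * y * x ∈ d.c2.rad := fun x hx y hy =>
    (Subgroup.mem_normalizer_iff''.1 (d.c2.stab_norm hx) y).1 hy
  let D : Subgroup Γ :=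
    { carrier := {y | y ∈ stabW Z μ ∧ ∀ x ∈ S, y * x * y⁻¹ * x⁻¹ ∈ d.c2.rad}
      one_mem' := ⟨Subgroup.one_mem _, fun x _ => by
        have h1 : 1 * x * (1 : Γ)⁻¹ * x⁻¹ = 1 := by group
        rw [h1]; exact d.c2.rad.one_mem⟩
      mul_mem' := by
        rintro y z ⟨hy, hy'⟩ ⟨hz, hz'⟩
        refine ⟨Subgroup.mul_mem _ hy hz, fun x hx => ?_⟩
        have h1 : y * z * x * (y * z)⁻¹ * x⁻¹ = (y * (z * x * z⁻¹ * x⁻¹) * y⁻¹) * (y * x * y⁻¹ * x⁻¹) := by group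
        rw [h1]
        exact d.c2.rad.mul_mem (hstab y hy _ (hz' x hx)) (hy' x hx)
      inv_mem' := by
        rintro y ⟨hy, hy'⟩
        refine ⟨Subgroup.inv_mem _ hy, fun x hx => ?_⟩
        have h1 : y⁻¹ * x * y⁻¹⁻¹ * x⁻¹ = (y⁻¹ * (y * x * y⁻¹ * x⁻¹) * y)⁻¹ := by group
        rw [h1]
        exact d.c2.rad.inv_mem (hstab' y hy _ (hy' x hx)) }
  have hBD : B ≤ D := by
    intro β hβ
    refine ⟨d.Bμ hβ, fun x hx => ?_⟩
    have h1 : β * x * β⁻¹ * x⁻¹ = ⁅x, β⁆⁻¹ := by rw [commutatorElement_def]; group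
    rw [h1]
    exact d.c2.rad.inv_mem (hQr (Subgroup.commutator_mem_commutator hx hβ))
  have hTD : ∀ τ ∈ T, ∀ y ∈ D, τ * y * τ⁻¹ ∈ D := by
    rintro τ hτ y ⟨hy, hy'⟩
    have hτs := d.TZ hτ
    refine ⟨Subgroup.mul_mem _ (Subgroup.mul_mem _ hτs hy) (Subgroup.inv_mem _ hτs), fun x hx => ?_⟩
    have h2 : τ⁻¹ * x * τ ∈ S := by
      have := hSn.conj_mem x hx τ⁻¹
      rwa [inv_inv] at this
    have h1 : τ * y * τ⁻¹ * x * (τ * y * τ⁻¹)⁻¹ * x⁻¹ = τ * (y * (τ⁻¹ * x * τ) * y⁻¹ * (τ⁻¹ * x * τ)⁻¹) * τ⁻¹ := by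
      group
    rw [h1]
    exact hstab τ hτs _ (hy' _ h2)
  have hXD : (B ⊔ ⁅T, B⁆ : Subgroup Γ) ≤ D := by
    apply sup_le hBD
    rw [Subgroup.commutator_le]
    intro τ hτ β hβ
    rw [commutatorElement_def]
    exact D.mul_mem (hTD τ hτ β (hBD hβ)) (D.inv_mem (hBD hβ))
  apply d.not_le_rad
  intro x hx
  exact d.mem_rad_of_fixed hx (fun y hy => (hXD hy).2 x hx)

/-- the exceptional case -/
theorem caseB {e : ℕ} (he : 1 ≤ e) (hs2 : s = 2) (hre : r = 2 ^ e + 1) (hK2 : (2 : K) ≠ 0)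
    (hrel : d.c2.rad.relIndex ⁅S, B⁆ ≤ 2 ^ (2 * e)) : False := by
  classical
  subst hs2
  haveI : Fact (Nat.Prime 2) := ⟨Nat.prime_two⟩
  haveI : Fact t.Prime := ⟨d.ht⟩
  haveI : Fact r.Prime := ⟨d.hr⟩
  have hSn := d.c2.Sn
  have hZr := d.c2.Z_le_rad
  obtain ⟨M, iA, iM, ⟨E⟩⟩ := BG3.exists_secMod (ℓ := 2) (M := S) (M1 := d.c2.rad) (Y := stabW Z μ)
    (d.c2.S_le_stab.trans d.c2.stab_norm) d.YS d.c2.stab_norm (fun x hx => hZr (d.pow x hx))
    (fun x hx y hy => hZr (d.c2.comm x hx y hy))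
  haveI : Finite M := E.finite
  haveI : Module.Finite (ZMod 2) M := Module.Finite.of_finite
  -- representatives
  have hrep := E.exists_rep
  choose ψ hψ using hrep
  have hval : ∀ (x x' y y' : S), (E.π x).toAdd = (E.π x').toAdd → (E.π y).toAdd = (E.π y').toAdd →
      μ ⁅(x : Γ), (y : Γ)⁆ = μ ⁅(x' : Γ), (y' : Γ)⁆ := by
    have h1 : ∀ (x x' y : S), (E.π x).toAdd = (E.π x').toAdd → μ ⁅(x : Γ), (y : Γ)⁆ = μ ⁅(x' : Γ), (y : Γ)⁆ := by
      intro x x' y hxx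
      have h2 := (E.eq_iff x x').1 hxx
      have h3 : (x : Γ) = ((x : Γ) * (x' : Γ)⁻¹) * x' := by group
      rw [h3, d.c2.left (S.mul_mem x.2 (S.inv_mem x'.2)) x'.2 y.2, h2.2 y y.2, one_mul]
    have h1' : ∀ (x y y' : S), (E.π y).toAdd = (E.π y').toAdd → μ ⁅(x : Γ), (y : Γ)⁆ = μ ⁅(x : Γ), (y' : Γ)⁆ := by
      intro x y y' hyy
      have h2 := (E.eq_iff y y').1 hyy
      have h3 : (y : Γ) = ((y : Γ) * (y' : Γ)⁻¹) * y' := by group
      have h4 : ⁅(x : Γ), (y : Γ) * (y' : Γ)⁻¹⁆ = ⁅(y : Γ) * (y' : Γ)⁻¹, (x : Γ)⁆⁻¹ := by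
        simp only [commutatorElement_def]; group
      have h5 : ⁅(y : Γ) * (y' : Γ)⁻¹, (x : Γ)⁆ ∈ Z := d.c2.comm _ (S.mul_mem y.2 (S.inv_mem y'.2)) _ x.2
      rw [h3, d.c2.right x.2 (S.mul_mem y.2 (S.inv_mem y'.2)) y'.2, h4, d.c2.mult.inv h5, h2.2 x x.2, inv_one,
        one_mul]
    intro x x' y y' hx hy
    rw [h1 x x' y hx, h1' x' y y' hy]
  let β : M → M → K := fun m n => μ ⁅(ψ m : Γ), (ψ n : Γ)⁆
  have hβ : ∀ x y : S, β (E.π x).toAdd (E.π y).toAdd = μ ⁅(x : Γ), (y : Γ)⁆ := fun x y =>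
    hval _ _ _ _ (hψ _) (hψ _)
  have hsq : ∀ m n, β m n = 1 ∨ β m n = -1 := by
    intro m n
    have h1 : β m n * β m n = 1 := by
      change μ ⁅(ψ m : Γ), (ψ n : Γ)⁆ * μ ⁅(ψ m : Γ), (ψ n : Γ)⁆ = 1
      rw [← d.c2.left (ψ m).2 (ψ m).2 (ψ n).2]
      have h2 : (ψ m : Γ) * (ψ m : Γ) ∈ d.c2.rad := by
        rw [← sq]
        exact hZr (d.pow _ (ψ m).2)
      exact h2.2 _ (ψ n).2
    exact mul_self_eq_one_iff.1 h1
  obtain ⟨ω, hω0, hωc⟩ := exists_form hK2 β (by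
    intro m m' n
    change μ ⁅(ψ (m + m') : Γ), (ψ n : Γ)⁆ = μ ⁅(ψ m : Γ), (ψ n : Γ)⁆ * μ ⁅(ψ m' : Γ), (ψ n : Γ)⁆
    rw [← d.c2.left (ψ m).2 (ψ m').2 (ψ n).2]
    exact hval _ (ψ m * ψ m') _ _ (by rw [hψ, map_mul, toAdd_mul, hψ, hψ]) rfl) (by
    intro m n n'
    change μ ⁅(ψ m : Γ), (ψ (n + n') : Γ)⁆ = μ ⁅(ψ m : Γ), (ψ n : Γ)⁆ * μ ⁅(ψ m : Γ), (ψ n' : Γ)⁆
    rw [← d.c2.right (ψ m).2 (ψ n).2 (ψ n').2]
    exact hval _ _ _ (ψ n * ψ n') rfl (by rw [hψ, map_mul, toAdd_mul, hψ, hψ])) hsq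
  have hbY : b ∈ stabW Z μ := d.Bμ d.bB
  have hequiv : ∀ (y : stabW Z μ) (x : S) (hx : (y : Γ) * x * (y : Γ)⁻¹ ∈ S),
      (E.π ⟨(y : Γ) * x * (y : Γ)⁻¹, hx⟩).toAdd = E.ρ y (E.π x).toAdd := fun y x hx => E.equiv y x
  have hbo : orderOf (⟨b, hbY⟩ : stabW Z μ) = r := by
    rw [← Subgroup.orderOf_coe]; exact d.bo
  have hmapT : (T.subgroupOf (stabW Z μ)).map (stabW Z μ).subtype = T := Subgroup.map_subgroupOf_eq_of_le d.TZ
  have hfixall : ∀ m : M, E.ρ ⟨b, hbY⟩ m = m →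
      (∀ u ∈ ⁅T.subgroupOf (stabW Z μ), Subgroup.zpowers (⟨b, hbY⟩ : stabW Z μ)⁆, E.ρ u m = m) → m = 0 := by
    intro m hm hm'
    obtain ⟨x, rfl⟩ := E.exists_rep m
    have h1 : (x : Γ) ∈ d.c2.rad := by
      apply d.mem_rad_of_fixed x.2
      -- the subgroup of elements fixing `x` modulo the radical
      have key : ∀ y : stabW Z μ, E.ρ y (E.π x).toAdd = (E.π x).toAdd →
          (y : Γ) * x * (y : Γ)⁻¹ * (x : Γ)⁻¹ ∈ d.c2.rad := by
        intro y hy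
        have h2 := hequiv y x (hSn.conj_mem _ x.2 _)
        rw [hy] at h2
        exact (E.eq_iff _ _).1 h2
      let F : Subgroup (stabW Z μ) :=
        { carrier := {y | E.ρ y (E.π x).toAdd = (E.π x).toAdd}
          one_mem' := by change E.ρ 1 _ = _; rw [map_one]; rfl
          mul_mem' := by
            intro y z hy hz
            change E.ρ (y * z) _ = _
            rw [map_mul, Module.End.mul_apply, show E.ρ z (E.π x).toAdd = (E.π x).toAdd from hz]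
            exact hy
          inv_mem' := by
            intro y hy
            change E.ρ y⁻¹ _ = _
            conv_lhs => rw [← show E.ρ y (E.π x).toAdd = (E.π x).toAdd from hy]
            rw [← Module.End.mul_apply, ← map_mul, inv_mul_cancel, map_one]; rfl }
      have hF : (B ⊔ ⁅T, B⁆ : Subgroup Γ) ≤ F.map (stabW Z μ).subtype := by
        apply sup_le
        · rw [← d.Bz, Subgroup.zpowers_le]
          exact ⟨⟨b, hbY⟩, hm, rfl⟩
        · have h2 : (⁅T.subgroupOf (stabW Z μ), Subgroup.zpowers (⟨b, hbY⟩ : stabW Z μ)⁆).map (stabW Z μ).subtype =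
              ⁅T, B⁆ := by
            rw [Subgroup.map_commutator, hmapT, MonoidHom.map_zpowers]
            congr 1
            exact d.Bz
          rw [← h2]
          exact Subgroup.map_mono hm'
      intro y hy
      obtain ⟨y', hy', rfl⟩ := hF hy
      exact key y' hy'
    have h2 := (E.ker x).2 h1
    rw [h2]; rfl
  have hQS : ⁅S, B⁆ ≤ S := Subgroup.le_normalizer_iff_commutator_le_left.1 d.B_norm_S
  have hrk : finrank (ZMod 2) (LinearMap.range (E.ρ ⟨b, hbY⟩ - 1)) ≤ 2 * e := by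
    let φ : (⁅S, B⁆ : Subgroup Γ) →* Multiplicative M := E.π.comp (Subgroup.inclusion hQS)
    have h1 : Nat.card φ.range ≤ 2 ^ (2 * e) := by
      rw [← Subgroup.index_ker]
      have h2 : φ.ker = d.c2.rad.subgroupOf ⁅S, B⁆ := by
        ext x
        rw [MonoidHom.mem_ker, Subgroup.mem_subgroupOf]
        exact E.ker _
      rw [h2]
      exact hrel
    have h2 : Nat.card (LinearMap.range (E.ρ ⟨b, hbY⟩ - 1)) ≤ Nat.card φ.range := by
      apply Nat.card_le_card_of_injective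
        (fun m : LinearMap.range (E.ρ ⟨b, hbY⟩ - 1) => (⟨Multiplicative.ofAdd (m : M), ?_⟩ : φ.range))
      · intro m m' h
        have h3 := congrArg Subtype.val h
        exact Subtype.ext (Multiplicative.ofAdd.injective h3)
      · obtain ⟨m, hm⟩ := m.2
        obtain ⟨x, rfl⟩ := E.exists_rep m
        have h3 : b * x * b⁻¹ ∈ S := hSn.conj_mem _ x.2 _
        have h4 : b * x * b⁻¹ * (x : Γ)⁻¹ ∈ ⁅S, B⁆ := by
          have h5 : b * x * b⁻¹ * (x : Γ)⁻¹ = ⁅(x : Γ), b⁆⁻¹ := by rw [commutatorElement_def]; group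
          rw [h5]
          exact Subgroup.inv_mem _ (Subgroup.commutator_mem_commutator x.2 d.bB)
        refine ⟨⟨_, h4⟩, ?_⟩
        have h5 : (⟨b * x * b⁻¹ * (x : Γ)⁻¹, hQS h4⟩ : S) = ⟨b * x * b⁻¹, h3⟩ * x⁻¹ := rfl
        change E.π ⟨b * x * b⁻¹ * (x : Γ)⁻¹, hQS h4⟩ = Multiplicative.ofAdd (m : M)
        rw [h5, ← hm]
        apply Multiplicative.toAdd.injective
        rw [map_mul, toAdd_mul, map_inv, toAdd_inv, toAdd_ofAdd, LinearMap.sub_apply, Module.End.one_apply,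
          ← hequiv ⟨b, hbY⟩ x h3, sub_eq_add_neg]
    have h3 : Nat.card (LinearMap.range (E.ρ ⟨b, hbY⟩ - 1)) =
        2 ^ finrank (ZMod 2) (LinearMap.range (E.ρ ⟨b, hbY⟩ - 1)) := by
      have := Module.natCard_eq_pow_finrank (K := ZMod 2) (V := LinearMap.range (E.ρ ⟨b, hbY⟩ - 1))
      rwa [Nat.card_zmod] at this
    rw [h3] at h2
    exact (Nat.pow_le_pow_iff_right (by norm_num)).1 (h2.trans h1)
  have hmain := dual_trivial' (σ := (E.ρ : Representation (ZMod 2) (stabW Z μ) M)) (T := T.subgroupOf (stabW Z μ))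
    (d.hT.comap_of_injective _ (stabW Z μ).subtype_injective) (Ne.symm d.st) d.tr hre he hbo (by
      have h1 := d.BT d.bB
      rw [Subgroup.mem_normalizer_iff] at h1 ⊢
      intro x
      exact h1 x) ω (by
      intro g m n
      apply hωc
      obtain ⟨x, rfl⟩ := E.exists_rep m
      obtain ⟨y, rfl⟩ := E.exists_rep n
      have h3 := hSn.conj_mem _ x.2 (g : Γ)
      have h4 := hSn.conj_mem _ y.2 (g : Γ)
      rw [← hequiv g x h3, ← hequiv g y h4, hβ, hβ]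
      exact d.c2.inv_form g.2 x.2 y.2) (by
      intro m n
      apply hωc
      change μ ⁅(ψ m : Γ), (ψ n : Γ)⁆ = μ ⁅(ψ n : Γ), (ψ m : Γ)⁆
      have h1 : ⁅(ψ m : Γ), (ψ n : Γ)⁆ = ⁅(ψ n : Γ), (ψ m : Γ)⁆⁻¹ := by simp only [commutatorElement_def]; group
      rw [h1, d.c2.mult.inv (d.c2.comm _ (ψ n).2 _ (ψ m).2)]
      rcases hsq n m with h2 | h2
      · change μ ⁅(ψ n : Γ), (ψ m : Γ)⁆ = 1 at h2
        rw [h2, inv_one]
      · change μ ⁅(ψ n : Γ), (ψ m : Γ)⁆ = -1 at h2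
        rw [h2, inv_neg, inv_one]) (by
      intro m hm
      obtain ⟨x, rfl⟩ := E.exists_rep m
      have h1 : (x : Γ) ∈ d.c2.rad := by
        refine ⟨x.2, fun h hh => ?_⟩
        have h2 := (hω0 _ _).1 (hm (E.π ⟨h, hh⟩).toAdd)
        rw [hβ] at h2
        exact h2
      rw [(E.ker x).2 h1]; rfl) hrk hfixall
  -- conclusion
  have hle : ⁅S, T⁆ ≤ d.c2.rad := ?_
  · apply d.not_le_rad
    intro x hx
    apply hle
    rw [d.ST]
    exact hx
  rw [Subgroup.commutator_le]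
  intro x hx τ hτ
  have h1 := hmain ⟨τ, d.TZ hτ⟩ hτ
  have h2 := (E.rho_eq_iff ⟨τ, d.TZ hτ⟩).1 (fun v => by
    have h3 : E.ρ ⟨τ, d.TZ hτ⟩ = 1 := h1
    rw [h3]; rfl) x hx
  have h3 := d.c2.rad.inv_mem h2
  have h4 : (τ * x * τ⁻¹ * x⁻¹)⁻¹ = ⁅x, τ⁆ := by rw [commutatorElement_def]; group
  rw [← h4]
  exact h3

end Sp

theorem Sp.false {V : Type v} [AddCommGroup V] [Module K V] [FiniteDimensional K V] [IsAlgClosed K]
    {ρ : Representation K Γ V} {s t r : ℕ} {S T B Z : Subgroup Γ} {b : Γ} {μ : Γ → K}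
    (d : Sp s t r S T B Z b μ) (hμ : wsp ρ Z μ ≠ ⊥) (hsK : (s : K) ≠ 0) (hrK : (r : K) ≠ 0)
    (hfixB : ∀ w ∈ wsp ρ Z μ, (∀ β ∈ B, ρ β w = w) → w = 0) : False := by
  classical
  haveI : Fact s.Prime := ⟨d.hs⟩
  haveI : Fact t.Prime := ⟨d.ht⟩
  haveI : Fact r.Prime := ⟨d.hr⟩
  have hSn := d.c2.Sn
  have hZn := d.Zn
  set Q : Subgroup Γ := ⁅S, B⁆ with hQ
  have hBS := d.B_norm_S
  have hQS : Q ≤ S := Subgroup.le_normalizer_iff_commutator_le_left.1 hBS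
  have hBcop : (Nat.card B).Coprime s := by rw [d.Bc]; exact (Nat.coprime_primes d.hr d.hs).2 d.rs
  have hBScop : (Nat.card B).Coprime (Nat.card S) := Cop.coprime_card_of_isPGroup d.hS hBcop
  have hsolS : Group.IsSolvable S := by
    haveI := d.hS.isNilpotent
    exact inferInstance
  have hQpg : IsPGroup s Q := d.hS.to_le hQS
  have hbQ : b ∈ Subgroup.normalizer (Q : Set Γ) := Subgroup.normalizer_commutator_ge_right S B d.bB
  have hpow1 : b ^ r ^ (1 - 1) = b := by rw [show r ^ (1 - 1) = 1 from by norm_num, pow_one]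
  have hW₀Q : ∀ g ∈ S, ∀ w ∈ wsp ρ Z μ, ρ g w ∈ wsp ρ Z μ := fun g hg w hw =>
    wsp_stab (d.c2.S_le_stab hg) hw
  by_cases hnt : ∃ g ∈ Q, ∃ w ∈ wsp ρ Z μ, ρ g w ≠ w
  · -- the main case
    have hQK : (Nat.card Q : K) ≠ 0 := by
      obtain ⟨k, hk⟩ := IsPGroup.iff_card.1 hQpg
      rw [hk, Nat.cast_pow]
      exact pow_ne_zero _ hsK
    obtain ⟨W', hW'le, hW'0, hW'Q, hW'b, hW'fix⟩ := exists_nofix_on ρ Q hQK b
      (fun g hg => (Subgroup.mem_normalizer_iff.1 hbQ g).1 hg)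
      (fun g hg => (Subgroup.mem_normalizer_iff''.1 hbQ g).1 hg)
      (fun g hg => hW₀Q g (hQS hg)) (fun w hw => wsp_stab (d.Bμ d.bB) hw) hnt
    obtain ⟨W, hWW', hW⟩ := exists_irrOn ρ Q b hW'0 hW'Q hW'b
    have hcore := core_C (p := r) (q := s) (n := 1) d.rs hsK hrK hQpg (x := b) (by rw [d.bo, pow_one]) hbQ (by
        rw [hpow1, d.Bz]
        exact Cop.commutator_commutator_eq hBS hBScop (Or.inr hsolS)) (by
        intro g hg hc h hh
        rw [hpow1] at hc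
        have h1 : g ∈ Z := comm_cent d.hs hSn hZn d.pow (fun x hx y hy => d.c2.comm x hx y hy) d.Bc
          ((Nat.coprime_primes d.hr d.hs).2 d.rs) hg (by
            intro β hβ
            rw [← d.Bz] at hβ
            obtain ⟨k, rfl⟩ := Subgroup.mem_zpowers_iff.1 hβ
            exact (hc.zpow_left k))
        exact d.c2.cen g h1 h (hQS hh)) (by
        intro g hg h hh k hk
        exact d.c2.cen _ (d.c2.comm g (hQS hg) h (hQS hh)) k (hQS hk)) hW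
        (fun w hw => hW'fix w (hWW' hw))
    rcases hcore with h1 | h1
    · obtain ⟨v, hvW, hv0, hv⟩ := h1 1 (one_pow _)
      apply hv0
      apply hfixB v (hW'le (hWW' hvW))
      rw [one_smul] at hv
      have h2 : B ≤ fixer ρ v := by
        rw [← d.Bz, Subgroup.zpowers_le]
        exact hv
      intro β hβ
      exact h2 hβ
    · obtain ⟨k₁, n₀, b', U, R, hE⟩ := h1
      have h1 := hE.one_le
      have h2 := hE.le
      have h3 : n₀ = 1 := by omega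
      have h4 := hE.eq
      rw [h3, pow_one] at h4
      have hr2 : r ≠ 2 := by
        rintro rfl
        have h5 : s ∣ 1 := by
          have h6 : (1 : ℕ) = s ^ b' := h4
          rw [h6]
          exact dvd_pow_self s (by have := hE.b_pos; omega)
        exact d.hs.one_lt.ne' (Nat.dvd_one.1 h5)
      have hs2 : s = 2 := hE.q_eq hr2
      subst hs2
      have hre : r = 2 ^ b' + 1 := by
        have := d.hr.one_lt
        omega
      refine d.caseB hE.b_pos rfl hre (by exact_mod_cast hsK) ?_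
      rw [← hE.relR, ← hQ]
      apply Subgroup.relIndex_le_of_le_left
      · intro g hgR
        have hgQ : g ∈ Q := ((hE.memR g).1 hgR).1
        have hgc := ((hE.memR g).1 hgR).2
        have hgQ1 : ∀ h ∈ Q, μ ⁅g, h⁆ = 1 := by
          intro h hh
          obtain ⟨u, huU, hu0⟩ := (Submodule.ne_bot_iff _).1 hE.ne
          have h5 : ∀ w ∈ U, w ∈ wsp ρ Z μ := fun w hw => hW'le (hWW' (hE.UW hw))
          -- use the vector `ρ (h g)⁻¹ u`
          have h6 : ρ (h * g)⁻¹ u ∈ U := hE.invQ _ (Q.inv_mem (Q.mul_mem hh hgQ)) u huU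
          have h7 := hgc h hh _ h6
          rw [← rho_mul, ← rho_mul, ← rho_mul, ← rho_mul] at h7
          have h8 : h * g * (h * g)⁻¹ = 1 := by group
          have h9 : g * h * (h * g)⁻¹ = ⁅g, h⁆ := by rw [commutatorElement_def]; group
          rw [h8, h9, h5 u huU _ (d.c2.comm g (hQS hgQ) h (hQS hh)), map_one] at h7
          have h10 : (μ ⁅g, h⁆ - 1) • u = 0 := by
            rw [sub_smul, one_smul, h7]
            exact sub_self _
          rcases smul_eq_zero.1 h10 with h11 | h11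
          · exact sub_eq_zero.1 h11
          · exact absurd h11 hu0
        refine ⟨hQS hgQ, fun h hh => ?_⟩
        obtain ⟨u, hu, c, hc, rfl⟩ := Cop.exists_eq_mul_of_mem hBS hBScop (Or.inr hsolS) hh
        rw [d.c2.right (hQS hgQ) (hQS hu) hc.1, hgQ1 u hu, d.c2.orth d.Bμ hgQ hc.1 hc.2, one_mul]
      · rw [hE.relR]
        positivity
  · -- the trivial case
    push Not at hnt
    apply d.caseA
    intro g hg h hh
    obtain ⟨u, hu, hu0⟩ := (Submodule.ne_bot_iff _).1 hμ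
    have h1 : ρ ⁅g, h⁆ u = u := by
      have h2 : ⁅g, h⁆ = g * (h * (g⁻¹ * h⁻¹)) := by rw [commutatorElement_def]; group
      have h3 : ρ h⁻¹ u ∈ wsp ρ Z μ := hW₀Q _ (S.inv_mem hh) u hu
      rw [h2, rho_mul, rho_mul, rho_mul, hnt g⁻¹ (Q.inv_mem hg) _ h3, rho_apply_inv, hnt g hg u hu]
    rw [hu _ (d.c2.comm g (hQS hg) h hh)] at h1
    have h2 : (μ ⁅g, h⁆ - 1) • u = 0 := by rw [sub_smul, one_smul, h1, sub_self]
    rcases smul_eq_zero.1 h2 with h3 | h3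
    · exact sub_eq_zero.1 h3
    · exact absurd h3 hu0

end Cfsg.Agent.H62.PQ
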