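import Mathlib
import Cfsg.Agent.HH.CoreC
import Cfsg.Agent.H62.PQ8

set_option autoImplicit false
set_option linter.style.haveILetI false
set_option linter.unusedSectionVars false

/-!
A variant of the core theorem of helper63 with the missing eigenvalue (helper62).
-/

namespace Cfsg.Agent.H62.GR

open Cfsg.Agent.HH Module
open scoped BigOperators commutatorElement

universe u v w

variable {K : Type w} [Field K] {V : Type v} [AddCommGroup V] [Module K V]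
variable {G : Type u} [Group G] {ρ : Representation K G V}

/-- variant of the core theorem with the missing eigenvalue -/
theorem core_miss [IsAlgClosed K] [FiniteDimensional K V] {p q : ℕ} [hp : Fact p.Prime] [hq : Fact q.Prime]
    (hpq : p ≠ q) (hqK : (q : K) ≠ 0) (hpK : (p : K) ≠ 0) [Finite G] {Q : Subgroup G} (hQ : IsPGroup q Q) {x : G} {n : ℕ}
    (hx : orderOf x = p ^ n) (hxQ : x ∈ Subgroup.normalizer (Q : Set G))
    (h1 : ⁅Q, Subgroup.zpowers (x ^ p ^ (n - 1))⁆ = Q)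
    (h2 : ∀ g ∈ Q, Commute (x ^ p ^ (n - 1)) g → ∀ h ∈ Q, g * h = h * g)
    (h3 : ∀ g ∈ Q, ∀ h ∈ Q, ∀ k ∈ Q, ⁅g, h⁆ * k = k * ⁅g, h⁆)
    {W : Submodule K V} (hW : IrrOn ρ Q x W) (hWfix : ∀ w ∈ W, (∀ g ∈ Q, ρ g w = w) → w = 0) :
    (∀ z : K, z ^ p ^ n = 1 → ∃ v ∈ W, v ≠ 0 ∧ ρ x v = z • v) ∨
    ∃ (k n₀ b : ℕ) (z₀ : K), 1 ≤ n₀ ∧ k + n₀ = n ∧ 1 ≤ b ∧ p ^ n₀ - 1 = q ^ b ∧
      ∀ z : K, z ^ p ^ n = 1 → z ^ p ^ k ≠ z₀ → ∃ v ∈ W, v ≠ 0 ∧ ρ x v = z • v := by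
  classical
  set x₀ := x ^ p ^ (n - 1) with hx₀
  have hpp : p.Prime := hp.out
  have hQK : (Nat.card Q : K) ≠ 0 := by
    obtain ⟨k, hk⟩ := IsPGroup.iff_card.1 hQ
    rw [hk, Nat.cast_pow]
    exact pow_ne_zero _ hqK
  -- normalization
  have hxN : Subgroup.zpowers x ≤ Subgroup.normalizer (Q : Set G) := by
    rw [Subgroup.zpowers_le]; exact hxQ
  have hcQ : ∀ c ∈ Subgroup.zpowers x, ∀ g ∈ Q, c * g * c⁻¹ ∈ Q := fun c hc g hg =>
    (Subgroup.mem_normalizer_iff.1 (hxN hc) g).1 hg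
  have hcQ' : ∀ c ∈ Subgroup.zpowers x, ∀ g ∈ Q, c⁻¹ * g * c ∈ Q := fun c hc g hg =>
    (Subgroup.mem_normalizer_iff''.1 (hxN hc) g).1 hg
  have hxz : x ∈ Subgroup.zpowers x := Subgroup.mem_zpowers x
  -- weight step for the center
  set Z : Subgroup G := Q ⊓ Subgroup.centralizer (Q : Set G) with hZ
  have hZmem : ∀ g, g ∈ Z ↔ g ∈ Q ∧ ∀ h ∈ Q, g * h = h * g := by
    intro g
    rw [hZ, Subgroup.mem_inf, Subgroup.mem_centralizer_iff]
    exact and_congr_right (fun _ => ⟨fun h k hk => (h k hk).symm, fun h k hk => (h k hk).symm⟩)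
  obtain ⟨k₁, hk₁, U₁, hU₁W, hU₁, hU₁Z, hU₁ind⟩ := hW.weight_step' (A := Z) (n := n)
    (by rw [← hx, pow_orderOf_eq_one]) (hcQ' x hxz) inf_le_left (by
      intro a ha
      rw [hZmem] at ha ⊢
      refine ⟨hcQ' x hxz a ha.1, fun h hh => ?_⟩
      have h4 := ha.2 _ (hcQ x hxz h hh)
      calc x⁻¹ * a * x * h = x⁻¹ * (a * (x * h * x⁻¹)) * x := by group
        _ = x⁻¹ * ((x * h * x⁻¹) * a) * x := by rw [h4]
        _ = _ := by group) (by
      intro a ha g hg w _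
      rw [hZmem] at ha
      rw [← rho_mul, ← rho_mul, ha.2 g hg])
  set y₁ := x ^ p ^ k₁ with hy₁
  have hy₁z : Subgroup.zpowers y₁ ≤ Subgroup.zpowers x := by
    rw [Subgroup.zpowers_le]; exact Subgroup.pow_mem _ hxz _
  have hfin : ∀ g : G, IsOfFinOrder g := fun g => isOfFinOrder_of_finite g
  have hU₁y : ∀ c ∈ Subgroup.zpowers y₁, ∀ w ∈ U₁, ρ c w ∈ U₁ := stable_zpowers (hfin _) hU₁.invy
  -- the subgroup R
  let R : Subgroup G :=
    { carrier := {g | g ∈ Q ∧ ∀ h ∈ Q, ∀ w ∈ U₁, ρ g (ρ h w) = ρ h (ρ g w)}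
      one_mem' := ⟨Q.one_mem, fun h _ w _ => by rw [map_one]; rfl⟩
      mul_mem' := by
        rintro a b ⟨ha, ha'⟩ ⟨hb, hb'⟩
        refine ⟨Q.mul_mem ha hb, fun h hh w hw => ?_⟩
        rw [rho_mul, rho_mul, hb' h hh w hw, ha' h hh _ (hU₁.invQ b hb w hw)]
      inv_mem' := by
        rintro a ⟨ha, ha'⟩
        refine ⟨Q.inv_mem ha, fun h hh w hw => ?_⟩
        have h4 := ha' h hh _ (hU₁.invQ _ (Q.inv_mem ha) w hw)
        rw [rho_apply_inv] at h4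
        rw [← h4, rho_inv_apply] }
  have hRmem : ∀ g, g ∈ R ↔ g ∈ Q ∧ ∀ h ∈ Q, ∀ w ∈ U₁, ρ g (ρ h w) = ρ h (ρ g w) := fun _ => Iff.rfl
  have hRc : ∀ c ∈ Subgroup.zpowers y₁, ∀ g ∈ R, c * g * c⁻¹ ∈ R := by
    intro c hc g hg
    rw [hRmem] at hg ⊢
    refine ⟨hcQ c (hy₁z hc) g hg.1, fun h hh w hw => ?_⟩
    have h4 := hg.2 _ (hcQ' c (hy₁z hc) h hh) _ (hU₁y _ (Subgroup.inv_mem _ hc) w hw)
    have h5 : ρ (c * g * c⁻¹) (ρ h w) = ρ c (ρ g (ρ (c⁻¹ * h * c) (ρ c⁻¹ w))) := by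
      simp only [← rho_mul]; congr 2; group
    have h6 : ρ h (ρ (c * g * c⁻¹) w) = ρ c (ρ (c⁻¹ * h * c) (ρ g (ρ c⁻¹ w))) := by
      simp only [← rho_mul]; congr 2; group
    rw [h5, h6, h4]
  obtain ⟨k₂, hk₂, U₂, hU₂U₁, hU₂, hU₂R, hU₂ind⟩ := hU₁.weight_step' (A := R) (n := n - k₁)
    (by rw [← pow_mul, ← pow_add, Nat.add_sub_of_le hk₁, ← hx, pow_orderOf_eq_one])
    (hcQ' y₁ (hy₁z (Subgroup.mem_zpowers _))) (fun g hg => hg.1) (by
      intro a ha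
      have := hRc y₁⁻¹ (Subgroup.inv_mem _ (Subgroup.mem_zpowers _)) a ha
      rwa [inv_inv] at this) (by
      intro a ha g hg w hw
      exact ha.2 g hg w hw)
  set y₂ := y₁ ^ p ^ k₂ with hy₂
  have hy₂z₁ : Subgroup.zpowers y₂ ≤ Subgroup.zpowers y₁ := by
    rw [Subgroup.zpowers_le]; exact Subgroup.pow_mem _ (Subgroup.mem_zpowers _) _
  have hy₂z : Subgroup.zpowers y₂ ≤ Subgroup.zpowers x := hy₂z₁.trans hy₁z
  have hy₂x : y₂ = x ^ p ^ (k₁ + k₂) := by rw [hy₂, hy₁, ← pow_mul, ← pow_add]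
  -- lifting
  have hlift : ∀ z : K, z ≠ 0 → ∀ u ∈ U₂, u ≠ 0 → ρ y₂ u = z ^ p ^ (k₁ + k₂) • u →
      ∃ v ∈ W, v ≠ 0 ∧ ρ x v = z • v := by
    intro z hz u hu hu0 hyu
    obtain ⟨h4, h5⟩ := eig_lift hU₂ind (z := z ^ p ^ k₁) (pow_ne_zero _ hz) hu hu0 (by
      rw [← pow_mul z, ← pow_add]; exact hyu)
    set u' := ∑ j ∈ Finset.range (p ^ k₂), (z ^ p ^ k₁)⁻¹ ^ j • ρ (y₁ ^ j) u with hu'
    have hu'U : u' ∈ U₁ := U₁.sum_mem (fun j _ => U₁.smul_mem _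
      (hU₁y _ (Subgroup.pow_mem _ (Subgroup.mem_zpowers _) _) _ (hU₂U₁ hu)))
    obtain ⟨h6, h7⟩ := eig_lift hU₁ind hz hu'U h4 h5
    refine ⟨_, ?_, h6, h7⟩
    exact W.sum_mem (fun j _ => W.smul_mem _ (stable_zpowers (hfin x) hW.invy _
      (Subgroup.pow_mem _ (Subgroup.mem_zpowers _) _) _ (hU₁W hu'U)))
  obtain ⟨u₀, hu₀, hu₀0⟩ := (Submodule.ne_bot_iff _).1 hU₂.ne
  rcases Nat.lt_or_ge (k₁ + k₂) n with hkn | hkn
  swap
  · left
    intro z hz
    have hkn' : k₁ + k₂ = n := by omega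
    have hz0 : z ≠ 0 := by
      rintro rfl
      rw [zero_pow (pow_pos hpp.pos _).ne'] at hz
      exact zero_ne_one hz
    apply hlift z hz0 u₀ hu₀ hu₀0
    rw [hy₂x, hkn', hz, ← hx, pow_orderOf_eq_one, map_one, one_smul]; rfl
  -- x₀ acts
  have hx₀y₂ : x₀ ∈ Subgroup.zpowers y₂ := by
    have h4 : x₀ = y₂ ^ p ^ (n - 1 - (k₁ + k₂)) := by
      rw [hy₂x, ← pow_mul, ← pow_add, Nat.add_sub_of_le (by omega)]
    rw [h4]
    exact Subgroup.pow_mem _ (Subgroup.mem_zpowers _) _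
  -- fixer
  let F : Subgroup G :=
    { carrier := {g | ∀ w ∈ U₂, ρ g w = w}
      one_mem' := fun w _ => by rw [map_one]; rfl
      mul_mem' := by
        intro a b ha hb w hw
        rw [rho_mul, hb w hw, ha w hw]
      inv_mem' := by
        intro a ha w hw
        have h4 := ha w hw
        calc ρ a⁻¹ w = ρ a⁻¹ (ρ a w) := by rw [h4]
          _ = w := rho_inv_apply _ _ _ }
  have hFcon : ¬ (⁅Q, Subgroup.zpowers x₀⁆ ≤ F) := by
    intro hF
    rw [h1] at hF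
    exact hu₀0 (hWfix u₀ (hU₁W (hU₂U₁ hu₀)) (fun g hg => hF hg u₀ hu₀))
  have hx₀U : ∀ c ∈ Subgroup.zpowers x₀, ∀ w ∈ U₂, ρ c w ∈ U₂ := by
    intro c hc
    exact stable_zpowers (hfin _) hU₂.invy c (by
      have : Subgroup.zpowers x₀ ≤ Subgroup.zpowers y₂ := by rw [Subgroup.zpowers_le]; exact hx₀y₂
      exact this hc)
  obtain ⟨g₀, hg₀, hg₀R⟩ : ∃ g ∈ Q, g ∉ R := by
    by_contra hcon
    push Not at hcon
    apply hFcon
    rw [Subgroup.commutator_le]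
    intro g hg c hc w hw
    obtain ⟨a, ha⟩ := hU₂R g (hcon g hg)
    rw [commutatorElement_def, rho_mul, rho_mul, rho_mul]
    have h4 : ρ g⁻¹ (ρ c⁻¹ w) ∈ U₂ := hU₂.invQ _ (Q.inv_mem hg) _ (hx₀U _ (Subgroup.inv_mem _ hc) w hw)
    rw [ha _ (hx₀U c hc _ h4), ← map_smul, ← ha _ h4, rho_apply_inv, rho_apply_inv]
  -- noncentral elements
  have hr2 : ∀ g ∈ Q, g ∉ R → ∃ h ∈ Q, ∃ c : K, c ≠ 1 ∧ ∀ w ∈ U₂, ρ (h * g * h⁻¹) w = c • ρ g w := by
    intro g hg hgR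
    rw [hRmem] at hgR
    push Not at hgR
    obtain ⟨h, hh, w, hw, hne⟩ := hgR hg
    obtain ⟨c, hc⟩ := hU₁Z ⁅h, g⁆ ((hZmem _).2 ⟨by
      rw [commutatorElement_def]
      exact Q.mul_mem (Q.mul_mem (Q.mul_mem hh hg) (Q.inv_mem hh)) (Q.inv_mem hg), h3 h hh g hg⟩)
    have h4 : ∀ w ∈ U₁, ρ (h * g * h⁻¹) w = c • ρ g w := by
      intro w hw
      rw [← hc _ (hU₁.invQ g hg w hw), ← rho_mul]
      congr 2
      rw [commutatorElement_def]; group
    refine ⟨h, hh, c, ?_, fun w hw => h4 w (hU₂U₁ hw)⟩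
    rintro rfl
    apply hne
    have h5 := h4 _ (hU₁.invQ h hh w hw)
    rw [one_smul] at h5
    rw [← h5, ← rho_mul, ← rho_mul]
    congr 2; group
  have hcopn : (Nat.card (Subgroup.zpowers y₂)).Coprime (Nat.card Q) := by
    obtain ⟨k, hk⟩ := IsPGroup.iff_card.1 hQ
    have h4 : Nat.card (Subgroup.zpowers y₂) ∣ p ^ n := by
      rw [← hx, ← Nat.card_zpowers]
      exact Subgroup.card_dvd_of_le hy₂z
    rw [hk]
    exact Nat.Coprime.coprime_dvd_left h4 (Nat.Coprime.pow _ _ ((Nat.coprime_primes hpp hq.out).2 hpq))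
  have hRQ : ∀ k ∈ Q, ∀ g ∈ R, k * g * k⁻¹ ∈ R := by
    intro k hk g hg
    refine ⟨Q.mul_mem (Q.mul_mem hk hg.1) (Q.inv_mem hk), fun h hh w hw => ?_⟩
    have h4 := hg.2 _ (Q.mul_mem (Q.mul_mem (Q.inv_mem hk) hh) hk) _ (hU₁.invQ _ (Q.inv_mem hk) w hw)
    have h5 : ρ (k * g * k⁻¹) (ρ h w) = ρ k (ρ g (ρ (k⁻¹ * h * k) (ρ k⁻¹ w))) := by
      simp only [← rho_mul]; congr 2; group
    have h6 : ρ h (ρ (k * g * k⁻¹) w) = ρ k (ρ (k⁻¹ * h * k) (ρ g (ρ k⁻¹ w))) := by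
      simp only [← rho_mul]; congr 2; group
    rw [h5, h6, h4]
  have hr4 : ∀ g ∈ Q, g * y₂ * g⁻¹ * y₂⁻¹ ∈ R → g ∈ R := by
    intro g hg hgR
    have hstep : ∀ j : ℕ, y₂ ^ j * g * (y₂ ^ j)⁻¹ * g⁻¹ ∈ R := by
      intro j
      induction j with
      | zero => simp [R.one_mem]
      | succ j ih =>
        have h4 := hRc y₂ (hy₂z₁ (Subgroup.mem_zpowers _)) _ ih
        have h5 := R.inv_mem hgR
        have h6 : y₂ ^ (j + 1) * g * (y₂ ^ (j + 1))⁻¹ * g⁻¹ =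
            (y₂ * (y₂ ^ j * g * (y₂ ^ j)⁻¹ * g⁻¹) * y₂⁻¹) * (g * y₂ * g⁻¹ * y₂⁻¹)⁻¹ := by
          rw [pow_succ']; group
        rw [h6]
        exact R.mul_mem h4 h5
    obtain ⟨c, ⟨hcQ1, hcC⟩, hcR⟩ := Cop.fixed_points_quotient (Subgroup.zpowers y₂) Q
      (hy₂z.trans hxN) hcopn (Or.inl inferInstance) R (fun g hg => hg.1) (by
        intro k hk
        rw [Subgroup.mem_normalizer_iff]
        have key : ∀ k ∈ Q, ∀ g ∈ R, k * g * k⁻¹ ∈ R := by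
          intro k hk g hg
          refine ⟨Q.mul_mem (Q.mul_mem hk hg.1) (Q.inv_mem hk), fun h hh w hw => ?_⟩
          have h4 := hg.2 _ (Q.mul_mem (Q.mul_mem (Q.inv_mem hk) hh) hk) _ (hU₁.invQ _ (Q.inv_mem hk) w hw)
          have h5 : ρ (k * g * k⁻¹) (ρ h w) = ρ k (ρ g (ρ (k⁻¹ * h * k) (ρ k⁻¹ w))) := by
            simp only [← rho_mul]; congr 2; group
          have h6 : ρ h (ρ (k * g * k⁻¹) w) = ρ k (ρ (k⁻¹ * h * k) (ρ g (ρ k⁻¹ w))) := by
            simp only [← rho_mul]; congr 2; group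
          rw [h5, h6, h4]
        intro g
        refine ⟨fun hg => key k hk g hg, fun hg => ?_⟩
        have := key k⁻¹ (Q.inv_mem hk) _ hg
        have h7 : k⁻¹ * (k * g * k⁻¹) * k⁻¹⁻¹ = g := by group
        rwa [h7] at this) (by
        intro k hk
        rw [Subgroup.mem_normalizer_iff]
        intro g
        refine ⟨fun hg => hRc k (hy₂z₁ hk) g hg, fun hg => ?_⟩
        have := hRc k⁻¹ (Subgroup.inv_mem _ (hy₂z₁ hk)) _ hg
        have h7 : k⁻¹ * (k * g * k⁻¹) * k⁻¹⁻¹ = g := by group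
        rwa [h7] at this) g hg (by
        intro a ha
        obtain ⟨j, rfl⟩ := (Submonoid.mem_powers_iff a y₂).1 ((hfin y₂).mem_powers_iff_mem_zpowers.2 ha)
        exact hstep j)
    have hcR' : c ∈ R := by
      refine ⟨hcQ1, fun h hh w _ => ?_⟩
      have h8 : c * h = h * c := h2 c hcQ1 (Subgroup.mem_centralizer_iff.1 hcC x₀ hx₀y₂) h hh
      rw [← rho_mul, ← rho_mul, h8]
    have h9 : g = c * (g⁻¹ * c)⁻¹ := by group
    rw [h9]
    exact R.mul_mem hcR' (R.inv_mem hcR)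
  have hirr := hU₂.irr_of_stab (hfin y₂) hQK (hcQ y₂ (hy₂z (Subgroup.mem_zpowers _)))
    (hcQ' y₂ (hy₂z (Subgroup.mem_zpowers _))) hU₂R hr2 hr4
  -- the representation on U₂
  let S : Subgroup G :=
    { carrier := {g | ∀ w ∈ U₂, ρ g w ∈ U₂}
      one_mem' := fun w hw => by rw [map_one]; exact hw
      mul_mem' := by
        intro a b ha hb w hw
        rw [rho_mul]; exact ha _ (hb w hw)
      inv_mem' := by
        intro a ha
        exact stable_zpowers (hfin a) ha a⁻¹ (Subgroup.inv_mem _ (Subgroup.mem_zpowers a)) }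
  set P : Subgroup G := Q ⊔ Subgroup.zpowers y₂ with hP
  have hPS : P ≤ S := by
    apply sup_le
    · exact hU₂.invQ
    · rw [Subgroup.zpowers_le]; exact hU₂.invy
  have hPU : ∀ g ∈ P, ∀ w ∈ U₂, ρ g w ∈ U₂ := fun g hg => hPS hg
  set ρ' := restr ρ P U₂ hPU with hρ'
  have hρ'v : ∀ (g : P) (w : U₂), ((ρ' g w : U₂) : V) = ρ g w := fun _ _ => rfl
  set Q' := Q.subgroupOf P with hQ'
  have hQP : Q ≤ P := le_sup_left
  have hy₂P : y₂ ∈ P := (le_sup_right : Subgroup.zpowers y₂ ≤ P) (Subgroup.mem_zpowers _)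
  have hyP : Subgroup.zpowers y₂ ≤ P := le_sup_right
  have hmapbot : ∀ W : Submodule K U₂, W.map U₂.subtype = ⊥ → W = ⊥ := by
    intro W hW
    rw [eq_bot_iff]
    intro w hw
    have : (w : V) ∈ W.map U₂.subtype := ⟨w, hw, rfl⟩
    rw [hW, Submodule.mem_bot] at this
    exact Subtype.ext this
  have hmaptop : ∀ W : Submodule K U₂, W.map U₂.subtype = U₂ → W = ⊤ := by
    intro W hW
    rw [eq_top_iff]
    rintro ⟨w, hw⟩ -
    have h4 := hw
    rw [← hW] at h4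
    obtain ⟨w', hw', hww'⟩ := h4
    have : w' = ⟨w, hw⟩ := Subtype.ext hww'
    rw [← this]; exact hw'
  have hIrr : Irr ρ' Q' := by
    refine ⟨(Submodule.nontrivial_iff_ne_bot).2 hU₂.ne, ?_⟩
    intro W hWinv
    rcases hirr (W.map U₂.subtype) (Submodule.map_subtype_le _ _) (by
      rintro g hg _ ⟨w, hw, rfl⟩
      exact ⟨_, hWinv ⟨g, hQP hg⟩ hg w hw, rfl⟩) with h4 | h4
    · exact Or.inl (hmapbot W h4)
    · exact Or.inr (hmaptop W h4)
  have hQ'card : Nat.card Q' = Nat.card Q := Nat.card_congr (Subgroup.subgroupOfEquivOfLe hQP).toEquiv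
  set r := n - (k₁ + k₂) with hr
  have hr1 : 1 ≤ r := by omega
  have hoy : orderOf (⟨y₂, hy₂P⟩ : P) = p ^ r := by
    rw [Subgroup.orderOf_mk, hy₂x, orderOf_pow_of_dvd (pow_pos hpp.pos _).ne' (by
      rw [hx]; exact pow_dvd_pow p hkn.le), hx, Nat.pow_div hkn.le hpp.pos]
  have hx₀' : x₀ = y₂ ^ p ^ (r - 1) := by
    rw [hy₂x, ← pow_mul, ← pow_add, show k₁ + k₂ + (r - 1) = n - 1 by omega]
  have hcz : ∀ c ∈ Subgroup.zpowers (⟨y₂, hy₂P⟩ : P), (c : G) ∈ Subgroup.zpowers y₂ := by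
    intro c hc
    obtain ⟨k, rfl⟩ := Subgroup.mem_zpowers_iff.1 hc
    exact Subgroup.mem_zpowers_iff.2 ⟨k, rfl⟩
  have hnorm' : ∀ c ∈ Subgroup.zpowers (⟨y₂, hy₂P⟩ : P), ∀ g ∈ Q', c * g * c⁻¹ ∈ Q' := by
    intro c hc g hg
    rw [hQ', Subgroup.mem_subgroupOf] at hg ⊢
    exact hcQ c (hy₂z (hcz c hc)) g hg
  have hscalR : ∀ g : P, g ∈ scal ρ' Q' ↔ (g : G) ∈ R := by
    intro g
    constructor
    · rintro ⟨hg, c, hc⟩
      rw [hQ', Subgroup.mem_subgroupOf] at hg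
      by_contra hgR
      obtain ⟨h, hh, a, ha, haU⟩ := hr2 g hg hgR
      apply ha
      have h4 : ∀ w ∈ U₂, ρ g w = c • w := by
        intro w hw
        have := congrArg (fun f : Module.End K U₂ => ((f ⟨w, hw⟩ : U₂) : V)) hc
        exact this
      have h5 := haU u₀ hu₀
      rw [rho_mul, rho_mul, h4 _ (hU₂.invQ _ (Q.inv_mem hh) _ hu₀), map_smul, rho_apply_inv, h4 _ hu₀] at h5
      have hc0 : c ≠ 0 := by
        rintro rfl
        apply hu₀0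
        rw [← rho_inv_apply ρ (g : G) u₀, h4 _ hu₀, zero_smul, map_zero]
      have h6 : (1 - a) • (c • u₀) = 0 := by rw [sub_smul, one_smul, ← h5, sub_self]
      rcases smul_eq_zero.1 h6 with h7 | h7
      · exact (sub_eq_zero.1 h7).symm
      · rcases smul_eq_zero.1 h7 with h8 | h8
        · exact absurd h8 hc0
        · exact absurd h8 hu₀0
    · intro hg
      obtain ⟨c, hc⟩ := hU₂R g hg
      refine ⟨hg.1, c, ?_⟩
      apply LinearMap.ext
      intro w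
      apply Subtype.ext
      exact hc w w.2
  have hcl' : ∀ g ∈ Q', ∀ k ∈ Q', ∃ c : K, ρ' (k * g * k⁻¹) = c • ρ' g := by
    intro g hg k hk
    rw [hQ', Subgroup.mem_subgroupOf] at hg hk
    obtain ⟨c, hc⟩ := hU₁Z ⁅(k : G), (g : G)⁆ ((hZmem _).2 ⟨by
      rw [commutatorElement_def]
      exact Q.mul_mem (Q.mul_mem (Q.mul_mem hk hg) (Q.inv_mem hk)) (Q.inv_mem hg), h3 k hk g hg⟩)
    refine ⟨c, ?_⟩
    apply LinearMap.ext
    intro w
    apply Subtype.ext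
    change ρ ((k : G) * g * (k : G)⁻¹) w = c • ρ (g : G) w
    rw [← hc _ (hU₁.invQ _ hg w (hU₂U₁ w.2)), ← rho_mul]
    congr 2
    rw [commutatorElement_def]; group
  have hfree' : ∀ c ∈ Subgroup.zpowers (⟨y₂, hy₂P⟩ : P), c ≠ 1 → ∀ g ∈ Q', g⁻¹ * (c * g * c⁻¹) ∈ scal ρ' Q' →
      g ∈ scal ρ' Q' := by
    intro c hc hc1 g hg hcg
    rw [hscalR] at hcg ⊢
    rw [hQ', Subgroup.mem_subgroupOf] at hg
    have hcG : (c : G) ∈ Subgroup.zpowers y₂ := hcz c hc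
    have h4 : x₀ ∈ Subgroup.zpowers (c : G) := mem_zpowers_of_ne_one hx (hy₂z hcG) (by
      intro h5; exact hc1 (Subtype.ext h5))
    have hczy : Subgroup.zpowers (c : G) ≤ Subgroup.zpowers y₂ := by rw [Subgroup.zpowers_le]; exact hcG
    have h5 : (g : G)⁻¹ * ((c : G) * g * (c : G)⁻¹) ∈ R := hcg
    have h6 : (c : G) * g * (c : G)⁻¹ * (g : G)⁻¹ ∈ R := by
      have h7 := hRQ g hg _ h5
      have h8 : (g : G) * ((g : G)⁻¹ * ((c : G) * g * (c : G)⁻¹)) * (g : G)⁻¹ =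
        (c : G) * g * (c : G)⁻¹ * (g : G)⁻¹ := by group
      rwa [h8] at h7
    have hstep : ∀ j : ℕ, (c : G) ^ j * g * ((c : G) ^ j)⁻¹ * (g : G)⁻¹ ∈ R := by
      intro j
      induction j with
      | zero => simp [R.one_mem]
      | succ j ih =>
        have h7 := hRc c (hy₂z₁ hcG) _ ih
        have h8 : (c : G) ^ (j + 1) * g * ((c : G) ^ (j + 1))⁻¹ * (g : G)⁻¹ =
            ((c : G) * ((c : G) ^ j * g * ((c : G) ^ j)⁻¹ * (g : G)⁻¹) * (c : G)⁻¹) *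
              ((c : G) * g * (c : G)⁻¹ * (g : G)⁻¹) := by
          rw [pow_succ']; group
        rw [h8]
        exact R.mul_mem h7 h6
    obtain ⟨d, ⟨hdQ1, hdC⟩, hdR⟩ := Cop.fixed_points_quotient (Subgroup.zpowers (c : G)) Q
      ((hczy.trans hy₂z).trans hxN) (Nat.Coprime.coprime_dvd_left (Subgroup.card_dvd_of_le hczy) hcopn)
      (Or.inl inferInstance) R (fun g hg => hg.1) (by
        intro k hk
        rw [Subgroup.mem_normalizer_iff]
        intro g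
        refine ⟨fun hg => hRQ k hk g hg, fun hg => ?_⟩
        have := hRQ k⁻¹ (Q.inv_mem hk) _ hg
        have h7 : k⁻¹ * (k * g * k⁻¹) * k⁻¹⁻¹ = g := by group
        rwa [h7] at this) (by
        intro k hk
        rw [Subgroup.mem_normalizer_iff]
        intro g
        refine ⟨fun hg => hRc k (hy₂z₁ (hczy hk)) g hg, fun hg => ?_⟩
        have := hRc k⁻¹ (Subgroup.inv_mem _ (hy₂z₁ (hczy hk))) _ hg
        have h7 : k⁻¹ * (k * g * k⁻¹) * k⁻¹⁻¹ = g := by group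
        rwa [h7] at this) g hg (by
        intro a ha
        obtain ⟨j, rfl⟩ := (Submonoid.mem_powers_iff a (c : G)).1 ((hfin _).mem_powers_iff_mem_zpowers.2 ha)
        exact hstep j)
    have hdR' : d ∈ R := by
      refine ⟨hdQ1, fun h hh w _ => ?_⟩
      have h8 : d * h = h * d := h2 d hdQ1 (Subgroup.mem_centralizer_iff.1 hdC x₀ h4) h hh
      rw [← rho_mul, ← rho_mul, h8]
    have h9 : (g : G) = d * ((g : G)⁻¹ * d)⁻¹ := by group
    rw [h9]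
    exact R.mul_mem hdR' (R.inv_mem hdR)
  have hQ'K : (Nat.card Q' : K) ≠ 0 := by rw [hQ'card]; exact hQK
  have hNK : ((p ^ r : ℕ) : K) ≠ 0 := by rw [Nat.cast_pow]; exact pow_ne_zero _ hpK
  have hd2 : 2 ≤ finrank K U₂ := by
    by_contra hcon
    push Not at hcon
    have hd1 : finrank K U₂ = 1 := by
      have : 0 < finrank K U₂ := by
        haveI := hIrr.nt
        exact Module.finrank_pos
      omega
    apply hg₀R
    rw [← hscalR ⟨g₀, hQP hg₀⟩]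
    refine ⟨hg₀, ?_⟩
    obtain ⟨v, hv, hv2⟩ := finrank_eq_one_iff'.1 hd1
    obtain ⟨a, ha⟩ := hv2 (ρ' ⟨g₀, hQP hg₀⟩ v)
    refine ⟨a, ?_⟩
    apply LinearMap.ext
    intro w
    obtain ⟨d, rfl⟩ := hv2 w
    rw [map_smul, ← ha, LinearMap.smul_apply, Module.End.one_apply, smul_comm]
  by_cases hall : ∀ z : K, z ^ p ^ r = 1 → ∃ u : U₂, u ≠ 0 ∧ ρ' ⟨y₂, hy₂P⟩ u = z • u
  · left
    intro z hz
    have hz0 : z ≠ 0 := by
      rintro rfl
      rw [zero_pow (pow_pos hpp.pos _).ne'] at hz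
      exact zero_ne_one hz
    obtain ⟨u, hu0, hu⟩ := hall (z ^ p ^ (k₁ + k₂)) (by
      rw [← pow_mul, ← pow_add, show k₁ + k₂ + r = n by omega, hz])
    apply hlift z hz0 u u.2 (fun h => hu0 (Subtype.ext h))
    have := congrArg Subtype.val hu
    exact this
  · right
    push Not at hall
    obtain ⟨z, hz, hzn⟩ := hall
    obtain ⟨hdim, hmult⟩ := crit_missing hIrr hQ'K hcl' hoy hNK hnorm' hfree' hd2 hz (by
      intro v hv
      by_contra hv0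
      exact hzn v hv0 hv)
    have hirrQ : Irr (restr ρ Q U₂ (fun g hg => hPU g (hQP hg))) ⊤ := by
      refine ⟨(Submodule.nontrivial_iff_ne_bot).2 hU₂.ne, ?_⟩
      intro W hWinv
      rcases hirr (W.map U₂.subtype) (Submodule.map_subtype_le _ _) (by
        rintro g hg _ ⟨w, hw, rfl⟩
        exact ⟨_, hWinv ⟨g, hg⟩ (Subgroup.mem_top _) w hw, rfl⟩) with h4 | h4
      · exact Or.inl (hmapbot W h4)
      · exact Or.inr (hmaptop W h4)
    obtain ⟨b, hb⟩ := degree_of_qgroup (q := q) (Nat.card Q) Q rfl hQ U₂ _ hirrQ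
    rw [hdim] at hb
    have hb1 : 1 ≤ b := by
      by_contra hb0
      have hb0 : b = 0 := by omega
      rw [hb0, pow_zero] at hb
      omega
    refine ⟨k₁ + k₂, r, b, z, hr1, by omega, hb1, hb, ?_⟩
    intro w hw hwz
    have hw0 : w ≠ 0 := by
      rintro rfl
      rw [zero_pow (pow_pos hpp.pos _).ne'] at hw
      exact zero_ne_one hw
    have h4 := hmult (w ^ p ^ (k₁ + k₂)) (by
      rw [← pow_mul, ← pow_add, show k₁ + k₂ + r = n by omega, hw]) hwz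
    have h5 : Module.End.eigenspace (ρ' ⟨y₂, hy₂P⟩) (w ^ p ^ (k₁ + k₂)) ≠ ⊥ := by
      intro h6
      rw [h6, finrank_bot] at h4
      exact zero_ne_one h4
    obtain ⟨u, hu, hu0⟩ := (Submodule.ne_bot_iff _).1 h5
    rw [Module.End.mem_eigenspace_iff] at hu
    apply hlift w hw0 u u.2 (fun h => hu0 (Subtype.ext h))
    exact congrArg Subtype.val hu

end Cfsg.Agent.H62.GR
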