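import Mathlib
import Cfsg.Agent.H62.GR1

set_option autoImplicit false
set_option linter.style.haveILetI false
set_option linter.unusedSectionVars false

/-!
Two-elements with small commutator spaces on symplectic modules (helper62).
-/

namespace Cfsg.Agent.H62.GR

open Cfsg.Agent.HH Cfsg.Agent.H62.PQ Module
open scoped BigOperators commutatorElement TensorProduct

universe u v w

section bc

variable {F : Type w} [Field F] {M : Type v} [AddCommGroup M] [Module F M] [FiniteDimensional F M]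

theorem bc_form_nd' (ω : LinearMap.BilinForm F M) (hnd : ∀ y, (∀ x, ω x y = 0) → y = 0) :
    ∀ x : AlgebraicClosure F ⊗[F] M, (∀ y, ω.baseChange (AlgebraicClosure F) x y = 0) → x = 0 := by
  classical
  intro x hx
  let B := Module.finBasis F M
  have hinj : Function.Injective (LinearMap.flip ω : M →ₗ[F] M →ₗ[F] F) := by
    rw [injective_iff_map_eq_zero]
    intro m hm
    exact hnd m (fun y => by rw [← LinearMap.flip_apply, hm]; rfl)
  have hsurj : Function.Surjective (LinearMap.flip ω : M →ₗ[F] M →ₗ[F] F) := by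
    apply (LinearMap.injective_iff_surjective_of_finrank_eq_finrank _).1 hinj
    exact (Subspace.dual_finrank_eq).symm
  have hy : ∀ i, ∃ y, ∀ m, ω m y = B.coord i m := by
    intro i
    obtain ⟨y, hy⟩ := hsurj (B.coord i)
    exact ⟨y, fun m => by rw [← LinearMap.flip_apply, hy]⟩
  choose y hy using hy
  let BK := B.baseChange (AlgebraicClosure F)
  apply BK.ext_elem
  intro i
  rw [map_zero, Finsupp.zero_apply]
  have h1 := hx (1 ⊗ₜ[F] y i)
  rw [← BK.sum_repr x, map_sum, LinearMap.sum_apply, Finset.sum_eq_single i] at h1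
  · rw [map_smul, LinearMap.smul_apply, Module.Basis.baseChange_apply, LinearMap.BilinForm.baseChange_tmul, hy,
      Module.Basis.coord_apply, Module.Basis.repr_self, Finsupp.single_eq_same, one_smul, smul_eq_mul] at h1
    simpa using h1
  · intro j _ hj
    rw [map_smul, LinearMap.smul_apply, Module.Basis.baseChange_apply, LinearMap.BilinForm.baseChange_tmul, hy,
      Module.Basis.coord_apply, Module.Basis.repr_self, Finsupp.single_eq_of_ne (Ne.symm hj), zero_smul, smul_zero]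
  · intro h; exact absurd (Finset.mem_univ _) h

end bc

section lin

variable {K : Type w} [Field K] {V : Type v} [AddCommGroup V] [Module K V] {G : Type u} [Group G]
  {ρ : Representation K G V}

theorem eig_dual {g : G} {N : ℕ} (hN : 0 < N) (hNK : (N : K) ≠ 0) (hg : g ^ N = 1) (ω : LinearMap.BilinForm K V)
    (hω : ∀ g x y, ω (ρ g x) (ρ g y) = ω x y) (hnd : ∀ x, (∀ y, ω x y = 0) → x = 0) {z : K} {v : V} (hv0 : v ≠ 0)
    (hv : ρ g v = z • v) : ∃ w, w ≠ 0 ∧ ρ g w = z⁻¹ • w := by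
  have hpow : ∀ j : ℕ, ρ (g ^ j) v = z ^ j • v := by
    intro j
    induction j with
    | zero => simp
    | succ j ih => rw [pow_succ', rho_mul, ih, map_smul, hv, smul_smul, pow_succ]
  have hzN : z ^ N = 1 := by
    have h1 := hpow N
    rw [hg, map_one, Module.End.one_apply] at h1
    have h2 : (z ^ N - 1) • v = 0 := by rw [sub_smul, one_smul, ← h1, sub_self]
    rcases smul_eq_zero.1 h2 with h3 | h3
    · exact sub_eq_zero.1 h3
    · exact absurd h3 hv0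
  have hz0 : z ≠ 0 := by
    rintro rfl
    rw [zero_pow hN.ne'] at hzN
    exact zero_ne_one hzN
  have h1 : ∃ y, ω v y ≠ 0 := by
    by_contra hcon
    push Not at hcon
    exact hv0 (hnd v hcon)
  obtain ⟨y, hy⟩ := h1
  have hT : (ρ g) ^ N = 1 := by rw [← map_pow, hg, map_one]
  refine ⟨eproj (ρ g) N z⁻¹ y, ?_, ?_⟩
  · intro h0
    have h2 : ω v (eproj (ρ g) N z⁻¹ y) = ω v y := by
      rw [eproj, LinearMap.smul_apply, LinearMap.sum_apply, map_smul, map_sum,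
        Finset.sum_congr rfl (g := fun _ => ω v y), Finset.sum_const, Finset.card_range, nsmul_eq_mul, smul_eq_mul,
        ← mul_assoc, inv_mul_cancel₀ hNK, one_mul]
      intro j _
      have h3 : ω v (ρ (g ^ j) y) = ω (ρ (g ^ j)⁻¹ v) y := by
        rw [← hω (g ^ j) (ρ (g ^ j)⁻¹ v) y, rho_apply_inv]
      have h4 : ρ (g ^ j)⁻¹ v = (z ^ j)⁻¹ • v := by
        have h5 : v = (z ^ j)⁻¹ • ρ (g ^ j) v := by
          rw [hpow, smul_smul, inv_mul_cancel₀ (pow_ne_zero _ hz0), one_smul]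
        conv_lhs => rw [h5]
        rw [map_smul, rho_inv_apply]
      rw [LinearMap.smul_apply, map_smul, ← map_pow, h3, h4, map_smul, LinearMap.smul_apply, smul_smul, inv_inv,
        mul_inv_cancel₀ (pow_ne_zero _ hz0), one_smul]
    rw [h0, map_zero] at h2
    exact hy h2.symm
  · rw [← Module.End.mul_apply, T_mul_eproj _ hT hN (by rw [inv_pow, hzN, inv_one]), LinearMap.smul_apply]

theorem three_le [FiniteDimensional K V] (f : Module.End K V) {z₁ z₂ z₃ : K} (h12 : z₁ ≠ z₂) (h13 : z₁ ≠ z₃)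
    (h23 : z₂ ≠ z₃) {v₁ v₂ v₃ : V} (hv₁ : v₁ ≠ 0) (hv₂ : v₂ ≠ 0) (hv₃ : v₃ ≠ 0) (h₁ : f v₁ = z₁ • v₁)
    (h₂ : f v₂ = z₂ • v₂) (h₃ : f v₃ = z₃ • v₃) {E : Submodule K V} (e₁ : v₁ ∈ E) (e₂ : v₂ ∈ E) (e₃ : v₃ ∈ E) :
    3 ≤ finrank K E := by
  have hli : LinearIndependent K ![v₁, v₂, v₃] := by
    apply Module.End.eigenvectors_linearIndependent' f ![z₁, z₂, z₃]
    · intro i j hij
      fin_cases i <;> fin_cases j <;> simp_all
    · intro i
      fin_cases i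
      · exact ⟨Module.End.mem_eigenspace_iff.2 h₁, hv₁⟩
      · exact ⟨Module.End.mem_eigenspace_iff.2 h₂, hv₂⟩
      · exact ⟨Module.End.mem_eigenspace_iff.2 h₃, hv₃⟩
  have hli' : LinearIndependent K ![(⟨v₁, e₁⟩ : E), ⟨v₂, e₂⟩, ⟨v₃, e₃⟩] := by
    apply LinearIndependent.of_comp E.subtype
    have : (E.subtype ∘ ![(⟨v₁, e₁⟩ : E), ⟨v₂, e₂⟩, ⟨v₃, e₃⟩]) = ![v₁, v₂, v₃] := by
      funext i
      fin_cases i <;> rfl
    rw [this]
    exact hli
  have := hli'.fintype_card_le_finrank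
  simpa using this

end lin

section M1

variable {s t m : ℕ} [hs : Fact s.Prime] [ht : Fact t.Prime] {M : Type v} [AddCommGroup M] [Module (ZMod s) M]
  [Finite M] {L : Type u} [Group L] [Finite L] {σ : Representation (ZMod s) L M}

theorem neg_le (hs2 : s ≠ 2) {x : L} (hrk : finrank (ZMod s) (LinearMap.range (σ x - 1)) ≤ 2) :
    finrank (AlgebraicClosure (ZMod s)) (Module.End.eigenspace (bc (ZMod s) σ x) (-1)) ≤ 2 := by
  haveI : Module.Finite (ZMod s) M := Module.Finite.of_finite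
  have h1 := (finrank_range_bc σ x).trans hrk
  refine le_trans (Submodule.finrank_mono ?_) h1
  intro v hv
  rw [Module.End.mem_eigenspace_iff] at hv
  have h2 : (2 : AlgebraicClosure (ZMod s)) ≠ 0 := by
    have := cast_ne_zero_bc (ℓ := s) Nat.prime_two hs2
    exact_mod_cast this
  refine ⟨(-(2 : AlgebraicClosure (ZMod s))⁻¹) • v, ?_⟩
  rw [LinearMap.sub_apply, map_smul, hv, Module.End.one_apply, smul_smul, ← sub_smul]
  have h3 : (-(2 : AlgebraicClosure (ZMod s))⁻¹ * -1 - -2⁻¹) = 1 := by field_simp; norm_num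
  rw [h3, one_smul]

theorem m1 (hs2 : s ≠ 2) (ht2 : t ≠ 2) (hst : s ≠ t) (hinj : Function.Injective σ) {T : Subgroup L}
    (hT : IsPGroup t T) {x : L} (hx : orderOf x = 2 ^ m) (hm : 3 ≤ m) (hxT : x ∈ Subgroup.normalizer (T : Set L))
    (ω : LinearMap.BilinForm (ZMod s) M) (hω : ∀ g x y, ω (σ g x) (σ g y) = ω x y)
    (hnd : ∀ y, (∀ x, ω x y = 0) → y = 0)
    (hrk : finrank (ZMod s) (LinearMap.range (σ (x ^ 2 ^ (m - 1)) - 1)) ≤ 2) :
    ⁅T, Subgroup.zpowers (x ^ 2 ^ (m - 1))⁆ = ⊥ := by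
  classical
  haveI : Module.Finite (ZMod s) M := Module.Finite.of_finite
  haveI : Fact (Nat.Prime 2) := ⟨Nat.prime_two⟩
  by_contra hnt
  have hcop : (Nat.card T).Coprime 2 := by
    obtain ⟨k, hk⟩ := IsPGroup.iff_card.1 hT
    rw [hk]
    exact ((Nat.coprime_primes ht.out Nat.prime_two).2 ht2).pow_left k
  obtain ⟨q, hq, Q, hM⟩ := exists_minQ (p := 2) (n := m) T hcop hx hxT hnt
  have hqt : q = t := by
    haveI := hq
    obtain ⟨y, hy⟩ := Subgroup.ne_bot_iff_exists_ne_one.1 hM.nt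
    obtain ⟨k, hk⟩ := hM.isP y
    obtain ⟨k', hk'⟩ := (hT.to_le hM.le) y
    by_contra hne
    apply hy
    have h1 : orderOf y ∣ q ^ k := orderOf_dvd_of_pow_eq_one hk
    have h2 : orderOf y ∣ t ^ k' := orderOf_dvd_of_pow_eq_one hk'
    have h3 : Nat.Coprime (q ^ k) (t ^ k') := Nat.Coprime.pow _ _ ((Nat.coprime_primes hq.out ht.out).2 hne)
    exact orderOf_eq_one_iff.1 (Nat.dvd_one.1 (by rw [← h3]; exact Nat.dvd_gcd h1 h2))
  subst hqt
  set K := AlgebraicClosure (ZMod s) with hK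
  set ρ := bc (ZMod s) σ with hρ
  have hρinj : Function.Injective ρ := bc_injective (ZMod s) σ hinj
  have hqK : (q : K) ≠ 0 := cast_ne_zero_bc ht.out hst
  have h2K : ((2 : ℕ) : K) ≠ 0 := cast_ne_zero_bc Nat.prime_two hs2
  have hQK : (Nat.card Q : K) ≠ 0 := by
    obtain ⟨k, hk⟩ := IsPGroup.iff_card.1 hM.isP
    rw [hk, Nat.cast_pow]
    exact pow_ne_zero _ hqK
  obtain ⟨V', hV'0, hV'Q, hV'x, hV'fix⟩ := exists_nofix ρ Q hQK x
    (fun g hg => (Subgroup.mem_normalizer_iff.1 hM.norm g).1 hg)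
    (fun g hg => (Subgroup.mem_normalizer_iff''.1 hM.norm g).1 hg) (exists_ne_of_injective hρinj hM.nt)
  obtain ⟨W, hWV', hW⟩ := exists_irrOn ρ Q x hV'0 hV'Q hV'x
  have hcore := core_miss hM.ne hqK h2K hM.isP hx hM.norm hM.comm hM.cent hM.class2 hW (fun w hw => hV'fix w (hWV' hw))
  have hxN : x ^ 2 ^ m = 1 := by rw [← hx, pow_orderOf_eq_one]
  have hNK : ((2 ^ m : ℕ) : K) ≠ 0 := by rw [Nat.cast_pow]; exact pow_ne_zero _ h2K
  -- duality
  have hdual : ∀ z : K, (∃ v, v ≠ 0 ∧ ρ x v = z • v) → ∃ v, v ≠ 0 ∧ ρ x v = z⁻¹ • v := by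
    rintro z ⟨v, hv0, hv⟩
    exact eig_dual (by positivity) hNK hxN (ω.baseChange K) (bc_form_inv σ ω hω) (bc_form_nd' ω hnd) hv0 hv
  obtain ⟨e, rfl⟩ : ∃ e, m = e + 3 := ⟨m - 3, by omega⟩
  have hm1 : e + 3 - 1 = e + 2 := by omega
  rw [hm1] at hrk hnt
  -- all primitive roots are eigenvalues
  have hall : ∀ z : K, z ^ 2 ^ (e + 2) = -1 → ∃ v, v ≠ 0 ∧ ρ x v = z • v := by
    intro z hz
    have hneg : (-1 : K) ≠ 1 := by
      intro h
      apply h2K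
      have : ((2 : ℕ) : K) = 1 - -1 := by push_cast; ring
      rw [this, h, sub_self]
    have hzN : z ^ 2 ^ (e + 3) = 1 := by
      have : 2 ^ (e + 3) = 2 ^ (e + 2) * 2 := by ring
      rw [this, pow_mul, hz]; ring
    rcases hcore with h1 | ⟨k, n₀, b, z₀, hn₀, hk, hb, heq, h1⟩
    · obtain ⟨v, -, hv⟩ := h1 z hzN
      exact ⟨v, hv⟩
    · have hn₀2 : 2 ≤ n₀ := by
        by_contra hcon
        have h2 : n₀ = 1 := by omega
        rw [h2] at heq
        have h3 : (1 : ℕ) = q ^ b := heq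
        have h4 : q ∣ 1 := by rw [h3]; exact dvd_pow_self q (by omega)
        exact ht.out.one_lt.ne' (Nat.dvd_one.1 h4)
      by_cases hz0 : z ^ 2 ^ k = z₀
      · by_cases hz0' : (z⁻¹) ^ 2 ^ k = z₀
        · exfalso
          have hzne : z ≠ 0 := by
            rintro rfl
            rw [zero_pow (by positivity)] at hzN
            exact zero_ne_one hzN
          have h2 : z ^ 2 ^ (k + 1) = 1 := by
            have h3 : z ^ 2 ^ (k + 1) = z ^ 2 ^ k * z ^ 2 ^ k := by rw [← pow_add]; congr 1; ring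
            have h4 : z⁻¹ ^ 2 ^ k = z ^ 2 ^ k := hz0'.trans hz0.symm
            calc z ^ 2 ^ (k + 1) = z ^ 2 ^ k * z ^ 2 ^ k := h3
              _ = z⁻¹ ^ 2 ^ k * z ^ 2 ^ k := by rw [h4]
              _ = 1 := by rw [inv_pow, inv_mul_cancel₀ (pow_ne_zero _ hzne)]
          have h3 : z ^ 2 ^ (e + 2) = 1 := by
            obtain ⟨c, hc⟩ : ∃ c, e + 2 = k + 1 + c := ⟨e + 1 - k, by omega⟩
            rw [hc, pow_add, pow_mul, h2, one_pow]
          rw [hz] at h3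
          exact hneg h3
        · obtain ⟨v, -, hv0, hv⟩ := h1 z⁻¹ (by rw [inv_pow, hzN, inv_one]) hz0'
          have := hdual z⁻¹ ⟨v, hv0, hv⟩
          rwa [inv_inv] at this
      · obtain ⟨v, -, hv⟩ := h1 z hzN hz0
        exact ⟨v, hv⟩
  haveI : NeZero ((2 ^ (e + 3) : ℕ) : K) := ⟨hNK⟩
  obtain ⟨ζ, hζ⟩ := HasEnoughRootsOfUnity.exists_primitiveRoot K (2 ^ (e + 3))
  have hζ1 : ζ ^ 2 ^ (e + 2) = -1 := by
    have h1 : (ζ ^ 2 ^ (e + 2)) ^ 2 = 1 := by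
      rw [← pow_mul]
      have : 2 ^ (e + 2) * 2 = 2 ^ (e + 3) := by ring
      rw [this, hζ.pow_eq_one]
    rcases mul_self_eq_one_iff.1 ((sq _).symm.trans h1) with h2 | h2
    · exfalso
      exact hζ.pow_ne_one_of_pos_of_lt (by positivity) (Nat.pow_lt_pow_right (by norm_num) (by omega)) h2
    · exact h2
  have hodd : ∀ i : ℕ, (ζ ^ (2 * i + 1)) ^ 2 ^ (e + 2) = -1 := by
    intro i
    rw [← pow_mul, mul_comm, pow_mul, hζ1, pow_succ, pow_mul]
    norm_num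
  have h8 : 8 ≤ 2 ^ (e + 3) := by
    have : 2 ^ (e + 3) = 2 ^ e * 8 := by ring
    have h9 : 1 ≤ 2 ^ e := Nat.one_le_two_pow
    omega
  have hne : ∀ i j : ℕ, i < 8 → j < 8 → i ≠ j → ζ ^ i ≠ ζ ^ j := by
    intro i j hi hj hij h
    exact hij (hζ.pow_inj (by omega) (by omega) h)
  obtain ⟨v₁, hv₁0, hv₁⟩ := hall (ζ ^ 1) (hodd 0)
  obtain ⟨v₂, hv₂0, hv₂⟩ := hall (ζ ^ 3) (hodd 1)
  obtain ⟨v₃, hv₃0, hv₃⟩ := hall (ζ ^ 5) (hodd 2)
  have hmem : ∀ (z : K) (v : AlgebraicClosure (ZMod s) ⊗[ZMod s] M), z ^ 2 ^ (e + 2) = -1 → ρ x v = z • v →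
      v ∈ Module.End.eigenspace (ρ (x ^ 2 ^ (e + 2))) (-1) := by
    intro z v hz hv
    rw [Module.End.mem_eigenspace_iff, ← hz]
    have hpow : ∀ j : ℕ, ρ (x ^ j) v = z ^ j • v := by
      intro j
      induction j with
      | zero => simp
      | succ j ih => rw [pow_succ', rho_mul, ih, map_smul, hv, smul_smul, pow_succ]
    exact hpow _
  have h3 := three_le (ρ x) (hne 1 3 (by norm_num) (by norm_num) (by norm_num))
    (hne 1 5 (by norm_num) (by norm_num) (by norm_num)) (hne 3 5 (by norm_num) (by norm_num) (by norm_num))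
    hv₁0 hv₂0 hv₃0 hv₁ hv₂ hv₃ (hmem _ _ (hodd 0) hv₁) (hmem _ _ (hodd 1) hv₂) (hmem _ _ (hodd 2) hv₃)
  have h4 := neg_le hs2 hrk
  have h5 := h3.trans h4
  omega

end M1

section M2

variable {K : Type w} [Field K] {V : Type v} [AddCommGroup V] [Module K V] {G : Type u} [Group G]
  {ρ : Representation K G V}

theorem ne_inv_of {β : K} (hβ0 : β ≠ 0) (h1 : β * β ≠ 1) : β ≠ β⁻¹ := by
  intro h
  apply h1
  nth_rewrite 2 [h]
  exact mul_inv_cancel₀ hβ0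

theorem ne_inv_of' {β β' : K} (hβ0 : β' ≠ 0) (h1 : β * β' ≠ 1) : β ≠ β'⁻¹ := by
  intro h
  apply h1
  rw [h]
  exact inv_mul_cancel₀ hβ0

/-- two independent vectors in the `(-1)`-space -/
theorem two_le_of_pair [FiniteDimensional K V] {a x₀ : G} (hx₀ : x₀ * x₀ = 1) (hinv : x₀ * a * x₀⁻¹ = a⁻¹) {u u' : V}
    {β β' : K} (hu0 : u ≠ 0) (hu'0 : u' ≠ 0) (hu : ρ a u = β • u) (hu' : ρ a u' = β' • u') (hβ0 : β ≠ 0)
    (hβ'0 : β' ≠ 0) (h1 : β * β ≠ 1) (h2 : β' * β' ≠ 1) (h3 : β ≠ β') (h4 : β * β' ≠ 1) {W : Submodule K V}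
    (hW : ∀ w ∈ W, ρ x₀ w ∈ W) (huW : u ∈ W) (hu'W : u' ∈ W) :
    2 ≤ finrank K (Module.End.eigenspace (ρ x₀) (-1) ⊓ W : Submodule K V) := by
  have hxu : ∀ (y : V) (γ : K), γ ≠ 0 → ρ a y = γ • y → ρ a (ρ x₀ y) = γ⁻¹ • ρ x₀ y := by
    intro y γ hγ hy
    have h5 : a * x₀ = x₀ * a⁻¹ := by
      have h6 : x₀⁻¹ = x₀ := by rw [inv_eq_iff_mul_eq_one, hx₀]
      calc a * x₀ = (a⁻¹)⁻¹ * x₀ := by rw [inv_inv]
        _ = (x₀ * a * x₀⁻¹)⁻¹ * x₀ := by rw [hinv]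
        _ = x₀ * a⁻¹ * (x₀⁻¹ * x₀) := by group
        _ = x₀ * a⁻¹ := by group
    rw [← rho_mul, h5, rho_mul]
    have h7 : ρ a⁻¹ y = γ⁻¹ • y := by
      have h8 : y = γ⁻¹ • ρ a y := by rw [hy, smul_smul, inv_mul_cancel₀ hγ, one_smul]
      conv_lhs => rw [h8]
      rw [map_smul, rho_inv_apply]
    rw [h7, map_smul]
  have hx0 : ∀ y : V, y ≠ 0 → ρ x₀ y ≠ 0 := by
    intro y hy h0
    apply hy
    rw [← rho_inv_apply ρ x₀ y, h0, map_zero]
  have hxx : ∀ y : V, ρ x₀ (ρ x₀ y) = y := by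
    intro y
    rw [← rho_mul, hx₀, map_one, Module.End.one_apply]
  have e1 : β ≠ β⁻¹ := ne_inv_of hβ0 h1
  have e2 : β' ≠ β'⁻¹ := ne_inv_of hβ'0 h2
  have e3 : β ≠ β'⁻¹ := ne_inv_of' hβ'0 h4
  have e4 : β' ≠ β⁻¹ := ne_inv_of' hβ0 (by rw [mul_comm]; exact h4)
  have e5 : β⁻¹ ≠ β'⁻¹ := fun h => h3 (inv_injective h)
  have hli : LinearIndependent K ![u, ρ x₀ u, u', ρ x₀ u'] := by
    apply Module.End.eigenvectors_linearIndependent' (ρ a) ![β, β⁻¹, β', β'⁻¹]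
    · intro i j hij
      fin_cases i <;> fin_cases j <;>
        simp only [Fin.zero_eta, Fin.mk_one, Fin.reduceFinMk, Matrix.cons_val_zero, Matrix.cons_val_one,
          Matrix.cons_val, Matrix.cons_val_fin_one] at hij ⊢
      all_goals first
        | rfl
        | exact absurd hij e1 | exact absurd hij.symm e1 | exact absurd hij e2 | exact absurd hij.symm e2
        | exact absurd hij e3 | exact absurd hij.symm e3 | exact absurd hij e4 | exact absurd hij.symm e4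
        | exact absurd hij e5 | exact absurd hij.symm e5 | exact absurd hij h3 | exact absurd hij.symm h3
    · intro i
      fin_cases i
      · exact ⟨Module.End.mem_eigenspace_iff.2 hu, hu0⟩
      · exact ⟨Module.End.mem_eigenspace_iff.2 (hxu u β hβ0 hu), hx0 u hu0⟩
      · exact ⟨Module.End.mem_eigenspace_iff.2 hu', hu'0⟩
      · exact ⟨Module.End.mem_eigenspace_iff.2 (hxu u' β' hβ'0 hu'), hx0 u' hu'0⟩
  have hmem : ∀ y ∈ W, y - ρ x₀ y ∈ (Module.End.eigenspace (ρ x₀) (-1) ⊓ W : Submodule K V) := by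
    intro y hy
    refine Submodule.mem_inf.2 ⟨?_, W.sub_mem hy (hW y hy)⟩
    rw [Module.End.mem_eigenspace_iff, map_sub, hxx, neg_one_smul, neg_sub]
  have hli2 : LinearIndependent K ![(⟨u - ρ x₀ u, hmem u huW⟩ : (Module.End.eigenspace (ρ x₀) (-1) ⊓ W : Submodule K V)),
      ⟨u' - ρ x₀ u', hmem u' hu'W⟩] := by
    rw [LinearIndependent.pair_iff]
    intro c d hcd
    have h5 : c • (u - ρ x₀ u) + d • (u' - ρ x₀ u') = 0 := congrArg Subtype.val hcd
    rw [Fintype.linearIndependent_iff] at hli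
    have h6 := hli ![c, -c, d, -d] (by
      rw [Fin.sum_univ_four]
      simp only [Matrix.cons_val_zero, Matrix.cons_val_one, Matrix.cons_val]
      rw [← h5, smul_sub, smul_sub, neg_smul, neg_smul]
      abel)
    exact ⟨h6 0, h6 2⟩
  have := hli2.fintype_card_le_finrank
  simpa using this

theorem rad_closure {T Z : Subgroup G} {ν : G → K} (ZT : Z ≤ T) (hcen : ∀ z ∈ Z, ∀ g ∈ T, z * g = g * z)
    (hcomm : ∀ g ∈ T, ∀ h ∈ T, ⁅g, h⁆ ∈ Z) (hν : Mult Z ν) {X : Set G} (hX : X ⊆ T)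
    (hT : T ≤ Subgroup.closure X) (hone : ∀ a ∈ X, ∀ h ∈ T, ν ⁅h, a⁆ = 1) :
    ∀ a ∈ T, ∀ h ∈ T, ν ⁅h, a⁆ = 1 := by
  have hc : Subgroup.closure X ≤ T := (Subgroup.closure_le T).2 hX
  have key : ∀ a ∈ Subgroup.closure X, ∀ h ∈ T, ν ⁅h, a⁆ = 1 := by
    intro a ha
    induction ha using Subgroup.closure_induction with
    | mem a ha => exact hone a ha
    | one => intro h _; rw [commutatorElement_one_right, hν.one]
    | mul a b ha hb iha ihb =>
      intro h hh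
      have haT := hc ha
      have hbT := hc hb
      have h1 : ⁅h, a * b⁆ = ⁅h, a⁆ * (a * ⁅h, b⁆ * a⁻¹) := by simp only [commutatorElement_def]; group
      have h2 : a * ⁅h, b⁆ * a⁻¹ = ⁅h, b⁆ := by
        rw [← hcen _ (hcomm h hh b hbT) a haT, mul_inv_cancel_right]
      rw [h1, h2, hν.mul _ (hcomm h hh a haT) _ (hcomm h hh b hbT), iha h hh, ihb h hh, mul_one]
    | inv a ha iha =>
      intro h hh
      have haT := hc ha
      have h1 : ⁅h, a⁻¹⁆ = a⁻¹ * ⁅h, a⁆⁻¹ * a := by simp only [commutatorElement_def]; group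
      have h2 : a⁻¹ * ⁅h, a⁆⁻¹ * a = ⁅h, a⁆⁻¹ := by
        rw [← hcen _ (Z.inv_mem (hcomm h hh a haT)) a⁻¹ (T.inv_mem haT), inv_mul_cancel_right]
      rw [h1, h2, hν.inv (hcomm h hh a haT), iha h hh, inv_one]
  exact fun a ha => key a (hT ha)

theorem zpowers_two {x₀ : G} (hx₀ : x₀ * x₀ = 1) {c : G} (hc : c ∈ Subgroup.zpowers x₀) : c = 1 ∨ c = x₀ := by
  obtain ⟨k, rfl⟩ := Subgroup.mem_zpowers_iff.1 hc
  rcases Int.even_or_odd' k with ⟨j, rfl | rfl⟩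
  · left
    rw [zpow_mul, zpow_ofNat, sq, hx₀, one_zpow]
  · right
    rw [zpow_add, zpow_mul, zpow_ofNat, sq, hx₀, one_zpow, one_mul, zpow_one]

theorem two_in_E [IsAlgClosed K] [FiniteDimensional K V] {T : Subgroup G} {x₀ : G} (hx₀ : x₀ * x₀ = 1)
    (hxT : x₀ ∈ Subgroup.normalizer (T : Set G)) (hTx : ⁅T, Subgroup.zpowers x₀⁆ = T)
    (hcen : ∀ z ∈ ⁅T, T⁆, ∀ g ∈ T, z * g = g * z) (hxZ : ∀ z ∈ ⁅T, T⁆, z * x₀ = x₀ * z) {t : ℕ} (htp : t.Prime)
    (ht5 : 5 ≤ t) (hTt : IsPGroup t T) {ν : G → K} (hne : wsp ρ ⁅T, T⁆ ν ≠ ⊥) (hnt : ∃ z ∈ ⁅T, T⁆, ν z ≠ 1) :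
    2 ≤ finrank K (Module.End.eigenspace (ρ x₀) (-1) ⊓ wsp ρ ⁅T, T⁆ ν : Submodule K V) := by
  have hZT : ⁅T, T⁆ ≤ T := Subgroup.commutator_le.2 (fun a ha b hb => by
    rw [commutatorElement_def]
    exact T.mul_mem (T.mul_mem (T.mul_mem ha hb) (T.inv_mem ha)) (T.inv_mem hb))
  have hν := mult_of_ne hne
  have hcomm : ∀ g ∈ T, ∀ h ∈ T, ⁅g, h⁆ ∈ ⁅T, T⁆ := fun g hg h hh => Subgroup.commutator_mem_commutator hg hh
  have hinv : ∀ y : G, x₀ * ⁅y, x₀⁆ * x₀⁻¹ = ⁅y, x₀⁆⁻¹ := by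
    intro y
    have h6 : x₀⁻¹ = x₀ := by rw [inv_eq_iff_mul_eq_one, hx₀]
    rw [commutatorElement_def, mul_inv_rev, mul_inv_rev, mul_inv_rev, inv_inv, inv_inv, h6]
    calc x₀ * (y * x₀ * y⁻¹ * x₀) * x₀ = x₀ * y * x₀ * y⁻¹ * (x₀ * x₀) := by group
      _ = x₀ * (y * (x₀ * y⁻¹)) := by rw [hx₀]; group
  have hyT : ∀ y ∈ T, ⁅y, x₀⁆ ∈ T := by
    intro y hy
    rw [commutatorElement_def, mul_assoc, mul_assoc]
    refine T.mul_mem hy ?_
    rw [← mul_assoc]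
    exact (Subgroup.mem_normalizer_iff.1 hxT _).1 (T.inv_mem hy)
  -- a good pair
  obtain ⟨y, hy, h, hh, hθ⟩ : ∃ y ∈ T, ∃ h ∈ T, ν ⁅h⁻¹, ⁅y, x₀⁆⁆ ≠ 1 := by
    by_contra hcon
    push Not at hcon
    have h1 : ∀ a ∈ T, ∀ h ∈ T, ν ⁅h, a⁆ = 1 := by
      apply rad_closure hZT hcen hcomm hν (X := {a | ∃ y ∈ T, a = ⁅y, x₀⁆})
      · rintro a ⟨y, hy, rfl⟩
        exact hyT y hy
      · conv_lhs => rw [← hTx]
        rw [Subgroup.commutator_le]
        intro y hy c hc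
        rcases zpowers_two hx₀ hc with rfl | rfl
        · rw [commutatorElement_one_right]; exact Subgroup.one_mem _
        · exact Subgroup.subset_closure ⟨y, hy, rfl⟩
      · rintro a ⟨y, hy, rfl⟩ h hh
        have := hcon y hy h⁻¹ (T.inv_mem hh)
        rwa [inv_inv] at this
    obtain ⟨z, hz, hz1⟩ := hnt
    apply hz1
    have h2 : ∀ z ∈ ⁅T, T⁆, z ∈ ⁅T, T⁆ ∧ ν z = 1 := by
      intro z hz
      have h3 : ⁅T, T⁆ ≤ ({ carrier := {z | z ∈ ⁅T, T⁆ ∧ ν z = 1}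
                            one_mem' := ⟨Subgroup.one_mem _, hν.one⟩
                            mul_mem' := fun {a b} ha hb =>
                              ⟨Subgroup.mul_mem _ ha.1 hb.1, by rw [hν.mul _ ha.1 _ hb.1, ha.2, hb.2, mul_one]⟩
                            inv_mem' := fun {a} ha =>
                              ⟨Subgroup.inv_mem _ ha.1, by rw [hν.inv ha.1, ha.2, inv_one]⟩ } : Subgroup G) := by
        rw [Subgroup.commutator_le]
        intro a ha b hb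
        exact ⟨hcomm a ha b hb, h1 b hb a ha⟩
      exact h3 hz
    exact (h2 z hz).2
  set a := ⁅y, x₀⁆ with ha
  have haT : a ∈ T := hyT y hy
  set θ := ν ⁅h⁻¹, a⁆ with hθd
  have hcZ : ⁅h⁻¹, a⁆ ∈ ⁅T, T⁆ := hcomm _ (T.inv_mem hh) _ haT
  have hθ0 : θ ≠ 0 := hν.ne_zero hcZ
  -- the order of θ
  have hord : ∀ j : ℕ, 0 < j → j < 5 → θ ^ j ≠ 1 := by
    intro j hj0 hj5 hj
    obtain ⟨k, hk⟩ := hTt ⟨_, hZT hcZ⟩
    have h1 : (⁅h⁻¹, a⁆) ^ t ^ k = 1 := congrArg Subtype.val hk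
    have h2 : θ ^ t ^ k = 1 := by rw [hθd, ← hν.pow hcZ, h1, hν.one]
    have h3 : Nat.Coprime j (t ^ k) := by
      apply Nat.Coprime.pow_right
      rw [Nat.coprime_comm, htp.coprime_iff_not_dvd]
      intro h4
      have := Nat.le_of_dvd hj0 h4
      omega
    apply hθ
    have h4 : orderOf θ ∣ 1 := by
      rw [← h3]
      exact Nat.dvd_gcd (orderOf_dvd_of_pow_eq_one hj) (orderOf_dvd_of_pow_eq_one h2)
    exact orderOf_eq_one_iff.1 (Nat.dvd_one.1 h4)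
  -- invariance
  have hWT : ∀ g ∈ T, ∀ w ∈ wsp ρ ⁅T, T⁆ ν, ρ g w ∈ wsp ρ ⁅T, T⁆ ν := by
    intro g hg w hw z hz
    rw [← rho_mul, hcen z hz g hg, rho_mul, hw z hz, map_smul]
  have hWx : ∀ w ∈ wsp ρ ⁅T, T⁆ ν, ρ x₀ w ∈ wsp ρ ⁅T, T⁆ ν := by
    intro w hw z hz
    rw [← rho_mul, hxZ z hz, rho_mul, hw z hz, map_smul]
  -- an eigenvector
  obtain ⟨u, huW, hu0, α, hu⟩ : ∃ u ∈ wsp ρ ⁅T, T⁆ ν, u ≠ 0 ∧ ∃ α : K, ρ a u = α • u := by
    haveI : Nontrivial (wsp ρ ⁅T, T⁆ ν) := Submodule.nontrivial_iff_ne_bot.2 hne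
    obtain ⟨α, hα⟩ := Module.End.exists_eigenvalue ((ρ a).restrict (fun w hw => hWT a haT w hw))
    obtain ⟨u, hu⟩ := hα.exists_hasEigenvector
    refine ⟨u, u.2, fun h0 => hu.2 (Subtype.ext h0), α, ?_⟩
    have := congrArg Subtype.val hu.apply_eq_smul
    exact this
  have hα0 : α ≠ 0 := by
    rintro rfl
    rw [zero_smul] at hu
    apply hu0
    rw [← rho_inv_apply ρ a u, hu, map_zero]
  have hseq : ∀ j : ℕ, ∃ w ∈ wsp ρ ⁅T, T⁆ ν, w ≠ 0 ∧ ρ a w = (α * θ ^ j) • w := by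
    intro j
    induction j with
    | zero => exact ⟨u, huW, hu0, by rw [pow_zero, mul_one, hu]⟩
    | succ j ih =>
      obtain ⟨w, hwW, hw0, hw⟩ := ih
      refine ⟨ρ h w, hWT h hh w hwW, ?_, ?_⟩
      · intro h0
        apply hw0
        rw [← rho_inv_apply ρ h w, h0, map_zero]
      · have h1 : a * h = h * (⁅h⁻¹, a⁆ * a) := by simp only [commutatorElement_def]; group
        rw [← rho_mul, h1, rho_mul, rho_mul, hw, map_smul, map_smul, hwW _ hcZ, map_smul, smul_smul, ← hθd]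
        congr 1
        ring
  have hfin : ∀ i : ℕ, α * α * θ ^ (2 * i) ≠ 1 → α * α * θ ^ (2 * i + 1) ≠ 1 → α * α * θ ^ (2 * i + 2) ≠ 1 →
      2 ≤ finrank K (Module.End.eigenspace (ρ x₀) (-1) ⊓ wsp ρ ⁅T, T⁆ ν : Submodule K V) := by
    intro i h1 h2 h3
    obtain ⟨w, hwW, hw0, hw⟩ := hseq i
    obtain ⟨w', hw'W, hw'0, hw'⟩ := hseq (i + 1)
    refine two_le_of_pair hx₀ (hinv y) hw0 hw'0 hw hw' (mul_ne_zero hα0 (pow_ne_zero _ hθ0))
      (mul_ne_zero hα0 (pow_ne_zero _ hθ0)) ?_ ?_ ?_ ?_ hWx hwW hw'W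
    · intro h; apply h1; rw [← h]; ring
    · intro h; apply h3; rw [← h]; ring
    · intro h4
      apply hθ
      have h5 : α * θ ^ i * (θ - 1) = 0 := by
        have : α * θ ^ (i + 1) = α * θ ^ i * θ := by ring
        rw [this] at h4
        rw [mul_sub, mul_one, ← h4, sub_self]
      rcases mul_eq_zero.1 h5 with h6 | h6
      · exact absurd h6 (mul_ne_zero hα0 (pow_ne_zero _ hθ0))
      · exact sub_eq_zero.1 h6
    · intro h; apply h2; rw [← h]; ring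
  have hstep : ∀ i j : ℕ, 0 < j → j < 5 → α * α * θ ^ i = 1 → α * α * θ ^ (i + j) ≠ 1 := by
    intro i j hj0 hj5 h1 h2
    apply hord j hj0 hj5
    rw [pow_add, ← mul_assoc, h1, one_mul] at h2
    exact h2
  by_cases h0 : α * α * θ ^ 0 = 1
  · exact hfin 1 (hstep 0 2 (by norm_num) (by norm_num) h0) (hstep 0 3 (by norm_num) (by norm_num) h0)
      (hstep 0 4 (by norm_num) (by norm_num) h0)
  by_cases h1 : α * α * θ ^ 1 = 1
  · exact hfin 1 (hstep 1 1 (by norm_num) (by norm_num) h1) (hstep 1 2 (by norm_num) (by norm_num) h1)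
      (hstep 1 3 (by norm_num) (by norm_num) h1)
  by_cases h2 : α * α * θ ^ 2 = 1
  · exact hfin 2 (hstep 2 2 (by norm_num) (by norm_num) h2) (hstep 2 3 (by norm_num) (by norm_num) h2)
      (hstep 2 4 (by norm_num) (by norm_num) h2)
  exact hfin 0 h0 h1 h2

end M2

section M2b

variable {s t : ℕ} [hs : Fact s.Prime] [ht : Fact t.Prime] {M : Type v} [AddCommGroup M] [Module (ZMod s) M]
  [Finite M] {L : Type u} [Group L] [Finite L] {σ : Representation (ZMod s) L M}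

theorem m2 (hs2 : s ≠ 2) (ht5 : 5 ≤ t) (hst : s ≠ t) (hinj : Function.Injective σ) {T : Subgroup L}
    (hT : IsPGroup t T) {x₀ : L} (hx₀ : x₀ * x₀ = 1) (hxT : x₀ ∈ Subgroup.normalizer (T : Set L))
    (hTx : ⁅T, Subgroup.zpowers x₀⁆ = T)
    (hcen : ∀ z ∈ ⁅T, T⁆, ∀ g ∈ T, z * g = g * z) (hxZ : ∀ z ∈ ⁅T, T⁆, z * x₀ = x₀ * z)
    (ω : LinearMap.BilinForm (ZMod s) M) (hω : ∀ g x y, ω (σ g x) (σ g y) = ω x y)
    (hnd : ∀ y, (∀ x, ω x y = 0) → y = 0)
    (hrk : finrank (ZMod s) (LinearMap.range (σ x₀ - 1)) ≤ 2) :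
    ⁅T, T⁆ = ⊥ := by
  classical
  haveI : Module.Finite (ZMod s) M := Module.Finite.of_finite
  by_contra hne
  set K := AlgebraicClosure (ZMod s) with hK
  set ρ := bc (ZMod s) σ with hρ
  have hρinj : Function.Injective ρ := bc_injective (ZMod s) σ hinj
  have htK : (t : K) ≠ 0 := cast_ne_zero_bc ht.out hst
  have hZT : ⁅T, T⁆ ≤ T := Subgroup.commutator_le.2 (fun a ha b hb => by
    rw [commutatorElement_def]
    exact T.mul_mem (T.mul_mem (T.mul_mem ha hb) (T.inv_mem ha)) (T.inv_mem hb))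
  have hZp : IsPGroup t ↥⁅T, T⁆ := hT.to_le hZT
  have hZK : (Nat.card ↥⁅T, T⁆ : K) ≠ 0 := by
    obtain ⟨k, hk⟩ := IsPGroup.iff_card.1 hZp
    rw [hk, Nat.cast_pow]
    exact pow_ne_zero _ htK
  obtain ⟨ν, hν0, z, hz, hz1⟩ := exists_weight ρ ⁅T, T⁆ (fun a ha b hb => hcen a ha b (hZT hb)) hZK
    (exists_ne_of_injective hρinj hne)
  have hν := mult_of_ne hν0
  have hν0' : wsp ρ ⁅T, T⁆ (fun z => ν z⁻¹) ≠ ⊥ :=
    wsp_dual hZK (ω.baseChange K) (bc_form_inv σ ω hω) (bc_form_nd' ω hnd) hν0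
  have h1 := two_in_E hx₀ hxT hTx hcen hxZ ht.out ht5 hT hν0 ⟨z, hz, hz1⟩
  have h2 := two_in_E hx₀ hxT hTx hcen hxZ ht.out ht5 hT hν0' ⟨z⁻¹, Subgroup.inv_mem _ hz, by rwa [inv_inv]⟩
  have hdis : Disjoint (Module.End.eigenspace (ρ x₀) (-1) ⊓ wsp ρ ⁅T, T⁆ ν)
      (Module.End.eigenspace (ρ x₀) (-1) ⊓ wsp ρ ⁅T, T⁆ (fun z => ν z⁻¹)) := by
    rw [Submodule.disjoint_def]
    rintro v ⟨-, hv⟩ ⟨-, hv'⟩
    by_contra hv0
    have h3 := hv z hz
    have h4 := hv' z hz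
    have h5' : ν z • v = ν z⁻¹ • v := h3.symm.trans h4
    have h5 : (ν z - ν z⁻¹) • v = 0 := (sub_smul (ν z) (ν z⁻¹) v).trans (sub_eq_zero.2 h5')
    have h6 : ν z = ν z⁻¹ := by
      rcases smul_eq_zero.1 h5 with h7 | h7
      · exact sub_eq_zero.1 h7
      · exact absurd h7 hv0
    have h7 : ν z ^ 2 = 1 := by
      rw [sq]
      nth_rewrite 1 [h6]
      exact hν.inv_mul hz
    obtain ⟨k, hk⟩ := hZp ⟨z, hz⟩
    have h8 : z ^ t ^ k = 1 := congrArg Subtype.val hk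
    have h9 : ν z ^ t ^ k = 1 := by rw [← hν.pow hz, h8, hν.one]
    have h10 : Nat.Coprime 2 (t ^ k) :=
      Nat.Coprime.pow_right _ ((Nat.coprime_primes Nat.prime_two ht.out).2 (by omega))
    apply hz1
    have h11 : orderOf (ν z) ∣ 1 := by
      rw [← h10]
      exact Nat.dvd_gcd (orderOf_dvd_of_pow_eq_one h7) (orderOf_dvd_of_pow_eq_one h9)
    exact orderOf_eq_one_iff.1 (Nat.dvd_one.1 h11)
  have h4 := Submodule.finrank_sup_add_finrank_inf_eq
    (Module.End.eigenspace (ρ x₀) (-1) ⊓ wsp ρ ⁅T, T⁆ ν)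
    (Module.End.eigenspace (ρ x₀) (-1) ⊓ wsp ρ ⁅T, T⁆ (fun z => ν z⁻¹))
  rw [hdis.eq_bot, finrank_bot, add_zero] at h4
  have h5 : finrank K ↥((Module.End.eigenspace (ρ x₀) (-1) ⊓ wsp ρ ⁅T, T⁆ ν) ⊔
      (Module.End.eigenspace (ρ x₀) (-1) ⊓ wsp ρ ⁅T, T⁆ (fun z => ν z⁻¹))) ≤
      finrank K (Module.End.eigenspace (ρ x₀) (-1)) :=
    Submodule.finrank_mono (sup_le inf_le_left inf_le_left)
  have h6 := neg_le hs2 hrk
  have h7 : finrank K (Module.End.eigenspace (ρ x₀) (-1)) ≤ 2 := h6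
  have h8 := (Nat.add_le_add h1 h2).trans (h4.symm.le.trans (h5.trans h7))
  omega

end M2b

end Cfsg.Agent.H62.GR
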