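import Mathlib
import Cfsg.Agent.H62.PQ8

set_option autoImplicit false
set_option linter.style.haveILetI false
set_option linter.unusedSectionVars false

/-!
The core theorem for non-abelian groups of order `pq` (helper62).
-/

namespace Cfsg.Agent.H62.PQ

open Cfsg.Agent.HH Module
open scoped commutatorElement BigOperators TensorProduct Pointwise

universe u v w

variable {Γ : Type u} [Group Γ] [Finite Γ] {K : Type w} [Field K]

/-- a weight stabilized by a coprime group without fixed points is trivial -/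
theorem weight_trivial {s : ℕ} (hs : s.Prime) {Z X : Subgroup Γ} {μ : Γ → K} (hμ : Mult Z μ) (hZ : IsPGroup s Z)
    (hX : (Nat.card X).Coprime s) (hXμ : X ≤ stabW Z μ) (hC : Z ⊓ Subgroup.centralizer (X : Set Γ) = ⊥) :
    ∀ z ∈ Z, μ z = 1 := by
  haveI : Fact s.Prime := ⟨hs⟩
  have hXZ : X ≤ Subgroup.normalizer (Z : Set Γ) := fun x hx => (hXμ hx).1
  have hsol : Group.IsSolvable Z := by
    haveI := hZ.isNilpotent
    exact inferInstance
  have h1 := Cop.commutator_sup_centralizer hXZ (Cop.coprime_card_of_isPGroup hZ hX) (Or.inr hsol)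
  rw [hC, sup_bot_eq] at h1
  let D : Subgroup Γ :=
    { carrier := {z | z ∈ Z ∧ μ z = 1}
      one_mem' := ⟨Z.one_mem, hμ.one⟩
      mul_mem' := by
        rintro a b ⟨ha, ha'⟩ ⟨hb, hb'⟩
        exact ⟨Z.mul_mem ha hb, by rw [hμ.mul a ha b hb, ha', hb', mul_one]⟩
      inv_mem' := by
        rintro a ⟨ha, ha'⟩
        exact ⟨Z.inv_mem ha, by rw [hμ.inv ha, ha', inv_one]⟩ }
  have h2 : ⁅Z, X⁆ ≤ D := by
    rw [Subgroup.commutator_le]
    intro z hz x hx
    have h3 : x * z⁻¹ * x⁻¹ ∈ Z := (Subgroup.mem_normalizer_iff.1 (hXZ hx) _).1 (Z.inv_mem hz)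
    have h4 : ⁅z, x⁆ = z * (x * z⁻¹ * x⁻¹) := by rw [commutatorElement_def]; group
    rw [h4]
    refine ⟨Z.mul_mem hz h3, ?_⟩
    have h5 := (hXμ hx).2 _ h3
    have h6 : x⁻¹ * (x * z⁻¹ * x⁻¹) * x = z⁻¹ := by group
    rw [hμ.mul z hz _ h3, ← h5, h6, mul_comm, hμ.inv_mul hz]
  intro z hz
  rw [← h1] at hz
  exact (h2 hz).2

variable {s t p q : ℕ} {S T P R A : Subgroup Γ}

namespace Cfg

variable (h : Cfg s t p q S T P R A)

include h

theorem copAs : (Nat.card A).Coprime s := by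
  rw [h.cardA]
  exact Nat.Coprime.mul_left ((Nat.coprime_primes h.hp h.hs).2 h.ps) ((Nat.coprime_primes h.hq h.hs).2 h.qs)

theorem normS (X : Subgroup Γ) : X ≤ Subgroup.normalizer (S : Set Γ) := by
  haveI := h.Sn
  rw [Subgroup.normalizer_eq_top]; exact le_top

/-- subgroups of `A` -/
theorem subgroups {B : Subgroup Γ} (hBA : B ≤ A) (hB1 : B ≠ ⊥) (hBne : B ≠ A) :
    B = P ∨ ∃ x ∈ P, B = R.map (MulAut.conj x).toMonoidHom := by
  have h1 : Nat.card B ∣ p * q := by rw [← h.cardA]; exact Subgroup.card_dvd_of_le hBA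
  have hcopPR : (Nat.card P).Coprime (Nat.card R) := by
    rw [h.hP, h.hR]; exact (Nat.coprime_primes h.hp h.hq).2 h.pq
  by_cases hqB : q ∣ Nat.card B
  · -- order `q`
    obtain ⟨c, hc⟩ := hqB
    have hcp : c ∣ p := by
      rw [hc, mul_comm p q] at h1
      exact Nat.dvd_of_mul_dvd_mul_left h.hq.pos h1
    rcases (Nat.dvd_prime h.hp).1 hcp with rfl | rfl
    · right
      have hBR : Nat.card B = Nat.card R := by rw [hc, mul_one, h.hR]
      have hs : Group.IsSolvable P := by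
        haveI : Fact (Nat.card P).Prime := ⟨by rw [h.hP]; exact h.hp⟩
        haveI := isCyclic_of_prime_card (α := P) (p := Nat.card P) rfl
        haveI := IsCyclic.commGroup (α := P)
        exact inferInstance
      obtain ⟨x, hx, hx'⟩ := Cop.sz_rel h.RP (by rw [h.sup]; exact hBA) hBR hcopPR (Or.inl hs)
      exact ⟨x, hx, hx'.symm⟩
    · exfalso
      apply hBne
      apply Subgroup.eq_of_le_of_card_ge hBA
      rw [h.cardA, hc, mul_comm]
  · left
    have h2 : Nat.card B ∣ p := (((Nat.Prime.coprime_iff_not_dvd h.hq).2 hqB).symm).dvd_of_dvd_mul_right h1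
    have h3 : Nat.card B = p := by
      rcases (Nat.dvd_prime h.hp).1 h2 with h3 | h3
      · exact absurd (Subgroup.eq_bot_of_card_eq _ h3) hB1
      · exact h3
    -- the image of `B` in `A / P` is trivial
    have h4 : B ≤ P := by
      have hBP : B ≤ Subgroup.normalizer (P : Set Γ) := hBA.trans h.AP
      have h5 : P.relIndex B ∣ Nat.card B := Subgroup.relIndex_dvd_card P B
      have h6 : P.relIndex (B ⊔ P) = P.relIndex B := Cop.relIndex_sup_eq hBP
      have h7 : P.relIndex (B ⊔ P) ∣ P.relIndex A := by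
        have h8 := Subgroup.relIndex_mul_relIndex P (B ⊔ P) A le_sup_right (sup_le hBA h.PA)
        exact ⟨_, h8.symm⟩
      have h8 : P.relIndex A = q := by
        have h9 := Subgroup.relIndex_mul_relIndex ⊥ P A bot_le h.PA
        rw [Subgroup.relIndex_bot_left, Subgroup.relIndex_bot_left, h.hP, h.cardA] at h9
        exact Nat.eq_of_mul_eq_mul_left h.hp.pos h9
      have h9 : P.relIndex B = 1 := by
        have h10 : P.relIndex B ∣ q := by rw [← h8, ← h6]; exact h7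
        have h11 : P.relIndex B ∣ p := by rw [← h3]; exact h5
        exact Nat.eq_one_of_dvd_coprimes ((Nat.coprime_primes h.hp h.hq).2 h.pq) h11 h10
      exact Subgroup.relIndex_eq_one.1 h9
    exact Subgroup.eq_of_le_of_card_ge h4 (by rw [h3, h.hP])

theorem conj {x : Γ} (hx : x ∈ P) : Cfg s t p q S T P (R.map (MulAut.conj x).toMonoidHom) A where
  Sn := h.Sn
  hS := h.hS
  hT := h.hT
  hP := h.hP
  hR := by
    rw [← h.hR]
    exact Nat.card_congr (R.equivMapOfInjective _ (MulAut.conj x).injective).toEquiv.symm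
  hp := h.hp
  hq := h.hq
  hs := h.hs
  ht := h.ht
  st := h.st
  ps := h.ps
  pt := h.pt
  qs := h.qs
  qt := h.qt
  pq := h.pq
  RP := by
    rintro _ ⟨r, hr, rfl⟩
    have hxP : x ∈ Subgroup.normalizer (P : Set Γ) := Subgroup.le_normalizer hx
    exact Subgroup.mul_mem _ (Subgroup.mul_mem _ hxP (h.RP hr)) (Subgroup.inv_mem _ hxP)
  AT := h.AT
  sup := by
    apply le_antisymm
    · apply sup_le h.PA
      rintro _ ⟨r, hr, rfl⟩
      exact A.mul_mem (A.mul_mem (h.PA hx) (h.RA hr)) (A.inv_mem (h.PA hx))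
    · rw [← h.sup]
      apply sup_le le_sup_left
      intro r hr
      have h1 : r = x⁻¹ * (x * r * x⁻¹) * x := by group
      rw [h1]
      exact Subgroup.mul_mem _ (Subgroup.mul_mem _ (Subgroup.inv_mem _ (Subgroup.mem_sup_left hx))
        (Subgroup.mem_sup_right ⟨r, hr, rfl⟩)) (Subgroup.mem_sup_left hx)
  PR := by
    rw [eq_bot_iff]
    rintro y ⟨hy, hyc⟩
    have h1 : x⁻¹ * y * x ∈ P ⊓ Subgroup.centralizer (R : Set Γ) := by
      refine ⟨P.mul_mem (P.mul_mem (P.inv_mem hx) hy) hx, Subgroup.mem_centralizer_iff.2 fun r hr => ?_⟩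
      have h2 : (x * r * x⁻¹) * y = y * (x * r * x⁻¹) :=
        Subgroup.mem_centralizer_iff.1 hyc _ ⟨r, hr, rfl⟩
      calc r * (x⁻¹ * y * x) = x⁻¹ * ((x * r * x⁻¹) * y) * x := by group
        _ = x⁻¹ * y * x * r := by rw [h2]; group
    rw [h.PR, Subgroup.mem_bot] at h1
    rw [Subgroup.mem_bot]
    have h2 : y = x * (x⁻¹ * y * x) * x⁻¹ := by group
    rw [h2, h1]
    group
  CS := h.CS
  CT := h.CT

variable {V : Type v} [AddCommGroup V] [Module K V] {ρ : Representation K Γ V}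

theorem stab_ne_bot (hA : ∀ v, (∀ a ∈ A, ρ a v = v) → v = 0) (hsK : (s : K) ≠ 0) (hpK : (p : K) ≠ 0)
    (hqK : (q : K) ≠ 0) {Z : Subgroup Γ} (hZS : Z ≤ S) (hAZ : A ≤ Subgroup.normalizer (Z : Set Γ)) {μ : Γ → K}
    (hμ : wsp ρ Z μ ≠ ⊥) {u : V} (hu : u ∈ wsp ρ Z μ) (hfix : ∀ a ∈ A ⊓ stabW Z μ, ρ a u = u) : u = 0 := by
  haveI : Fact s.Prime := ⟨h.hs⟩
  refine stab_fixed_eq_zero hAZ ?_ ?_ hA (mult_of_ne hμ) hu hfix
  · rw [h.cardA, Nat.cast_mul]
    exact mul_ne_zero hpK hqK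
  · obtain ⟨k, hk⟩ := IsPGroup.iff_card.1 (h.hS.to_le hZS)
    rw [hk, Nat.cast_pow]
    exact pow_ne_zero _ hsK

/-- a weight of a subgroup of `S` fixed by `A` is trivial -/
theorem weight_A {Z : Subgroup Γ} (hZS : Z ≤ S) {μ : Γ → K} (hμ : Mult Z μ) (hAμ : A ≤ stabW Z μ) :
    ∀ z ∈ Z, μ z = 1 := by
  apply weight_trivial h.hs hμ (h.hS.to_le hZS) h.copAs hAμ
  rw [eq_bot_iff, ← h.CS]
  exact inf_le_inf_right _ hZS

/-- the star property for both types of subgroups -/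
theorem star (hZn : (S ⊓ Subgroup.centralizer (T : Set Γ)).Normal)
    (hpow : ∀ x ∈ S, x ^ s ∈ S ⊓ Subgroup.centralizer (T : Set Γ))
    (hcomm : ∀ x ∈ S, ∀ y ∈ S, x * y * x⁻¹ * y⁻¹ ∈ S ⊓ Subgroup.centralizer (T : Set Γ)) {B : Subgroup Γ}
    (hBA : B ≤ A) (hB1 : B ≠ ⊥) (hBne : B ≠ A) :
    S ⊓ Subgroup.centralizer ((B ⊔ ⁅T, B⁆ : Subgroup Γ) : Set Γ) ≤ S ⊓ Subgroup.centralizer (T : Set Γ) := by
  rcases h.subgroups hBA hB1 hBne with rfl | ⟨x, hx, rfl⟩
  · exact h.starP hZn hpow hcomm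
  · exact (h.conj hx).starR hZn hpow hcomm

theorem prime_card {B : Subgroup Γ} (hBA : B ≤ A) (hB1 : B ≠ ⊥) (hBne : B ≠ A) :
    (Nat.card B).Prime ∧ (Nat.card B = p ∨ Nat.card B = q) := by
  rcases h.subgroups hBA hB1 hBne with rfl | ⟨x, hx, rfl⟩
  · exact ⟨by rw [h.hP]; exact h.hp, Or.inl h.hP⟩
  · exact ⟨by rw [(h.conj hx).hR]; exact h.hq, Or.inr (h.conj hx).hR⟩

/-- the elementary case -/
theorem el_false (hA : ∀ v, (∀ a ∈ A, ρ a v = v) → v = 0) (hsK : (s : K) ≠ 0) (hpK : (p : K) ≠ 0)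
    (hqK : (q : K) ≠ 0) (hcomm : ∀ x ∈ S, ∀ y ∈ S, x * y = y * x) (hpow : ∀ x ∈ S, x ^ s = 1)
    (hCT : S ⊓ Subgroup.centralizer (T : Set Γ) = ⊥) {μ : Γ → K} (hμ : wsp ρ S μ ≠ ⊥)
    (hnt : ∃ z ∈ S, μ z ≠ 1) : False := by
  classical
  haveI : Fact s.Prime := ⟨h.hs⟩
  haveI : Fact t.Prime := ⟨h.ht⟩
  have hSn := h.Sn
  have hμm := mult_of_ne hμ
  have htop : ∀ x : Γ, x ∈ Subgroup.normalizer (S : Set Γ) := fun x => by
    rw [Subgroup.normalizer_eq_top]; trivial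
  have hZn : (S ⊓ Subgroup.centralizer (T : Set Γ)).Normal := by rw [hCT]; infer_instance
  have hstar : ∀ B : Subgroup Γ, B ≤ A → B ≠ ⊥ → B ≠ A →
      S ⊓ Subgroup.centralizer ((B ⊔ ⁅T, B⁆ : Subgroup Γ) : Set Γ) ≤ ⊥ := by
    intro B hBA hB1 hBne
    rw [← hCT]
    exact h.star hZn (fun x hx => by rw [hpow x hx]; exact Subgroup.one_mem _) (fun x hx y hy => by
      rw [hcomm x hx y hy]
      have : y * x * x⁻¹ * y⁻¹ = 1 := by group
      rw [this]; exact Subgroup.one_mem _) hBA hB1 hBne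
  have hATmem : ∀ a ∈ A, ∀ τ ∈ T, a * τ * a⁻¹ ∈ T := fun a ha τ hτ =>
    (Subgroup.mem_normalizer_iff.1 (h.AT ha) τ).1 hτ
  have hATmem' : ∀ a ∈ A, ∀ τ ∈ T, a⁻¹ * τ * a ∈ T := fun a ha τ hτ =>
    (Subgroup.mem_normalizer_iff''.1 (h.AT ha) τ).1 hτ
  -- the stabilizer of the orbit
  let B : Subgroup Γ :=
    { carrier := {a | a ∈ A ∧ ∃ τ ∈ T, τ * a ∈ stabW S μ}
      one_mem' := ⟨A.one_mem, 1, T.one_mem, by rw [mul_one]; exact Subgroup.one_mem _⟩
      mul_mem' := by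
        rintro a b ⟨ha, τ, hτ, hτa⟩ ⟨hb, υ, hυ, hυb⟩
        refine ⟨A.mul_mem ha hb, τ * (a * υ * a⁻¹), T.mul_mem hτ (hATmem a ha υ hυ), ?_⟩
        have h1 : τ * (a * υ * a⁻¹) * (a * b) = (τ * a) * (υ * b) := by group
        rw [h1]
        exact Subgroup.mul_mem _ hτa hυb
      inv_mem' := by
        rintro a ⟨ha, τ, hτ, hτa⟩
        refine ⟨A.inv_mem ha, a⁻¹ * τ⁻¹ * a, hATmem' a ha _ (T.inv_mem hτ), ?_⟩
        have h1 : a⁻¹ * τ⁻¹ * a * a⁻¹ = (τ * a)⁻¹ := by group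
        rw [h1]
        exact Subgroup.inv_mem _ hτa }
  have hBA : B ≤ A := fun a ha => ha.1
  by_cases hBeq : B = A
  · -- Schur--Zassenhaus
    set X : Subgroup Γ := stabW S μ ⊓ (T ⊔ A) with hX
    have hXT : X ≤ Subgroup.normalizer (T : Set Γ) := inf_le_right.trans (sup_le Subgroup.le_normalizer h.AT)
    have hAX : X ⊔ T = A ⊔ T := by
      apply le_antisymm
      · exact sup_le (inf_le_right.trans (by rw [sup_comm])) le_sup_right
      · apply sup_le _ le_sup_right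
        intro a ha
        rw [← hBeq] at ha
        obtain ⟨ha', τ, hτ, hτa⟩ := ha
        have h1 : a = τ⁻¹ * (τ * a) := by group
        rw [h1]
        exact Subgroup.mul_mem _ (Subgroup.mem_sup_right (T.inv_mem hτ))
          (Subgroup.mem_sup_left ⟨hτa, Subgroup.mul_mem _ (Subgroup.mem_sup_left hτ) (Subgroup.mem_sup_right ha')⟩)
    have hrel : T.relIndex X = Nat.card A := by
      rw [← Cop.relIndex_sup_eq hXT, hAX, Cop.relIndex_sup_eq h.AT, ← Subgroup.inf_relIndex_right,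
        Cop.inf_eq_bot_of_coprime h.copT.symm, Subgroup.relIndex_bot_left]
    have hn : (T.subgroupOf X).Normal := Subgroup.normal_subgroupOf_of_le_normalizer hXT
    have hidx : (T.subgroupOf X).index = Nat.card A := hrel
    have hcardT : Nat.card (T.subgroupOf X) ∣ Nat.card T := by
      have h1 : Nat.card (T.subgroupOf X) = Nat.card ((T.subgroupOf X).map X.subtype) :=
        Nat.card_congr ((T.subgroupOf X).equivMapOfInjective _ X.subtype_injective).toEquiv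
      rw [h1, Subgroup.subgroupOf_map_subtype]
      exact Subgroup.card_dvd_of_le inf_le_left
    obtain ⟨C, hC⟩ := Subgroup.exists_right_complement'_of_coprime (N := T.subgroupOf X)
      (Nat.Coprime.coprime_dvd_left hcardT (by rw [hidx]; exact h.copT.symm))
    have hCcard : Nat.card (C.map X.subtype) = Nat.card A := by
      have h1 : Nat.card C = Nat.card (C.map X.subtype) :=
        Nat.card_congr (C.equivMapOfInjective _ X.subtype_injective).toEquiv
      rw [← h1, ← hidx]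
      exact hC.symm.index_eq_card.symm
    have hCX : C.map X.subtype ≤ X := Subgroup.map_subtype_le _
    obtain ⟨n, hn', hnA⟩ := Cop.sz_rel h.AT (B := C.map X.subtype) (hCX.trans inf_le_right) hCcard h.copT.symm
      (Or.inl h.solT)
    have hAs : A ≤ stabW S (fun z => μ ((n⁻¹)⁻¹ * z * n⁻¹)) := by
      intro a ha
      rw [mem_stabW_conj (htop n⁻¹)]
      have h1 : n⁻¹⁻¹ * a * n⁻¹ ∈ C.map X.subtype := by
        rw [← hnA, inv_inv]
        exact ⟨a, ha, rfl⟩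
      exact (hCX h1).1
    have h1 := h.weight_A le_rfl (hμm.conj (htop n⁻¹)) hAs
    obtain ⟨z, hz, hz1⟩ := hnt
    apply hz1
    have h2 := h1 (n⁻¹ * z * n) (by
      have := hSn.conj_mem z hz n⁻¹
      rwa [inv_inv] at this)
    have h3 : n⁻¹⁻¹ * (n⁻¹ * z * n) * n⁻¹ = z := by group
    rw [h3] at h2
    exact h2
  · -- all stabilizers coincide
    have hstabne : ∀ τ ∈ T, A ⊓ stabW S (fun z => μ (τ⁻¹ * z * τ)) ≠ ⊥ := by
      intro τ hτ hbot
      obtain ⟨u, hu, hu0⟩ := (Submodule.ne_bot_iff _).1 hμ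
      have h1 := wsp_move (htop τ) hu
      have h2 : ρ τ u ≠ 0 := by
        intro h3
        apply hu0
        rw [← rho_inv_apply ρ τ u, h3, map_zero]
      apply h2
      refine h.stab_ne_bot hA hsK hpK hqK le_rfl (h.normS A) (μ := fun z => μ (τ⁻¹ * z * τ)) ?_ h1 ?_
      · rw [Submodule.ne_bot_iff]
        exact ⟨_, h1, h2⟩
      · intro a ha
        rw [hbot, Subgroup.mem_bot] at ha
        rw [ha, map_one]; rfl
    have hstable : ∀ τ ∈ T, A ⊓ stabW S (fun z => μ (τ⁻¹ * z * τ)) ≤ B := by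
      rintro τ hτ a ⟨ha, ha''⟩
      have ha' := (mem_stabW_conj (htop τ)).1 ha''
      refine ⟨ha, τ⁻¹ * (a * τ * a⁻¹), T.mul_mem (T.inv_mem hτ) (hATmem a ha τ hτ), ?_⟩
      have h1 : τ⁻¹ * (a * τ * a⁻¹) * a = τ⁻¹ * a * τ := by group
      rw [h1]
      exact ha'
    have hB1 : B ≠ ⊥ := by
      intro hbot
      have h1 := hstable 1 T.one_mem
      rw [hbot, le_bot_iff] at h1
      exact hstabne 1 T.one_mem h1
    have hBp := (h.prime_card hBA hB1 hBeq).1
    have hBs : ∀ τ ∈ T, ∀ β ∈ B, τ⁻¹ * β * τ ∈ stabW S μ := by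
      intro τ hτ β hβ
      obtain ⟨a, ha⟩ := Subgroup.ne_bot_iff_exists_ne_one.1 (hstabne τ hτ)
      have h1 : B ≤ A ⊓ stabW S (fun z => μ (τ⁻¹ * z * τ)) :=
        le_of_prime_card hBp (hstable τ hτ a.2) a.2 (fun h => ha (Subtype.ext h))
      exact (mem_stabW_conj (htop τ)).1 (h1 hβ).2
    have hBs1 : ∀ β ∈ B, β ∈ stabW S μ := by
      intro β hβ
      have := hBs 1 T.one_mem β hβ
      rwa [inv_one, one_mul, mul_one] at this
    have hXs : (B ⊔ ⁅T, B⁆ : Subgroup Γ) ≤ stabW S μ := by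
      apply sup_le hBs1
      rw [Subgroup.commutator_le]
      intro τ hτ β hβ
      have h1 := hBs τ⁻¹ (T.inv_mem hτ) β hβ
      rw [inv_inv] at h1
      rw [commutatorElement_def]
      exact Subgroup.mul_mem _ h1 (Subgroup.inv_mem _ (hBs1 β hβ))
    have hXle : (B ⊔ ⁅T, B⁆ : Subgroup Γ) ≤ T ⊔ A :=
      sup_le (hBA.trans le_sup_right)
        ((Subgroup.le_normalizer_iff_commutator_le_left.1 (hBA.trans h.AT)).trans le_sup_left)
    have hXc : (Nat.card (B ⊔ ⁅T, B⁆ : Subgroup Γ)).Coprime s := by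
      apply Nat.Coprime.coprime_dvd_left (Subgroup.card_dvd_of_le hXle)
      rw [card_sup_coprime h.AT h.copT.symm]
      exact Nat.Coprime.mul_left h.copTs h.copAs
    obtain ⟨z, hz, hz1⟩ := hnt
    exact hz1 (weight_trivial h.hs hμm h.hS hXc hXs (le_bot_iff.1 (hstar B hBA hB1 hBeq)) z hz)

/-- the special case -/
theorem sp_false [FiniteDimensional K V] [IsAlgClosed K] (hA : ∀ v, (∀ a ∈ A, ρ a v = v) → v = 0)
    (hsK : (s : K) ≠ 0) (hpK : (p : K) ≠ 0)
    (hqK : (q : K) ≠ 0) (hST : ⁅S, T⁆ = S) (hZn : (S ⊓ Subgroup.centralizer (T : Set Γ)).Normal)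
    (hpow : ∀ x ∈ S, x ^ s ∈ S ⊓ Subgroup.centralizer (T : Set Γ))
    (hcomm : ∀ x ∈ S, ∀ y ∈ S, ⁅x, y⁆ ∈ S ⊓ Subgroup.centralizer (T : Set Γ))
    (hcen : ∀ z ∈ S ⊓ Subgroup.centralizer (T : Set Γ), ∀ g ∈ S, z * g = g * z)
    (hgen : S ⊓ Subgroup.centralizer (T : Set Γ) ≤ ⁅S, S⁆)
    {μ : Γ → K} (hμ : wsp ρ (S ⊓ Subgroup.centralizer (T : Set Γ)) μ ≠ ⊥)
    (hnt : ∃ z ∈ S ⊓ Subgroup.centralizer (T : Set Γ), μ z ≠ 1) : False := by
  classical
  haveI : Fact s.Prime := ⟨h.hs⟩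
  haveI : Fact t.Prime := ⟨h.ht⟩
  set Z : Subgroup Γ := S ⊓ Subgroup.centralizer (T : Set Γ) with hZ
  have hZS : Z ≤ S := inf_le_left
  have hμm := mult_of_ne hμ
  have htop : ∀ x : Γ, x ∈ Subgroup.normalizer (Z : Set Γ) := fun x => by
    rw [Subgroup.normalizer_eq_top]; trivial
  have hAZ : A ≤ Subgroup.normalizer (Z : Set Γ) := fun x _ => htop x
  set B : Subgroup Γ := A ⊓ stabW Z μ with hB
  have hBA : B ≤ A := inf_le_left
  have hfix : ∀ w ∈ wsp ρ Z μ, (∀ β ∈ B, ρ β w = w) → w = 0 := fun w hw hwB =>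
    h.stab_ne_bot hA hsK hpK hqK hZS hAZ hμ hw hwB
  have hB1 : B ≠ ⊥ := by
    intro hbot
    obtain ⟨u, hu, hu0⟩ := (Submodule.ne_bot_iff _).1 hμ
    apply hu0
    apply hfix u hu
    intro a ha
    rw [hbot, Subgroup.mem_bot] at ha
    rw [ha, map_one]; rfl
  have hBne : B ≠ A := by
    intro hBA'
    obtain ⟨z, hz, hz1⟩ := hnt
    apply hz1
    apply h.weight_A hZS hμm ?_ z hz
    rw [← hBA']
    exact inf_le_right
  obtain ⟨hBp, hBpq⟩ := h.prime_card hBA hB1 hBne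
  haveI : Fact (Nat.card B).Prime := ⟨hBp⟩
  obtain ⟨b, hbB, hbo, hbz⟩ := exists_zpowers_of_card_prime (H := B) rfl
  have hBs : Nat.card B ≠ s := by
    rcases hBpq with h1 | h1 <;> rw [h1]
    · exact h.ps
    · exact h.qs
  have hBt : t ≠ Nat.card B := by
    rcases hBpq with h1 | h1 <;> rw [h1]
    · exact Ne.symm h.pt
    · exact Ne.symm h.qt
  have hBK : (Nat.card B : K) ≠ 0 := by
    rcases hBpq with h1 | h1 <;> rw [h1]
    · exact hpK
    · exact hqK
  have c2 : C2 S Z μ := ⟨h.Sn, hZS, hcen, hcomm, hμm⟩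
  have d : Sp s t (Nat.card B) S T B Z b μ :=
    { c2 := c2
      Zn := hZn
      hs := h.hs
      ht := h.ht
      hr := hBp
      st := h.st
      rs := hBs
      tr := hBt
      hS := h.hS
      hT := h.hT
      pow := hpow
      TZ := by
        intro τ hτ
        refine ⟨htop τ, fun z hz => ?_⟩
        have h1 : τ * z = z * τ := Subgroup.mem_centralizer_iff.1 hz.2 τ hτ
        rw [mul_assoc, ← h1, inv_mul_cancel_left]
      BT := hBA.trans h.AT
      Bc := rfl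
      bB := hbB
      bo := hbo
      Bz := hbz
      Bμ := inf_le_right
      star := h.star hZn hpow (fun x hx y hy => hcomm x hx y hy) hBA hB1 hBne
      ST := hST
      nrad := by
        intro hall
        let D : Subgroup Γ :=
          { carrier := {z | z ∈ Z ∧ μ z = 1}
            one_mem' := ⟨Z.one_mem, hμm.one⟩
            mul_mem' := by
              rintro a b ⟨ha, ha'⟩ ⟨hb, hb'⟩
              exact ⟨Z.mul_mem ha hb, by rw [hμm.mul a ha b hb, ha', hb', mul_one]⟩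
            inv_mem' := by
              rintro a ⟨ha, ha'⟩
              exact ⟨Z.inv_mem ha, by rw [hμm.inv ha, ha', inv_one]⟩ }
        have h1 : ⁅S, S⁆ ≤ D := by
          rw [Subgroup.commutator_le]
          intro x hx y hy
          exact ⟨hcomm x hx y hy, hall x hx y hy⟩
        obtain ⟨z, hz, hz1⟩ := hnt
        exact hz1 (h1 (hgen hz)).2 }
  exact d.false hμ hsK hBK hfix

/-- **The core theorem.** -/
theorem false_of_inj [FiniteDimensional K V] [IsAlgClosed K] (hA : ∀ v, (∀ a ∈ A, ρ a v = v) → v = 0)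
    (hsK : (s : K) ≠ 0) (hpK : (p : K) ≠ 0) (hqK : (q : K) ≠ 0) (hinj : ∀ g ∈ S, ρ g = 1 → g = 1)
    (hnt : ⁅S, T⁆ ≠ ⊥) (hmin : ∀ U : Subgroup Γ, U < S → T ⊔ A ≤ Subgroup.normalizer (U : Set Γ) → ⁅U, T⁆ = ⊥) :
    False := by
  classical
  haveI : Fact s.Prime := ⟨h.hs⟩
  haveI : Fact t.Prime := ⟨h.ht⟩
  have hSn := h.Sn
  have hTn : T ⊔ A ≤ Subgroup.normalizer (T : Set Γ) := sup_le Subgroup.le_normalizer h.AT
  have hST := Cop.min_commutator_eq h.hS (h.normS (T ⊔ A)) le_sup_left hTn h.copTs hnt hmin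
  have hwt : ∀ Z : Subgroup Γ, Z ≤ S → (∀ a ∈ Z, ∀ b ∈ Z, a * b = b * a) → Z ≠ ⊥ →
      ∃ μ : Γ → K, wsp ρ Z μ ≠ ⊥ ∧ ∃ z ∈ Z, μ z ≠ 1 := by
    intro Z hZS hZc hZ1
    apply exists_weight ρ Z hZc
    · obtain ⟨k, hk⟩ := IsPGroup.iff_card.1 (h.hS.to_le hZS)
      rw [hk, Nat.cast_pow]
      exact pow_ne_zero _ hsK
    · obtain ⟨g, hg⟩ := Subgroup.ne_bot_iff_exists_ne_one.1 hZ1
      exact ⟨g, g.2, fun h0 => hg (Subtype.ext (hinj g (hZS g.2) h0))⟩
  rcases Cop.min_structure h.hS (h.normS (T ⊔ A)) le_sup_left hTn h.copTs hnt hmin with ⟨h1, h2⟩ | ⟨h1, h2, h3⟩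
  · have hc : ∀ x ∈ S, ∀ y ∈ S, x * y = y * x := fun x hx y hy =>
      congrArg Subtype.val (h1.1.1.1 ⟨x, hx⟩ ⟨y, hy⟩)
    have hS1 : S ≠ ⊥ := by
      rintro rfl
      exact hnt (Subgroup.commutator_bot_left _)
    obtain ⟨μ, hμ, hμ1⟩ := hwt S le_rfl hc hS1
    exact h.el_false hA hsK hpK hqK hc h1.2 h2 hμ hμ1
  · have hZeq : S ⊓ Subgroup.centralizer (T : Set Γ) = (Subgroup.center S).map S.subtype := h3.symm
    have hcen : ∀ z ∈ S ⊓ Subgroup.centralizer (T : Set Γ), ∀ g ∈ S, z * g = g * z := by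
      intro z hz g hg
      rw [hZeq] at hz
      obtain ⟨z, hz, rfl⟩ := hz
      exact (congrArg Subtype.val (Subgroup.mem_center_iff.1 hz ⟨g, hg⟩)).symm
    have hcommS : ⁅S, S⁆ = S ⊓ Subgroup.centralizer (T : Set Γ) := by
      rw [hZeq, ← h1.2.2, commutator_def, Subgroup.map_commutator, ← MonoidHom.range_eq_map, Subgroup.range_subtype]
    have hZ1 : S ⊓ Subgroup.centralizer (T : Set Γ) ≠ ⊥ := by
      intro hbot
      apply h2
      rw [hbot, Subgroup.commutator_eq_bot_iff_le_centralizer] at hcommS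
      exact ⟨⟨fun x y => Subtype.ext (Subgroup.mem_centralizer_iff.1 (hcommS y.2) x x.2)⟩⟩
    obtain ⟨μ, hμ, hμ1⟩ := hwt _ inf_le_left (fun a ha b hb => hcen a ha b hb.1) hZ1
    refine h.sp_false hA hsK hpK hqK hST ?_ ?_ ?_ hcen hcommS.ge hμ hμ1
    · rw [hZeq]
      infer_instance
    · intro x hx
      rw [hZeq, ← h1.2.1]
      exact ⟨⟨x, hx⟩ ^ s, Solv.pow_mem_frattini_of_pGroup h.hS _, rfl⟩
    · intro x hx y hy
      rw [← hcommS]
      exact Subgroup.commutator_mem_commutator hx hy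

end Cfg

end Cfsg.Agent.H62.PQ
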