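import Mathlib
import Cfsg.Agent.H62.PQ9
import Cfsg.Agent.H62.ChiefRep
import Cfsg.Agent.HH.Ward
import Cfsg.Agent.S0033

set_option autoImplicit false
set_option linter.style.haveILetI false
set_option linter.unusedSectionVars false

/-!
Reduction to the core theorem (helper62).
-/

namespace Cfsg.Agent.H62.PQ

open Cfsg.Agent.HH Module
open scoped commutatorElement BigOperators TensorProduct Pointwise

universe u v w

/-- A solvable group in which Sylow subgroups centralize the other cores is nilpotent. -/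
theorem nilpotent_of_centralize {M : Type u} [Group M] [Finite M] (hM : Group.IsSolvable M)
    (h : ∀ s t : ℕ, s.Prime → t.Prime → s ≠ t → ∀ T : Sylow t M, ⁅Cfsg.pCore s M, (T : Subgroup M)⁆ = ⊥) :
    Group.IsNilpotent M := by
  classical
  set F := Cfsg.fittingSubgroup M with hF
  have hFn : Group.IsNilpotent F := Solv.fitting_isNilpotent
  by_cases hFt : F = ⊤
  · rw [hFt] at hFn
    haveI := hFn
    exact Group.nilpotent_of_mulEquiv (Subgroup.topEquiv (G := M))
  exfalso
  haveI hFnorm : F.Normal := inferInstance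
  haveI := hM
  have hQsol : Group.IsSolvable (M ⧸ F) := inferInstance
  have hQnt : (⊤ : Subgroup (M ⧸ F)) ≠ ⊥ := by
    intro h0
    apply hFt
    rw [eq_top_iff]
    intro x _
    have h1 : (QuotientGroup.mk x : M ⧸ F) ∈ (⊤ : Subgroup (M ⧸ F)) := Subgroup.mem_top _
    rw [h0, Subgroup.mem_bot, QuotientGroup.eq_one_iff] at h1
    exact h1
  obtain ⟨N', hN'n, -, hN'1, hN'min⟩ := Solv.exists_minimal_normal (⊤ : Subgroup (M ⧸ F)) inferInstance hQnt
  haveI := hN'n
  obtain ⟨t, ht, hN't⟩ := Solv.minimal_normal_isPGroup N' inferInstance hN'1 hN'min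
  haveI : Fact t.Prime := ⟨ht⟩
  set E : Subgroup M := N'.comap (QuotientGroup.mk' F) with hE
  haveI hEn : E.Normal := hN'n.comap _
  have hFE : F ≤ E := by
    intro x hx
    have h1 : QuotientGroup.mk' F x = 1 := (QuotientGroup.eq_one_iff x).2 hx
    rw [hE, Subgroup.mem_comap, h1]
    exact N'.one_mem
  have hEmap : E.map (QuotientGroup.mk' F) = N' :=
    Subgroup.map_comap_eq_self_of_surjective (QuotientGroup.mk'_surjective F) N'
  have hEF : E ≠ F := by
    intro h0
    apply hN'1
    rw [← hEmap, h0, eq_bot_iff]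
    rintro _ ⟨x, hx, rfl⟩
    exact Subgroup.mem_bot.2 ((QuotientGroup.eq_one_iff x).2 hx)
  let Q : Sylow t E := default
  set T₀ : Subgroup M := (Q : Subgroup E).map E.subtype with hT₀
  have hT₀E : T₀ ≤ E := Subgroup.map_subtype_le _
  have hT₀p : IsPGroup t T₀ := Q.isPGroup'.map _
  obtain ⟨T, hT⟩ := hT₀p.exists_le_sylow
  -- index of `F` in `E`
  have hidxF : ∃ k, F.relIndex E = t ^ k := by
    obtain ⟨k, hk⟩ := IsPGroup.iff_card.1 hN't
    refine ⟨k, ?_⟩
    rw [← hk, ← hEmap]
    have h1 := Subgroup.relIndex_ker E (QuotientGroup.mk' F)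
    rw [QuotientGroup.ker_mk'] at h1
    exact h1
  have hsup : F ⊔ T₀ = E := by
    have h1 : (F.subgroupOf E ⊔ (Q : Subgroup E)) = ⊤ := by
      rw [← Subgroup.index_eq_one]
      obtain ⟨k, hk⟩ := hidxF
      have h2 : (F.subgroupOf E ⊔ (Q : Subgroup E)).index ∣ t ^ k := by
        rw [← hk]
        exact Subgroup.index_dvd_of_le le_sup_left
      have h3 : (F.subgroupOf E ⊔ (Q : Subgroup E)).index ∣ (Q : Subgroup E).index :=
        Subgroup.index_dvd_of_le le_sup_right
      have h4 : Nat.Coprime (t ^ k) (Q : Subgroup E).index := by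
        apply Nat.Coprime.pow_left
        rw [Nat.Prime.coprime_iff_not_dvd ht]
        exact Q.not_dvd_index
      exact Nat.eq_one_of_dvd_coprimes h4 h2 h3
    have h2 := congrArg (Subgroup.map E.subtype) h1
    rw [Subgroup.map_sup, Subgroup.subgroupOf_map_subtype, inf_eq_left.2 hFE, ← MonoidHom.range_eq_map,
      Subgroup.range_subtype] at h2
    exact h2
  have hFT : F ≤ Subgroup.normalizer (T₀ : Set M) := by
    rw [hF, Solv.fitting_eq_iSup_pCore]
    apply iSup_le
    intro s
    by_cases hst : (s : ℕ) = t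
    · have h1 : Cfsg.pCore (s : ℕ) M ≤ T₀ := by
        rw [hst]
        have h2 : Cfsg.pCore t M ≤ E := (Solv.pCore_le_fitting t).trans hFE
        have h3 : (Cfsg.pCore t M).subgroupOf E ≤ (Q : Subgroup E) := by
          refine le_trans (Solv.le_pCore ?_ ?_) (Solv.pCore_le_sylow Q)
          · infer_instance
          · exact IsPGroup.comap_subtype (Solv.pCore_isPGroup t)
        have h4 := Subgroup.map_mono (f := E.subtype) h3
        rwa [Subgroup.subgroupOf_map_subtype, inf_eq_left.2 h2] at h4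
      exact h1.trans Subgroup.le_normalizer
    · have h1 := h s t s.2 ht hst T
      have h2 : ⁅Cfsg.pCore (s : ℕ) M, T₀⁆ = ⊥ := by
        rw [eq_bot_iff, ← h1]
        exact Subgroup.commutator_mono le_rfl hT
      rw [Subgroup.commutator_eq_bot_iff_le_centralizer] at h2
      exact h2.trans (Subgroup.centralizer_le_normalizer (T₀ : Set M))
  have hET : E ≤ Subgroup.normalizer (T₀ : Set M) := by
    rw [← hsup]
    exact sup_le hFT Subgroup.le_normalizer
  have hQn : (Q : Subgroup E).Normal := by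
    constructor
    intro x hx g
    have h1 := (Subgroup.mem_normalizer_iff.1 (hET g.2) (x : M)).1 ⟨x, hx, rfl⟩
    obtain ⟨y, hy, hyx⟩ := h1
    have h2 : y = g * x * g⁻¹ := Subtype.ext hyx
    rw [← h2]
    exact hy
  have hT₀F : T₀ ≤ F := by
    have h1 : (Q : Subgroup E) ≤ Cfsg.pCore t E := Solv.le_pCore hQn Q.isPGroup'
    exact ((Subgroup.map_mono h1).trans (Solv.map_subtype_pCore_le t E)).trans (Solv.pCore_le_fitting t)
  apply hEF
  rw [← hsup]
  exact sup_eq_left.2 hT₀F

theorem bc_nofix {F : Type w} [Field F] {H : Type u} [Group H] {V : Type v} [AddCommGroup V] [Module F V]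
    (ρ : Representation F H V) (A : Subgroup H) [Finite A]
    (hA : ∀ v, (∀ a ∈ A, ρ a v = v) → v = 0) (hAF : (Nat.card A : AlgebraicClosure F) ≠ 0) :
    ∀ v, (∀ a ∈ A, bc F ρ a v = v) → v = 0 := by
  classical
  haveI := Fintype.ofFinite A
  intro v hv
  have h1 : ∑ a : A, ρ (a : H) = 0 := by
    apply LinearMap.ext
    intro w
    rw [LinearMap.sum_apply, LinearMap.zero_apply]
    exact hA _ (fun a ha => sum_smul_fixed w ha)
  have h2 := bc_avg ρ A 0 (by rw [h1, mul_zero]) hAF hv
  rw [map_zero, LinearMap.zero_apply] at h2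
  exact h2.symm

/-- the core theorem for subgroups normalized by the operators -/
theorem core_H {H : Type u} [Group H] [Finite H] {K : Type w} [Field K] [IsAlgClosed K] {V : Type v} [AddCommGroup V]
    [Module K V] [FiniteDimensional K V] (ρ : Representation K H V) {s t p q : ℕ} {S T P R A : Subgroup H}
    (hS : IsPGroup s S) (hT : IsPGroup t T) (hP : Nat.card P = p) (hR : Nat.card R = q) (hp : p.Prime) (hq : q.Prime)
    (hs : s.Prime) (ht : t.Prime) (st : s ≠ t) (ps : p ≠ s) (pt : p ≠ t) (qs : q ≠ s) (qt : q ≠ t) (pq : p ≠ q)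
    (RP : R ≤ Subgroup.normalizer (P : Set H)) (AT : A ≤ Subgroup.normalizer (T : Set H)) (sup : P ⊔ R = A)
    (PR : P ⊓ Subgroup.centralizer (R : Set H) = ⊥) (CS : S ⊓ Subgroup.centralizer (A : Set H) = ⊥)
    (CT : T ⊓ Subgroup.centralizer (A : Set H) = ⊥) (TS : T ≤ Subgroup.normalizer (S : Set H))
    (AS : A ≤ Subgroup.normalizer (S : Set H)) (hA : ∀ v, (∀ a ∈ A, ρ a v = v) → v = 0)
    (hsK : (s : K) ≠ 0) (hpK : (p : K) ≠ 0) (hqK : (q : K) ≠ 0) (hinj : ∀ g ∈ S, ρ g = 1 → g = 1)
    (hnt : ⁅S, T⁆ ≠ ⊥) (hmin : ∀ U : Subgroup H, U < S → T ⊔ A ≤ Subgroup.normalizer (U : Set H) → ⁅U, T⁆ = ⊥) :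
    False := by
  set Γ : Subgroup H := Subgroup.normalizer (S : Set H) with hΓ
  have hSΓ : S ≤ Γ := Subgroup.le_normalizer
  have hPA : P ≤ A := sup ▸ le_sup_left
  have hRA : R ≤ A := sup ▸ le_sup_right
  have hcard : ∀ X : Subgroup H, X ≤ Γ → Nat.card (X.subgroupOf Γ) = Nat.card X := fun X hX =>
    Nat.card_congr (Subgroup.subgroupOfEquivOfLe hX).toEquiv
  have hnorm : ∀ X Y : Subgroup H, X ≤ Subgroup.normalizer (Y : Set H) →
      X.subgroupOf Γ ≤ Subgroup.normalizer ((Y.subgroupOf Γ : Subgroup Γ) : Set Γ) := by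
    intro X Y hXY x hx
    rw [Subgroup.mem_normalizer_iff]
    intro y
    exact Subgroup.mem_normalizer_iff.1 (hXY hx) y
  have hcent : ∀ X Y : Subgroup H, X ≤ Γ → Y ≤ Γ → X ⊓ Subgroup.centralizer (Y : Set H) = ⊥ →
      X.subgroupOf Γ ⊓ Subgroup.centralizer ((Y.subgroupOf Γ : Subgroup Γ) : Set Γ) = ⊥ := by
    intro X Y hX hY hXY
    rw [eq_bot_iff]
    rintro x ⟨hx, hxc⟩
    have h1 : (x : H) ∈ X ⊓ Subgroup.centralizer (Y : Set H) := by
      refine ⟨hx, Subgroup.mem_centralizer_iff.2 fun y hy => ?_⟩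
      exact congrArg Subtype.val (Subgroup.mem_centralizer_iff.1 hxc ⟨y, hY hy⟩ hy)
    rw [hXY, Subgroup.mem_bot] at h1
    exact Subgroup.mem_bot.2 (Subtype.ext h1)
  have c : Cfg s t p q (S.subgroupOf Γ) (T.subgroupOf Γ) (P.subgroupOf Γ) (R.subgroupOf Γ) (A.subgroupOf Γ) :=
    { Sn := Subgroup.normal_subgroupOf_of_le_normalizer le_rfl
      hS := IsPGroup.comap_subtype hS
      hT := IsPGroup.comap_subtype hT
      hP := by rw [hcard P (hPA.trans AS), hP]
      hR := by rw [hcard R (hRA.trans AS), hR]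
      hp := hp
      hq := hq
      hs := hs
      ht := ht
      st := st
      ps := ps
      pt := pt
      qs := qs
      qt := qt
      pq := pq
      RP := hnorm _ _ RP
      AT := hnorm _ _ AT
      sup := by
        rw [← Subgroup.subgroupOf_sup (hPA.trans AS) (hRA.trans AS), sup]
      PR := hcent _ _ (hPA.trans AS) (hRA.trans AS) PR
      CS := hcent _ _ hSΓ AS CS
      CT := hcent _ _ TS AS CT }
  have hmapT : (T.subgroupOf Γ).map Γ.subtype = T := Subgroup.map_subgroupOf_eq_of_le TS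
  have hmapS : (S.subgroupOf Γ).map Γ.subtype = S := Subgroup.map_subgroupOf_eq_of_le hSΓ
  refine c.false_of_inj (ρ := (ρ.comp Γ.subtype : Representation K Γ V)) ?_ hsK hpK hqK ?_ ?_ ?_
  · intro v hv
    exact hA v (fun a ha => hv ⟨a, AS ha⟩ ha)
  · intro g hg h1
    exact Subtype.ext (hinj g hg h1)
  · intro h0
    apply hnt
    rw [← hmapS, ← hmapT, ← Subgroup.map_commutator, h0, Subgroup.map_bot]
  · intro U hU hUn
    have h1 : U.map Γ.subtype < S := by
      rw [← hmapS]
      exact (Subgroup.map_lt_map_iff_of_injective Γ.subtype_injective).2 hU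
    have h2 := hmin _ h1 (by
      have key : ∀ X : Subgroup H, X ≤ Γ → X.subgroupOf Γ ≤ Subgroup.normalizer (U : Set Γ) →
          X ≤ Subgroup.normalizer ((U.map Γ.subtype : Subgroup H) : Set H) := by
        intro X hX hXU x hx
        have hxU : (⟨x, hX hx⟩ : Γ) ∈ Subgroup.normalizer (U : Set Γ) := hXU hx
        rw [Subgroup.mem_normalizer_iff]
        intro y
        constructor
        · rintro ⟨z, hz, rfl⟩
          exact ⟨⟨x, hX hx⟩ * z * ⟨x, hX hx⟩⁻¹, (Subgroup.mem_normalizer_iff.1 hxU z).1 hz, rfl⟩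
        · rintro ⟨z, hz, hzy⟩
          refine ⟨⟨x, hX hx⟩⁻¹ * z * ⟨x, hX hx⟩, (Subgroup.mem_normalizer_iff''.1 hxU z).1 hz, ?_⟩
          change x⁻¹ * (z : H) * x = y
          have h3 : (z : H) = x * y * x⁻¹ := hzy
          rw [h3]; group
      exact sup_le (key T TS (le_sup_left.trans hUn)) (key A AS (le_sup_right.trans hUn)))
    rw [← hmapT, ← Subgroup.map_commutator, Subgroup.map_eq_bot_iff_of_injective _ Γ.subtype_injective] at h2
    exact h2

end Cfsg.Agent.H62.PQ
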