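import Mathlib
import Cfsg.Agent.Solv.Core
import Cfsg.Agent.Cop.Basic

set_option autoImplicit false

/-!
External operator groups as semidirect products (helper62).
-/

namespace Cfsg.Agent.H62.SemiExt

open SemidirectProduct

universe u v

variable {G : Type u} {A : Type v} [Group G] [Group A] (φ : A →* MulAut G)

/-- the normal factor -/
abbrev nf : Subgroup (G ⋊[φ] A) := (inl : G →* G ⋊[φ] A).range

instance nf_normal : (nf φ).Normal := by
  rw [nf, range_inl_eq_ker_rightHom]
  infer_instance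

theorem finite_semi [Finite G] [Finite A] : Finite (G ⋊[φ] A) :=
  Finite.of_equiv _ (SemidirectProduct.equivProd (φ := φ)).symm

theorem isSolvable_semi (hG : Group.IsSolvable G) (hA : Group.IsSolvable A) : Group.IsSolvable (G ⋊[φ] A) := by
  haveI := hG
  haveI := hA
  exact Group.isSolvable_of_ker_le_range (inl : G →* G ⋊[φ] A) (rightHom : G ⋊[φ] A →* A)
    (by rw [range_inl_eq_ker_rightHom])

/-- `G` is isomorphic to the normal factor -/
noncomputable def nfEquiv : G ≃* nf φ := MonoidHom.ofInjective inl_injective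

theorem nfEquiv_coe (g : G) : ((nfEquiv φ g : nf φ) : G ⋊[φ] A) = inl g := rfl

theorem card_nf : Nat.card (nf φ) = Nat.card G := Nat.card_congr (nfEquiv φ).symm.toEquiv

theorem card_range_inr : Nat.card (inr : A →* G ⋊[φ] A).range = Nat.card A :=
  Nat.card_congr (MonoidHom.ofInjective (inr_injective (φ := φ))).symm.toEquiv

theorem fitting_nf : (Cfsg.fittingSubgroup (nf φ)).map (nf φ).subtype =
    (Cfsg.fittingSubgroup G).map (inl : G →* G ⋊[φ] A) := by
  rw [← Solv.map_fitting (nfEquiv φ), Subgroup.map_map]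
  rfl

theorem inr_conj (a : A) (g : G) : (inr a : G ⋊[φ] A) * inl g * (inr a)⁻¹ = inl (φ a g) := by
  rw [inl_aut, map_inv]

theorem inr_comm_iff (a : A) (g : G) : (inr a : G ⋊[φ] A) * inl g = inl g * inr a ↔ φ a g = g := by
  rw [← mul_inv_eq_iff_eq_mul, inr_conj]
  exact inl_injective.eq_iff

/-- Fixed points of a coprime action on a quotient. -/
theorem fixed_quotient [Finite G] [Finite A] (hcop : (Nat.card A).Coprime (Nat.card G))
    (hsol : Group.IsSolvable A ∨ Group.IsSolvable G) (N : Subgroup G) [hN : N.Normal]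
    (hNA : ∀ a : A, ∀ g ∈ N, φ a g ∈ N) {g : G} (hg : ∀ a : A, φ a g * g⁻¹ ∈ N) :
    ∃ c : G, (∀ a : A, φ a c = c) ∧ g⁻¹ * c ∈ N := by
  haveI := finite_semi φ
  have hn : ∀ (K : Subgroup (G ⋊[φ] A)), K.Normal → ∀ L : Subgroup (G ⋊[φ] A), L ≤ Subgroup.normalizer (K : Set (G ⋊[φ] A)) := by
    intro K hK L
    haveI := hK
    rw [Subgroup.normalizer_eq_top]
    exact le_top
  haveI hNn : (N.map (inl : G →* G ⋊[φ] A)).Normal := by
    constructor
    rintro _ ⟨y, hy, rfl⟩ x
    rw [← inl_left_mul_inr_right x]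
    have h1 : inl x.left * inr x.right * inl y * (inl x.left * inr x.right)⁻¹ =
      (inl (x.left * (φ x.right y) * (x.left)⁻¹) : G ⋊[φ] A) := by
      rw [mul_inv_rev, map_mul, map_mul, map_inv, ← inr_conj]
      group
    rw [h1]
    exact ⟨_, hN.conj_mem _ (hNA _ _ hy) _, rfl⟩
  obtain ⟨c, hc, hgc⟩ := Cop.fixed_points_quotient (inr : A →* G ⋊[φ] A).range (nf φ) (hn _ inferInstance _)
    (by rw [card_range_inr, card_nf]; exact hcop)
    (by
      rcases hsol with h | h
      · left
        haveI := h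
        exact Group.isSolvable_of_surjective (MonoidHom.rangeRestrict_surjective (inr : A →* G ⋊[φ] A))
      · right
        haveI := h
        exact Group.isSolvable_of_surjective (MonoidHom.rangeRestrict_surjective (inl : G →* G ⋊[φ] A)))
    (N.map (inl : G →* G ⋊[φ] A)) (by rintro _ ⟨y, hy, rfl⟩; exact ⟨y, rfl⟩) (hn _ hNn _) (hn _ hNn _) (inl g) ⟨g, rfl⟩ (by
      rintro _ ⟨a, rfl⟩
      rw [inr_conj, ← map_inv, ← map_mul]
      exact ⟨_, hg a, rfl⟩)
  obtain ⟨c', rfl⟩ := hc.1
  refine ⟨c', fun a => ?_, ?_⟩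
  · rw [← inr_comm_iff]
    exact Subgroup.mem_centralizer_iff.1 hc.2 _ ⟨a, rfl⟩
  · rw [← map_inv, ← map_mul] at hgc
    obtain ⟨y, hy, hy'⟩ := hgc
    rw [← inl_injective hy']
    exact hy

end Cfsg.Agent.H62.SemiExt
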