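import Mathlib
import Cfsg.Agent.H62.PQ10
import Cfsg.Agent.H62.SemiExt

set_option autoImplicit false
set_option linter.style.haveILetI false
set_option linter.unusedSectionVars false

/-!
The theorem on non-abelian groups of order `pq` (helper62).
-/

namespace Cfsg.Agent.H62.PQ

open Cfsg.Agent.HH Cfsg.Agent.H62.ChiefRep Module
open scoped commutatorElement BigOperators TensorProduct Pointwise

universe u v w

theorem lcs_anti {X : Type u} [Group X] (N : Subgroup X) [N.Normal] {i j : ℕ} (h : i ≤ j) :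
    N.lowerCentralSeries j ≤ N.lowerCentralSeries i := by
  induction h with
  | refl => exact le_rfl
  | step _ ih =>
    refine le_trans ?_ ih
    rw [Subgroup.lowerCentralSeries_succ]
    have hn : ∀ k, (N.lowerCentralSeries k).Normal := by
      intro k
      induction k with
      | zero => assumption
      | succ k ihk =>
        rw [Subgroup.lowerCentralSeries_succ]
        infer_instance
    haveI := hn
    exact Subgroup.commutator_le_left _ _

theorem lcs_stab {X : Type u} [Group X] [Finite X] (N : Subgroup X) [N.Normal] :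
    ∃ k, ∀ j, k ≤ j → N.lowerCentralSeries j = N.lowerCentralSeries k := by
  let a : ℕ →o (Subgroup X)ᵒᵈ := ⟨fun j => OrderDual.toDual (N.lowerCentralSeries j), fun i j hij => lcs_anti N hij⟩
  obtain ⟨k, hk⟩ := WellFoundedGT.monotone_chain_condition a
  exact ⟨k, fun j hj => (congrArg OrderDual.ofDual (hk j hj)).symm⟩

theorem lcs_le {X : Type u} [Group X] (N : Subgroup X) [N.Normal] (k : ℕ) : N.lowerCentralSeries k ≤ N :=
  lcs_anti N (Nat.zero_le k)

theorem lcs_le_fitting {X : Type u} [Group X] [Finite X] (hX : Group.IsSolvable X) (N : Subgroup X) [hNn : N.Normal]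
    {P R A : Subgroup X} {p q : ℕ} (hp : p.Prime) (hq : q.Prime) (hpq : p ≠ q) (hP : Nat.card P = p)
    (hR : Nat.card R = q) (hcop : (Nat.card A).Coprime (Nat.card N)) (RP : R ≤ Subgroup.normalizer (P : Set X))
    (sup : P ⊔ R = A) (PR : P ⊓ Subgroup.centralizer (R : Set X) = ⊥)
    (hCN : N ⊓ Subgroup.centralizer (A : Set X) = ⊥) :
    ∃ k, N.lowerCentralSeries k ≤ (Cfsg.fittingSubgroup N).map N.subtype := by
  classical
  haveI : Fact p.Prime := ⟨hp⟩
  haveI : Fact q.Prime := ⟨hq⟩
  have hPA : P ≤ A := sup ▸ le_sup_left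
  have hRA : R ≤ A := sup ▸ le_sup_right
  by_contra hcon
  push Not at hcon
  obtain ⟨k, hk⟩ := lcs_stab N
  obtain ⟨g, hg, hgF⟩ := SetLike.not_le_iff_exists.1 (hcon k)
  have hgN : g ∈ N := lcs_le N k hg
  obtain ⟨ℓ, iℓ, V, iV, iM, iVf, H, iH, iHf, f, ρ, hf, hinj, hfg, hirr, hℓN, hfix⟩ :=
    exists_faithful_chief_rep hX N hgN hgF
  haveI hXs := hX
  have hHsol : Group.IsSolvable H := Group.isSolvable_of_surjective hf
  have hNsol : Group.IsSolvable N := inferInstance
  set N' : Subgroup H := N.map f with hN'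
  haveI hN'n : N'.Normal := hNn.map f hf
  have hN'sol : Group.IsSolvable N' := inferInstance
  have hN'not : ¬ Group.IsNilpotent N' := by
    intro h
    obtain ⟨m, hm⟩ := (Subgroup.isNilpotent_iff_lowerCentralSeries N').1 h
    apply hfg
    have h1 : f g ∈ N'.lowerCentralSeries (max k m) := by
      rw [hN', ← Subgroup.map_lowerCentralSeries, hk _ (le_max_left k m)]
      exact Subgroup.mem_map_of_mem f hg
    have h2 := lcs_anti N' (le_max_right k m) h1
    rw [hm, Subgroup.mem_bot] at h2
    exact h2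
  have hCV : ∀ v, (∀ a ∈ A.map f, ρ a v = v) → v = 0 := by
    intro v hv
    by_contra hv0
    obtain ⟨h, hhN, hh1, hhc⟩ := hfix A hcop v hv0 (fun y hy => hv _ (Subgroup.mem_map_of_mem f hy))
    apply hh1
    have h1 : h ∈ N ⊓ Subgroup.centralizer (A : Set X) := ⟨hhN, hhc⟩
    rw [hCN, Subgroup.mem_bot] at h1
    exact h1
  have hCN' : N' ⊓ Subgroup.centralizer ((A.map f : Subgroup H) : Set H) = ⊥ := by
    rw [eq_bot_iff]
    rintro y ⟨hy, hyc⟩
    obtain ⟨c, hc, hcy⟩ := fixed_map f A N hcop (Or.inr hNsol) hy (by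
      intro a ha
      have h1 : f a * y = y * f a := Subgroup.mem_centralizer_iff.1 hyc _ (Subgroup.mem_map_of_mem f ha)
      rw [h1, mul_inv_cancel_right])
    rw [hCN, Subgroup.mem_bot] at hc
    rw [← hcy, hc, map_one]
    exact Subgroup.one_mem _
  have hcardN' : Nat.card N' ∣ Nat.card N := Subgroup.card_map_dvd N f
  by_cases hPker : P ≤ f.ker
  · -- `P` acts trivially
    have hPb : P.map f = ⊥ := (Subgroup.map_eq_bot_iff P).2 hPker
    have hAR : A.map f = R.map f := by rw [← sup, Subgroup.map_sup, hPb, bot_sup_eq]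
    rw [hAR] at hCV hCN'
    by_cases hRker : R ≤ f.ker
    · have hRb : R.map f = ⊥ := (Subgroup.map_eq_bot_iff R).2 hRker
      apply hfg
      apply hinj
      apply LinearMap.ext
      intro v
      have h1 : ∀ v : V, v = 0 := fun v => hCV v (by
        intro a ha
        rw [hRb, Subgroup.mem_bot] at ha
        rw [ha, map_one]; rfl)
      rw [h1 (ρ (f g) v), h1 (ρ 1 v)]
    · obtain ⟨r, hr, hro, hrz⟩ := exists_zpowers_of_card_prime hR
      have hfr : f r ≠ 1 := by
        intro h1
        apply hRker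
        rw [← hrz, Subgroup.zpowers_le]
        exact h1
      have hRz : R.map f = Subgroup.zpowers (f r) := by rw [← hrz, MonoidHom.map_zpowers]
      apply hN'not
      have hfixr : ∀ y ∈ N', f r * y = y * f r → y = 1 := by
        intro y hy hyr
        have h1 : y ∈ N' ⊓ Subgroup.centralizer ((R.map f : Subgroup H) : Set H) := by
          refine ⟨hy, Subgroup.mem_centralizer_iff.2 ?_⟩
          intro z hz
          rw [hRz] at hz
          obtain ⟨j, rfl⟩ := Subgroup.mem_zpowers_iff.1 hz
          exact (show Commute (f r) y from hyr).zpow_left j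
        rw [hCN', Subgroup.mem_bot] at h1
        exact h1
      by_cases hNb : N' = ⊥
      · rw [hNb]
        infer_instance
      · refine Cfsg.Agent.S0033.result (G := N') (MulAut.conjNormal (f r)) ?_ q hq ?_
        · intro y hy
          have h1 : f r * (y : H) * (f r)⁻¹ = y := congrArg Subtype.val hy
          rw [mul_inv_eq_iff_eq_mul] at h1
          exact Subtype.ext (hfixr y y.2 h1)
        · apply orderOf_eq_prime
          · rw [← map_pow, ← map_pow, ← hro, pow_orderOf_eq_one, map_one, map_one]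
          · intro h1
            obtain ⟨y, hy⟩ := Subgroup.ne_bot_iff_exists_ne_one.1 hNb
            apply hy
            have h2 : f r * (y : H) * (f r)⁻¹ = y := congrArg (fun φ : MulAut N' => ((φ y : N') : H)) h1
            rw [mul_inv_eq_iff_eq_mul] at h2
            exact Subtype.ext (hfixr y y.2 h2)
  · -- the main case
    have hPprime : (Nat.card P).Prime := by rw [hP]; exact hp
    have hRprime : (Nat.card R).Prime := by rw [hR]; exact hq
    have hinjP : ∀ y ∈ P, f y = 1 → y = 1 := by
      intro y hy hfy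
      by_contra hy1
      exact hPker (le_of_prime_card hPprime hy hfy hy1)
    have hcommP : ∀ y ∈ P, ∀ r ∈ R, y * r * y⁻¹ * r⁻¹ ∈ P := by
      intro y hy r hr
      have h1 : y * r * y⁻¹ * r⁻¹ = y * (r * y⁻¹ * r⁻¹) := by group
      rw [h1]
      exact P.mul_mem hy ((Subgroup.mem_normalizer_iff.1 (RP hr) _).1 (P.inv_mem hy))
    have hPne : P ≠ ⊥ := by
      rintro rfl
      rw [Subgroup.card_bot] at hP
      exact hp.one_lt.ne hP
    have hinjR : ∀ y ∈ R, f y = 1 → y = 1 := by
      intro y hy hfy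
      by_contra hy1
      have hRk : R ≤ f.ker := le_of_prime_card hRprime hy hfy hy1
      apply hPne
      rw [eq_bot_iff, ← PR]
      intro x hx
      refine ⟨hx, Subgroup.mem_centralizer_iff.2 fun r hr => ?_⟩
      have h1 := hinjP _ (hcommP x hx r hr) (by
        have h2 : f r = 1 := hRk hr
        rw [map_mul, map_mul, map_mul, map_inv, map_inv, h2]; group)
      rw [mul_inv_eq_one, mul_inv_eq_iff_eq_mul] at h1
      exact h1.symm
    have hcardmap : ∀ B : Subgroup X, (∀ y ∈ B, f y = 1 → y = 1) → Nat.card (B.map f) = Nat.card B := by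
      intro B hB
      symm
      apply Nat.card_congr
      refine Equiv.ofBijective (fun y : B => (⟨f y, Subgroup.mem_map_of_mem f y.2⟩ : B.map f)) ⟨?_, ?_⟩
      · intro a b hab
        have h1 : f a = f b := congrArg Subtype.val hab
        have h2 := hB ((a : X)⁻¹ * b) (B.mul_mem (B.inv_mem a.2) b.2) (by
          rw [map_mul, map_inv, h1, inv_mul_cancel])
        exact Subtype.ext (inv_mul_eq_one.1 h2)
      · rintro ⟨_, y, hy, rfl⟩
        exact ⟨⟨y, hy⟩, rfl⟩
    -- find the primes
    have hex : ∃ s t : ℕ, s.Prime ∧ t.Prime ∧ s ≠ t ∧ ∃ T : Sylow t N', ⁅Cfsg.pCore s N', (T : Subgroup N')⁆ ≠ ⊥ := by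
      by_contra hno
      apply hN'not
      apply nilpotent_of_centralize hN'sol
      intro s t hs ht hst T
      by_contra hT
      exact hno ⟨s, t, hs, ht, hst, T, hT⟩
    obtain ⟨s, t, hs, ht, hst, T₁, hT₁⟩ := hex
    haveI : Fact s.Prime := ⟨hs⟩
    haveI : Fact t.Prime := ⟨ht⟩
    have hcop' : (Nat.card (A.map f)).Coprime (Nat.card N') :=
      Nat.Coprime.coprime_dvd_left (Subgroup.card_map_dvd A f) (Nat.Coprime.coprime_dvd_right hcardN' hcop)
    have hnorm : ∀ (B L : Subgroup H), L.Normal → B ≤ Subgroup.normalizer (L : Set H) := by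
      intro B L hL
      haveI := hL
      rw [Subgroup.normalizer_eq_top]; exact le_top
    obtain ⟨T, hT⟩ := Cop.exists_invariant_sylow (hnorm (A.map f) N' hN'n) hcop' (Or.inr hN'sol) t
    have hTc : ⁅Cfsg.pCore s N', (T : Subgroup N')⁆ ≠ ⊥ := by
      intro h0
      apply hT₁
      obtain ⟨n, hn⟩ := MulAction.exists_smul_eq N' T T₁
      have h1 : (T₁ : Subgroup N') = (T : Subgroup N').map (MulAut.conj n).toMonoidHom := by
        rw [← hn]; rfl
      have h2 : (Cfsg.pCore s N').map (MulAut.conj n).toMonoidHom = Cfsg.pCore s N' :=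
        Solv.map_pCore s (MulAut.conj n)
      rw [h1, ← h2, ← Subgroup.map_commutator, h0, Subgroup.map_bot]
    set S₁ : Subgroup H := (Cfsg.pCore s N').map N'.subtype with hS₁
    haveI hS₁n : S₁.Normal := by rw [hS₁]; infer_instance
    set T' : Subgroup H := (T : Subgroup N').map N'.subtype with hT'
    have hnt : ⁅S₁, T'⁆ ≠ ⊥ := by
      rw [hS₁, hT', ← Subgroup.map_commutator]
      intro h0
      exact hTc ((Subgroup.map_eq_bot_iff_of_injective _ N'.subtype_injective).1 h0)
    obtain ⟨S, hSS₁, hSn, hSnt, hSmin⟩ := Cop.exists_min (A := T') (B := T' ⊔ A.map f) (P := S₁)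
      (hnorm _ _ hS₁n) hnt
    have hS₁p : IsPGroup s S₁ := (Solv.pCore_isPGroup s).map _
    have hSp : IsPGroup s S := hS₁p.to_le hSS₁
    have hTp : IsPGroup t T' := T.isPGroup'.map _
    have hSN' : S ≤ N' := hSS₁.trans (Subgroup.map_subtype_le _)
    have hTN' : T' ≤ N' := Subgroup.map_subtype_le _
    have hSne : S ≠ ⊥ := by
      rintro rfl
      exact hSnt (Subgroup.commutator_bot_left _)
    have hTne : T' ≠ ⊥ := by
      intro h0
      apply hSnt
      rw [h0, Subgroup.commutator_bot_right]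
    have hdvd : ∀ (r : ℕ) (B : Subgroup H), r.Prime → IsPGroup r B → B ≤ N' → B ≠ ⊥ → r ∣ Nat.card N := by
      intro r B hr hB hBN hB1
      haveI : Fact r.Prime := ⟨hr⟩
      haveI : Nontrivial B := (Subgroup.nontrivial_iff_ne_bot B).2 hB1
      obtain ⟨n, hn0, hn⟩ := (IsPGroup.nontrivial_iff_card hB).1 ‹_›
      have h1 : r ∣ Nat.card B := by rw [hn]; exact dvd_pow_self r hn0.ne'
      exact (h1.trans (Subgroup.card_dvd_of_le hBN)).trans hcardN'
    have hsN : s ∣ Nat.card N := hdvd s S hs hSp hSN' hSne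
    have htN : t ∣ Nat.card N := hdvd t T' ht hTp hTN' hTne
    have hpA : p ∣ Nat.card A := by rw [← hP]; exact Subgroup.card_dvd_of_le hPA
    have hqA : q ∣ Nat.card A := by rw [← hR]; exact Subgroup.card_dvd_of_le hRA
    have hne : ∀ a b : ℕ, a.Prime → a ∣ Nat.card A → b ∣ Nat.card N → a ≠ b := by
      rintro a b ha haA hbN rfl
      exact ha.one_lt.ne' (Nat.eq_one_of_dvd_coprimes hcop haA hbN)
    have hsℓ : ℓ ≠ s := by
      rintro rfl
      have h1 := pCore_eq_bot ρ hinj hirr
      have h2 : S₁ ≤ Cfsg.pCore ℓ H := Solv.le_pCore hS₁n hS₁p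
      rw [h1] at h2
      exact hSne (le_bot_iff.1 (hSS₁.trans h2))
    haveI : Module.Finite (ZMod ℓ) V := Module.Finite.of_finite
    have hAK : (Nat.card (A.map f) : AlgebraicClosure (ZMod ℓ)) ≠ 0 := by
      haveI : CharP (AlgebraicClosure (ZMod ℓ)) ℓ :=
        charP_of_injective_algebraMap (algebraMap (ZMod ℓ) (AlgebraicClosure (ZMod ℓ))).injective ℓ
      intro h0
      rw [CharP.cast_eq_zero_iff (AlgebraicClosure (ZMod ℓ)) ℓ] at h0
      exact iℓ.out.one_lt.ne' (Nat.eq_one_of_dvd_coprimes hcop (h0.trans (Subgroup.card_map_dvd A f)) hℓN)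
    refine core_H (bc (ZMod ℓ) ρ) (P := P.map f) (R := R.map f) (A := A.map f) hSp hTp
      (by rw [hcardmap P hinjP, hP]) (by rw [hcardmap R hinjR, hR]) hp hq hs ht hst (hne p s hp hpA hsN)
      (hne p t hp hpA htN) (hne q s hq hqA hsN) (hne q t hq hqA htN) hpq ?_ hT ?_ ?_ ?_ ?_
      (le_sup_left.trans hSn) (le_sup_right.trans hSn) (bc_nofix ρ _ hCV hAK) (cast_ne_zero_bc hs hsℓ)
      (cast_ne_zero_bc hp (Ne.symm (hne p ℓ hp hpA hℓN))) (cast_ne_zero_bc hq (Ne.symm (hne q ℓ hq hqA hℓN)))
      ?_ hSnt hSmin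
    · rintro _ ⟨r, hr, rfl⟩
      rw [Subgroup.mem_normalizer_iff]
      have hsub : ∀ c : X, c ∈ Subgroup.normalizer (P : Set X) → ∀ y ∈ P.map f, f c * y * (f c)⁻¹ ∈ P.map f := by
        rintro c hc _ ⟨z, hz, rfl⟩
        exact ⟨c * z * c⁻¹, (Subgroup.mem_normalizer_iff.1 hc z).1 hz, by simp⟩
      intro y
      constructor
      · exact hsub r (RP hr) y
      · intro h
        have h2 := hsub r⁻¹ (Subgroup.inv_mem _ (RP hr)) _ h
        have h3 : f r⁻¹ * (f r * y * (f r)⁻¹) * (f r⁻¹)⁻¹ = y := by rw [map_inv]; group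
        rwa [h3] at h2
    · rw [← Subgroup.map_sup, sup]
    · rw [eq_bot_iff]
      rintro _ ⟨⟨x, hx, rfl⟩, hxc⟩
      have h1 : x ∈ P ⊓ Subgroup.centralizer (R : Set X) := by
        refine ⟨hx, Subgroup.mem_centralizer_iff.2 fun r hr => ?_⟩
        have h2 : f r * f x = f x * f r := Subgroup.mem_centralizer_iff.1 hxc _ (Subgroup.mem_map_of_mem f hr)
        have h3 := hinjP _ (hcommP x hx r hr) (by
          rw [map_mul, map_mul, map_mul, map_inv, map_inv, ← h2]; group)
        rw [mul_inv_eq_one, mul_inv_eq_iff_eq_mul] at h3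
        exact h3.symm
      rw [PR, Subgroup.mem_bot] at h1
      rw [h1, map_one]
      exact Subgroup.one_mem _
    · rw [eq_bot_iff, ← hCN']
      exact inf_le_inf_right _ hSN'
    · rw [eq_bot_iff, ← hCN']
      exact inf_le_inf_right _ hTN'
    · intro g _ hg1
      apply bc_injective (ZMod ℓ) ρ hinj
      rw [hg1, map_one]

/-- a group of order `pq` with `q < p` has a normal subgroup of order `p` -/
theorem exists_normal_of_card {A : Type u} [Group A] [Finite A] {p q : ℕ} (hp : p.Prime) (hq : q.Prime) (hqp : q < p)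
    (hA : Nat.card A = p * q) : ∃ P R : Subgroup A, P.Normal ∧ Nat.card P = p ∧ Nat.card R = q ∧ P ⊔ R = ⊤ := by
  classical
  haveI : Fact p.Prime := ⟨hp⟩
  haveI : Fact q.Prime := ⟨hq⟩
  have hcop : p.Coprime q := (Nat.coprime_primes hp hq).2 hqp.ne'
  let P : Sylow p A := default
  let R : Sylow q A := default
  have hPc : Nat.card P = p := by
    rw [P.card_eq_multiplicity, hA, Nat.factorization_mul hp.ne_zero hq.ne_zero, Finsupp.add_apply,
      hp.factorization_self, Nat.factorization_eq_zero_of_not_dvd (fun h => hqp.ne' ((Nat.prime_dvd_prime_iff_eq hp hq).1 h)),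
      add_zero, pow_one]
  have hRc : Nat.card R = q := by
    rw [R.card_eq_multiplicity, hA, Nat.factorization_mul hp.ne_zero hq.ne_zero, Finsupp.add_apply,
      hq.factorization_self, Nat.factorization_eq_zero_of_not_dvd (fun h => hqp.ne ((Nat.prime_dvd_prime_iff_eq hq hp).1 h)),
      zero_add, pow_one]
  have hidx : (P : Subgroup A).index = q := by
    have h1 := (P : Subgroup A).card_mul_index
    rw [hA] at h1
    have h2 : Nat.card (P : Subgroup A) = p := hPc
    rw [h2] at h1
    exact Nat.eq_of_mul_eq_mul_left hp.pos h1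
  have h1 : Nat.card (Sylow p A) = 1 := by
    have h2 : Nat.card (Sylow p A) ∣ q := by rw [← hidx]; exact P.card_dvd_index
    rcases (Nat.dvd_prime hq).1 h2 with h3 | h3
    · exact h3
    · exfalso
      have h4 := card_sylow_modEq_one p A
      rw [h3] at h4
      have h5 : q % p = 1 % p := h4
      rw [Nat.mod_eq_of_lt hqp, Nat.mod_eq_of_lt hp.one_lt] at h5
      exact hq.one_lt.ne' h5
  have hPn : (P : Subgroup A).Normal := by
    haveI : Subsingleton (Sylow p A) := (Nat.card_eq_one_iff_unique.1 h1).1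
    exact Sylow.normal_of_subsingleton P
  refine ⟨P, R, hPn, hPc, hRc, ?_⟩
  have h3 : Nat.card ((P : Subgroup A) ⊔ (R : Subgroup A) : Subgroup A) = p * q := by
    rw [card_sup_coprime (by rw [Subgroup.normalizer_eq_top]; exact le_top) (by
      have ha : Nat.card (P : Subgroup A) = p := hPc
      have hb : Nat.card (R : Subgroup A) = q := hRc
      rw [ha, hb]; exact hcop)]
    congr 1
  apply Subgroup.eq_top_of_card_eq
  rw [h3, hA]

theorem main_aux {G : Type u} {A : Type v} [Group G] [Finite G] [hGs : Group.IsSolvable G] [Group A] [Finite A]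
    (φ : A →* MulAut G) (p q : ℕ) (hp : p.Prime) (hq : q.Prime) (hqp : q < p)
    (hA : Nat.card A = p * q) (hAna : ¬ IsMulCommutative A) (hcop : (Nat.card G).Coprime (p * q))
    (hfpf : ∀ g : G, (∀ a : A, φ a g = g) → g = 1) :
    ∃ k, (⊤ : Subgroup G).lowerCentralSeries k ≤ Cfsg.fittingSubgroup G := by
  classical
  haveI : Fact p.Prime := ⟨hp⟩
  haveI : Fact q.Prime := ⟨hq⟩
  obtain ⟨P, R, hPn, hPc, hRc, hPR⟩ := exists_normal_of_card hp hq hqp hA
  haveI := SemiExt.finite_semi φ
  -- solvability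
  have hPsol : Group.IsSolvable P := by
    haveI := isCyclic_of_prime_card (α := P) hPc
    haveI := IsCyclic.commGroup (α := P)
    exact inferInstance
  have hRsol : Group.IsSolvable R := by
    haveI := isCyclic_of_prime_card (α := R) hRc
    haveI := IsCyclic.commGroup (α := R)
    exact inferInstance
  have hAsol : Group.IsSolvable A := by
    have hs : Function.Surjective ((QuotientGroup.mk' P).comp R.subtype) := by
      intro x
      obtain ⟨a, rfl⟩ := QuotientGroup.mk'_surjective P x
      have h1 : a ∈ P ⊔ R := by rw [hPR]; trivial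
      obtain ⟨y, hy, z, hz, rfl⟩ := Subgroup.mem_sup_of_normal_left.1 h1
      refine ⟨⟨z, hz⟩, ?_⟩
      change (QuotientGroup.mk' P) z = (QuotientGroup.mk' P) (y * z)
      have h2 : (QuotientGroup.mk' P) y = 1 := (QuotientGroup.eq_one_iff y).2 hy
      rw [map_mul, h2, one_mul]
    haveI : Group.IsSolvable (A ⧸ P) := Group.isSolvable_of_surjective hs
    exact Group.isSolvable_of_ker_le_range P.subtype (QuotientGroup.mk' P) (by
      rw [QuotientGroup.ker_mk', Subgroup.range_subtype])
  have hcent : P ⊓ Subgroup.centralizer (R : Set A) = ⊥ := by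
    by_contra hne
    obtain ⟨⟨x, hxP, hxR⟩, hx1⟩ := Subgroup.ne_bot_iff_exists_ne_one.1 hne
    have hPC : P ≤ Subgroup.centralizer (R : Set A) :=
      le_of_prime_card (by rw [hPc]; exact hp) hxP hxR (fun h => hx1 (Subtype.ext h))
    apply hAna
    haveI hPcyc := isCyclic_of_prime_card (α := P) hPc
    haveI hRcyc := isCyclic_of_prime_card (α := R) hRc
    have hPm : IsMulCommutative P := IsCyclic.isMulCommutative
    have hRm : IsMulCommutative R := IsCyclic.isMulCommutative
    have hPcomm : ∀ a ∈ P, ∀ b ∈ P, a * b = b * a := fun a ha b hb =>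
      congrArg Subtype.val (hPm.1.1 (⟨a, ha⟩ : P) ⟨b, hb⟩)
    have hRcomm : ∀ a ∈ R, ∀ b ∈ R, a * b = b * a := fun a ha b hb =>
      congrArg Subtype.val (hRm.1.1 (⟨a, ha⟩ : R) ⟨b, hb⟩)
    have hPRc : ∀ a ∈ P, ∀ b ∈ R, b * a = a * b := fun a ha b hb => Subgroup.mem_centralizer_iff.1 (hPC ha) b hb
    refine ⟨⟨fun a b => ?_⟩⟩
    have ha : a ∈ P ⊔ R := by rw [hPR]; trivial
    have hb : b ∈ P ⊔ R := by rw [hPR]; trivial
    obtain ⟨y, hy, z, hz, rfl⟩ := Subgroup.mem_sup_of_normal_left.1 ha
    obtain ⟨y', hy', z', hz', rfl⟩ := Subgroup.mem_sup_of_normal_left.1 hb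
    calc y * z * (y' * z') = y * (z * y') * z' := by group
      _ = (y * y') * (z * z') := by rw [hPRc y' hy' z hz]; group
      _ = (y' * y) * (z' * z) := by rw [hPcomm y hy y' hy', hRcomm z hz z' hz']
      _ = y' * (y * z') * z := by group
      _ = y' * z' * (y * z) := by rw [← hPRc y hy z' hz']; group
  have hcentA : (SemiExt.nf φ) ⊓ Subgroup.centralizer
      (((SemidirectProduct.inr : A →* SemidirectProduct G A φ).range : Subgroup _) : Set _) = ⊥ := by
    rw [eq_bot_iff]
    rintro _ ⟨⟨g, rfl⟩, hgc⟩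
    have h1 : g = 1 := by
      apply hfpf
      intro a
      rw [← SemiExt.inr_comm_iff]
      exact Subgroup.mem_centralizer_iff.1 hgc _ ⟨a, rfl⟩
    rw [h1, map_one]
    exact Subgroup.one_mem _
  have hinr : Function.Injective (SemidirectProduct.inr : A →* SemidirectProduct G A φ) :=
    SemidirectProduct.inr_injective
  have hcardmap : ∀ B : Subgroup A,
      Nat.card (B.map (SemidirectProduct.inr : A →* SemidirectProduct G A φ)) = Nat.card B := fun B =>
    Nat.card_congr (B.equivMapOfInjective _ hinr).toEquiv.symm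
  obtain ⟨k, hk⟩ := lcs_le_fitting (X := SemidirectProduct G A φ) (SemiExt.isSolvable_semi φ hGs hAsol)
    (SemiExt.nf φ) (P := P.map SemidirectProduct.inr) (R := R.map SemidirectProduct.inr)
    (A := (SemidirectProduct.inr : A →* SemidirectProduct G A φ).range) hp hq hqp.ne' (by rw [hcardmap, hPc])
    (by rw [hcardmap, hRc]) (by
      rw [SemiExt.card_range_inr, SemiExt.card_nf, hA]
      exact hcop.symm) (by
      rintro _ ⟨r, hr, rfl⟩
      rw [Subgroup.mem_normalizer_iff]
      have hsub : ∀ c : A, ∀ y ∈ P.map (SemidirectProduct.inr : A →* SemidirectProduct G A φ),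
          SemidirectProduct.inr c * y * (SemidirectProduct.inr c)⁻¹ ∈
            P.map (SemidirectProduct.inr : A →* SemidirectProduct G A φ) := by
        rintro c _ ⟨z, hz, rfl⟩
        exact ⟨c * z * c⁻¹, hPn.conj_mem z hz c, by simp⟩
      intro y
      constructor
      · exact hsub r y
      · intro h
        have h2 := hsub r⁻¹ _ h
        have h3 : (SemidirectProduct.inr r⁻¹ : SemidirectProduct G A φ) *
            (SemidirectProduct.inr r * y * (SemidirectProduct.inr r)⁻¹) * (SemidirectProduct.inr r⁻¹)⁻¹ = y := by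
          rw [map_inv]; group
        rwa [h3] at h2) (by
      rw [← Subgroup.map_sup, hPR, ← MonoidHom.range_eq_map]) (by
      rw [eq_bot_iff]
      rintro _ ⟨⟨x, hx, rfl⟩, hxc⟩
      have h1 : x ∈ P ⊓ Subgroup.centralizer (R : Set A) := by
        refine ⟨hx, Subgroup.mem_centralizer_iff.2 fun r hr => ?_⟩
        have h2 := Subgroup.mem_centralizer_iff.1 hxc _ (Subgroup.mem_map_of_mem _ hr)
        rw [← map_mul, ← map_mul] at h2
        exact hinr h2
      rw [hcent, Subgroup.mem_bot] at h1
      rw [h1, map_one]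
      exact Subgroup.one_mem _) hcentA
  refine ⟨k, ?_⟩
  rw [SemiExt.fitting_nf] at hk
  have h1 : ((⊤ : Subgroup G).lowerCentralSeries k).map (SemidirectProduct.inl : G →* SemidirectProduct G A φ) ≤
      (Cfsg.fittingSubgroup G).map (SemidirectProduct.inl : G →* SemidirectProduct G A φ) := by
    rw [Subgroup.map_lowerCentralSeries, ← MonoidHom.range_eq_map]
    exact hk
  exact (Subgroup.map_le_map_iff_of_injective SemidirectProduct.inl_injective).1 h1

end Cfsg.Agent.H62.PQ
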