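import Mathlib
import Cfsg.Agent.H62.GR2
import Cfsg.Agent.H62.PQ11

set_option autoImplicit false
set_option linter.style.haveILetI false
set_option linter.unusedSectionVars false

/-!
Number theory, forms over prime fields, abelian groups with a two-element (helper62).
-/

namespace Cfsg.Agent.H62.GR

open Cfsg.Agent.HH Cfsg.Agent.H62.PQ Module
open scoped BigOperators commutatorElement TensorProduct

universe u v w

theorem b_eq_one {s n b : ℕ} (hs : s.Prime) (hs2 : s ≠ 2) (hb : 1 ≤ b) (h : 2 ^ n - 1 = s ^ b) : b = 1 := by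
  have hs3 : 3 ≤ s := by
    have := hs.two_le
    omega
  have hsodd : s % 2 = 1 := (Nat.Prime.eq_two_or_odd hs).resolve_left hs2
  have h2n : 2 ^ n = s ^ b + 1 := by
    have h1 : 1 ≤ 2 ^ n := Nat.one_le_two_pow
    omega
  have hsb : s ≤ s ^ b := Nat.le_self_pow (by omega) s
  have hn2 : 2 ≤ n := by
    by_contra hcon
    have h1 : 2 ^ n ≤ 2 ^ 1 := Nat.pow_le_pow_right (by norm_num) (by omega)
    omega
  rcases Nat.even_or_odd' b with ⟨c, rfl | rfl⟩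
  · exfalso
    have h1 : (s ^ c) % 2 = 1 := by rw [Nat.pow_mod, hsodd]; simp
    have h2 : s ^ (2 * c) = s ^ c * s ^ c := by rw [← pow_add]; congr 1; ring
    have h3 : (s ^ c * s ^ c) % 4 = 1 := by
      have h4 : s ^ c % 4 = 1 ∨ s ^ c % 4 = 3 := by omega
      rcases h4 with h4 | h4 <;> rw [Nat.mul_mod, h4]
    have h4 : 4 ∣ 2 ^ n := by
      have : 4 = 2 ^ 2 := by norm_num
      rw [this]
      exact Nat.pow_dvd_pow 2 hn2
    rw [h2n, h2] at h4
    omega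
  · by_contra hc1
    have hc : 1 ≤ c := by omega
    have h1 : s + 1 ∣ 2 ^ n := by
      rw [h2n]
      have := Odd.nat_add_dvd_pow_add_pow s 1 (n := 2 * c + 1) ⟨c, rfl⟩
      rwa [one_pow] at this
    obtain ⟨j, hjn, hj⟩ := (Nat.dvd_prime_pow Nat.prime_two).1 h1
    have hlt : s < s ^ (2 * c + 1) := by
      calc s = s ^ 1 := (pow_one s).symm
        _ < s ^ (2 * c + 1) := Nat.pow_lt_pow_right (by omega) (by omega)
    have hjn' : j + 1 ≤ n := by
      by_contra hcon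
      have h3 : j = n := by omega
      rw [h3, h2n] at hj
      omega
    have h4 : ((2 : ℤ) ^ (j + 1)) ∣ (s : ℤ) ^ 2 - 1 := by
      obtain ⟨d, hd⟩ : ∃ d : ℤ, (s : ℤ) - 1 = 2 * d := ⟨((s : ℤ) - 1) / 2, by omega⟩
      refine ⟨d, ?_⟩
      have h5 : (s : ℤ) + 1 = 2 ^ j := by exact_mod_cast hj
      calc (s : ℤ) ^ 2 - 1 = ((s : ℤ) + 1) * ((s : ℤ) - 1) := by ring
        _ = 2 ^ (j + 1) * d := by rw [h5, hd]; ring
    have h5 : ((2 : ℤ) ^ (j + 1)) ∣ ((s : ℤ) ^ 2) ^ c - 1 := by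
      have := sub_dvd_pow_sub_pow ((s : ℤ) ^ 2) 1 c
      rw [one_pow] at this
      exact h4.trans this
    have h6 : ((2 : ℤ) ^ (j + 1)) ∣ (s : ℤ) ^ (2 * c + 1) + 1 := by
      have h7 : ((s : ℤ) ^ (2 * c + 1) + 1) = 2 ^ n := by exact_mod_cast h2n.symm
      rw [h7]
      exact pow_dvd_pow 2 hjn'
    have h7 : ((2 : ℤ) ^ (j + 1)) ∣ (2 : ℤ) ^ j := by
      have h8 : (s : ℤ) + 1 = 2 ^ j := by exact_mod_cast hj
      rw [← h8]
      have h9 : (s : ℤ) + 1 = ((s : ℤ) ^ (2 * c + 1) + 1) - s * (((s : ℤ) ^ 2) ^ c - 1) := by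
        rw [← pow_mul]; ring
      rw [h9]
      exact dvd_sub h6 (h5.mul_left _)
    have h8 : (2 : ℕ) ^ (j + 1) ∣ 2 ^ j := by exact_mod_cast h7
    have h9 := (Nat.pow_dvd_pow_iff_le_right (by norm_num)).1 h8
    omega

theorem n_ge_two {s n b : ℕ} (hs : s.Prime) (hb : 1 ≤ b) (h : 2 ^ n - 1 = s ^ b) : 2 ≤ n := by
  by_contra hcon
  have h1 : 2 ^ n ≤ 2 ^ 1 := Nat.pow_le_pow_right (by norm_num) (by omega)
  have hsb : s ≤ s ^ b := Nat.le_self_pow (by omega) s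
  have := hs.two_le
  omega

/-- a form over a prime field from a multiplicative pairing -/
theorem exists_form_s {s : ℕ} [hs : Fact s.Prime] {K : Type w} [Field K] {ζ : K} (hζ : IsPrimitiveRoot ζ s)
    {M : Type*} [AddCommGroup M] [Module (ZMod s) M] (β : M → M → K)
    (h1 : ∀ m m' n, β (m + m') n = β m n * β m' n) (h1' : ∀ m n n', β m (n + n') = β m n * β m n')
    (hne : ∀ m n, β m n ≠ 0) :
    ∃ ω : LinearMap.BilinForm (ZMod s) M, (∀ m n, ω m n = 0 ↔ β m n = 1) ∧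
      (∀ m n m' n', β m n = β m' n' → ω m n = ω m' n') := by
  classical
  have h0 : ∀ n, β 0 n = 1 := by
    intro n
    have h3 := h1 0 0 n
    rw [add_zero] at h3
    exact (mul_eq_left₀ (hne 0 n)).1 h3.symm
  have hnat : ∀ (k : ℕ) m n, β (k • m) n = β m n ^ k := by
    intro k m n
    induction k with
    | zero => rw [zero_smul, h0, pow_zero]
    | succ k ih => rw [succ_nsmul, h1, ih, pow_succ]
  have hpow : ∀ m n, β m n ^ s = 1 := by
    intro m n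
    rw [← hnat, ← Nat.cast_smul_eq_nsmul (ZMod s), CharP.cast_eq_zero, zero_smul, h0]
  -- the logarithm
  have hlog : ∀ a : K, ∃ j : ZMod s, a ^ s = 1 → ζ ^ j.val = a := by
    intro a
    by_cases ha : a ^ s = 1
    · obtain ⟨i, hi, hia⟩ := hζ.eq_pow_of_pow_eq_one ha
      exact ⟨(i : ZMod s), fun _ => by rw [ZMod.val_natCast, Nat.mod_eq_of_lt hi, hia]⟩
    · exact ⟨0, fun h => absurd h ha⟩
  choose L hL using hlog
  have huniq : ∀ i j : ZMod s, ζ ^ i.val = ζ ^ j.val → i = j := by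
    intro i j hij
    exact ZMod.val_injective s (hζ.pow_inj (ZMod.val_lt i) (ZMod.val_lt j) hij)
  have hadd : ∀ i j : ZMod s, ζ ^ (i + j).val = ζ ^ i.val * ζ ^ j.val := by
    intro i j
    rw [ZMod.val_add, ← pow_add]
    conv_rhs => rw [← Nat.div_add_mod (i.val + j.val) s, pow_add, pow_mul, hζ.pow_eq_one, one_pow, one_mul]
  have hLmul : ∀ a b : K, a ^ s = 1 → b ^ s = 1 → L (a * b) = L a + L b := by
    intro a b ha hb
    apply huniq
    rw [hadd, hL a ha, hL b hb, hL (a * b) (by rw [mul_pow, ha, hb, one_mul])]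
  refine ⟨LinearMap.mk₂ (ZMod s) (fun m n => L (β m n)) ?_ ?_ ?_ ?_, ?_, ?_⟩
  · intro m m' n
    rw [h1, hLmul _ _ (hpow m n) (hpow m' n)]
  · intro c m n
    let f : M →+ ZMod s := AddMonoidHom.mk' (fun m => L (β m n)) (fun m m' => by
      rw [h1, hLmul _ _ (hpow m n) (hpow m' n)])
    exact ZMod.map_smul f c m
  · intro m n n'
    rw [h1', hLmul _ _ (hpow m n) (hpow m n')]
  · intro c m n
    let f : M →+ ZMod s := AddMonoidHom.mk' (fun n => L (β m n)) (fun n n' => by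
      rw [h1', hLmul _ _ (hpow m n) (hpow m n')])
    exact ZMod.map_smul f c n
  · intro m n
    change L (β m n) = 0 ↔ _
    constructor
    · intro h
      rw [← hL _ (hpow m n), h, ZMod.val_zero, pow_zero]
    · intro h
      apply huniq
      rw [hL _ (hpow m n), h, ZMod.val_zero, pow_zero]
  · intro m n m' n' h
    change L (β m n) = L (β m' n')
    rw [h]

section cyclic

variable {Γ : Type u} [Group Γ]

/-- subgroups of a cyclic 2-group -/
theorem sub_cyclic {x : Γ} {n : ℕ} (hx : x ^ 2 ^ n = 1) {B : Subgroup Γ} (hB : B ≤ Subgroup.zpowers x)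
    (hB1 : B ≠ ⊥) : ∃ i < n, B = Subgroup.zpowers (x ^ 2 ^ i) := by
  haveI : IsCyclic B := Subgroup.isCyclic_of_le hB
  obtain ⟨⟨g, hg⟩, hgen⟩ := IsCyclic.exists_generator (α := B)
  have hgB : B = Subgroup.zpowers g := by
    apply le_antisymm
    · intro y hy
      obtain ⟨k, hk⟩ := Subgroup.mem_zpowers_iff.1 (hgen ⟨y, hy⟩)
      exact Subgroup.mem_zpowers_iff.2 ⟨k, congrArg Subtype.val hk⟩
    · rwa [Subgroup.zpowers_le]
  have hfin : IsOfFinOrder x := isOfFinOrder_iff_pow_eq_one.2 ⟨2 ^ n, by positivity, hx⟩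
  obtain ⟨k, hk⟩ := (hfin.mem_powers_iff_mem_zpowers.2 (hB hg) : g ∈ Submonoid.powers x)
  change x ^ k = g at hk
  have hk0 : k ≠ 0 := by
    rintro rfl
    apply hB1
    rw [hgB, ← hk, pow_zero, Subgroup.zpowers_one_eq_bot]
  obtain ⟨i, m, hm, him⟩ := Nat.exists_eq_two_pow_mul_odd hk0
  have hi : i < n := by
    by_contra hcon
    apply hB1
    have h1 : x ^ k = 1 := by
      obtain ⟨d, hd⟩ : ∃ d, i = n + d := ⟨i - n, by omega⟩
      rw [him, hd, pow_add, mul_assoc, pow_mul, hx, one_pow]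
    rw [hgB, ← hk, h1, Subgroup.zpowers_one_eq_bot]
  refine ⟨i, hi, ?_⟩
  rw [hgB, ← hk, him, pow_mul]
  apply le_antisymm
  · rw [Subgroup.zpowers_le]
    exact Subgroup.pow_mem _ (Subgroup.mem_zpowers _) _
  · rw [Subgroup.zpowers_le]
    have h1 : m.Coprime (orderOf (x ^ 2 ^ i)) := by
      have h2 : orderOf (x ^ 2 ^ i) ∣ 2 ^ n := by
        apply orderOf_dvd_of_pow_eq_one
        rw [← pow_mul, mul_comm, pow_mul, hx, one_pow]
      apply Nat.Coprime.coprime_dvd_right h2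
      exact Nat.Coprime.pow_right _ (Nat.coprime_two_right.2 hm)
    obtain ⟨j, hj⟩ := exists_pow_eq_self_of_coprime h1
    have h2 := Subgroup.pow_mem _ (Subgroup.mem_zpowers ((x ^ 2 ^ i) ^ m)) j
    rwa [hj] at h2

theorem invol_mem {x : Γ} {n : ℕ} (hx : x ^ 2 ^ n = 1) {B : Subgroup Γ} (hB : B ≤ Subgroup.zpowers x)
    (hB1 : B ≠ ⊥) : x ^ 2 ^ (n - 1) ∈ B := by
  obtain ⟨i, hi, rfl⟩ := sub_cyclic hx hB hB1
  have h1 : x ^ 2 ^ (n - 1) = (x ^ 2 ^ i) ^ 2 ^ (n - 1 - i) := by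
    rw [← pow_mul, ← pow_add]
    congr 2
    omega
  rw [h1]
  exact Subgroup.pow_mem _ (Subgroup.mem_zpowers _) _

/-- an involution acting on an abelian group of odd order -/
theorem invol_abelian {q : ℕ} [hq : Fact q.Prime] (hq2 : q ≠ 2) {B : Subgroup Γ} (hB : IsPGroup q B)
    (hBc : ∀ a ∈ B, ∀ b ∈ B, a * b = b * a) {x₀ : Γ} (hx₀ : x₀ * x₀ = 1) (hxB : x₀ ∈ Subgroup.normalizer (B : Set Γ))
    {g : Γ} (hg : g ∈ ⁅B, Subgroup.zpowers x₀⁆) (hgx : x₀ * g = g * x₀) : g = 1 := by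
  have hinv : x₀⁻¹ = x₀ := by rw [inv_eq_iff_mul_eq_one, hx₀]
  let D : Subgroup Γ :=
    { carrier := {b | b ∈ B ∧ x₀ * b * x₀⁻¹ = b⁻¹}
      one_mem' := ⟨B.one_mem, by group⟩
      mul_mem' := by
        rintro a b ⟨ha, ha'⟩ ⟨hb, hb'⟩
        refine ⟨B.mul_mem ha hb, ?_⟩
        have h1 : x₀ * (a * b) * x₀⁻¹ = (x₀ * a * x₀⁻¹) * (x₀ * b * x₀⁻¹) := by group
        rw [h1, ha', hb', hBc a ha b hb, mul_inv_rev]
      inv_mem' := by
        rintro a ⟨ha, ha'⟩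
        refine ⟨B.inv_mem ha, ?_⟩
        have h1 : x₀ * a⁻¹ * x₀⁻¹ = (x₀ * a * x₀⁻¹)⁻¹ := by group
        rw [h1, ha'] }
  have h1 : ⁅B, Subgroup.zpowers x₀⁆ ≤ D := by
    rw [Subgroup.commutator_le]
    intro b hb c hc
    rcases zpowers_two hx₀ hc with rfl | rfl
    · rw [commutatorElement_one_right]; exact D.one_mem
    · have h2 : c * b⁻¹ * c⁻¹ ∈ B := (Subgroup.mem_normalizer_iff.1 hxB _).1 (B.inv_mem hb)
      have h3 : ⁅b, c⁆ = b * (c * b⁻¹ * c⁻¹) := by rw [commutatorElement_def]; group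
      refine ⟨by rw [h3]; exact B.mul_mem hb h2, ?_⟩
      have h4 : c * ⁅b, c⁆ * c⁻¹ = (c * b * c⁻¹) * (c * c * b⁻¹ * (c * c)⁻¹) := by
        rw [commutatorElement_def]; group
      have h5 : (c * b⁻¹ * c⁻¹)⁻¹ = c * b * c⁻¹ := by group
      rw [h4, hx₀, h3, mul_inv_rev, h5]
      group
  obtain ⟨hgB, hg'⟩ := h1 hg
  rw [hgx, mul_inv_cancel_right] at hg'
  have h2 : g ^ 2 = 1 := by rw [sq]; nth_rewrite 1 [hg']; exact inv_mul_cancel g
  obtain ⟨k, hk⟩ := hB ⟨g, hgB⟩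
  have h3 : g ^ q ^ k = 1 := congrArg Subtype.val hk
  have h4 : Nat.Coprime 2 (q ^ k) := Nat.Coprime.pow_right _ ((Nat.coprime_primes Nat.prime_two hq.out).2 (Ne.symm hq2))
  have h5 : orderOf g ∣ 1 := by
    rw [← h4]
    exact Nat.dvd_gcd (orderOf_dvd_of_pow_eq_one h2) (orderOf_dvd_of_pow_eq_one h3)
  exact orderOf_eq_one_iff.1 (Nat.dvd_one.1 h5)

theorem sq_pow {x : Γ} {n : ℕ} (hn : 1 ≤ n) (hx : x ^ 2 ^ n = 1) : x ^ 2 ^ (n - 1) * x ^ 2 ^ (n - 1) = 1 := by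
  rw [← pow_add, ← hx]
  congr 1
  obtain ⟨m, rfl⟩ : ∃ m, n = m + 1 := ⟨n - 1, by omega⟩
  rw [Nat.add_sub_cancel, pow_succ]; ring

end cyclic

section AB

variable {Γ : Type u} [Group Γ] [Finite Γ] {K : Type w} [Field K] [IsAlgClosed K] {V : Type v} [AddCommGroup V]
  [Module K V] [FiniteDimensional K V] {ρ : Representation K Γ V}

theorem card_zpowers_ne {x : Γ} {n : ℕ} (hx : x ^ 2 ^ n = 1) (h2K : (2 : K) ≠ 0) :
    (Nat.card (Subgroup.zpowers x) : K) ≠ 0 := by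
  rw [Nat.card_zpowers]
  obtain ⟨j, -, hj⟩ := (Nat.dvd_prime_pow Nat.prime_two).1 (orderOf_dvd_of_pow_eq_one hx)
  rw [hj, Nat.cast_pow]
  exact pow_ne_zero _ (by exact_mod_cast h2K)

/-- abelian groups: the involution acts trivially -/
theorem ab {q : ℕ} [hq : Fact q.Prime] (hq2 : q ≠ 2) (h2K : (2 : K) ≠ 0) (hqK : (q : K) ≠ 0) {B : Subgroup Γ}
    (hB : IsPGroup q B) (hBc : ∀ a ∈ B, ∀ b ∈ B, a * b = b * a) {x : Γ} {n : ℕ} (hn : 1 ≤ n) (hx : x ^ 2 ^ n = 1)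
    (hxB : x ∈ Subgroup.normalizer (B : Set Γ)) (hinj : ∀ g ∈ B, ρ g = 1 → g = 1)
    (hfix : ∀ v, ρ x v = v → v = 0) : ⁅B, Subgroup.zpowers (x ^ 2 ^ (n - 1))⁆ = ⊥ := by
  classical
  by_contra hne
  set x₀ := x ^ 2 ^ (n - 1) with hx₀
  have hx₀2 : x₀ * x₀ = 1 := sq_pow hn hx
  have hx₀B : x₀ ∈ Subgroup.normalizer (B : Set Γ) := Subgroup.pow_mem _ hxB _
  set B₁ := ⁅B, Subgroup.zpowers x₀⁆ with hB₁
  have hB₁B : B₁ ≤ B := Subgroup.le_normalizer_iff_commutator_le_left.1 (by rwa [Subgroup.zpowers_le])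
  have hxz : x ∈ Subgroup.normalizer ((Subgroup.zpowers x₀ : Subgroup Γ) : Set Γ) := by
    have : Subgroup.zpowers x ≤ Subgroup.normalizer ((Subgroup.zpowers x₀ : Subgroup Γ) : Set Γ) := by
      refine le_trans ?_ (Subgroup.centralizer_le_normalizer _)
      rw [Subgroup.zpowers_le, Subgroup.mem_centralizer_iff]
      intro y hy
      obtain ⟨k, rfl⟩ := Subgroup.mem_zpowers_iff.1 hy
      have h1 : Commute x ((x ^ 2 ^ (n - 1)) ^ k) := ((Commute.refl x).pow_right _).zpow_right k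
      exact h1.eq.symm
    exact this (Subgroup.mem_zpowers x)
  have hxB₁ : x ∈ Subgroup.normalizer (B₁ : Set Γ) := by
    exact H49.mem_normalizer_commutator hxB hxz
  obtain ⟨μ, hμ, z, hz, hz1⟩ := exists_weight ρ B₁ (fun a ha b hb => hBc a (hB₁B ha) b (hB₁B hb))
    (by
      obtain ⟨k, hk⟩ := IsPGroup.iff_card.1 (hB.to_le hB₁B)
      rw [hk, Nat.cast_pow]
      exact pow_ne_zero _ hqK) (by
      obtain ⟨g, hg⟩ := Subgroup.ne_bot_iff_exists_ne_one.1 hne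
      exact ⟨g, g.2, fun h0 => hg (Subtype.ext (hinj g (hB₁B g.2) h0))⟩)
  have hμm := mult_of_ne hμ
  have hst : x₀ ∈ stabW B₁ μ := by
    have h1 : Subgroup.zpowers x ⊓ stabW B₁ μ ≠ ⊥ := by
      intro hbot
      obtain ⟨u, hu, hu0⟩ := (Submodule.ne_bot_iff _).1 hμ
      apply hu0
      refine stab_fixed_eq_zero (A := Subgroup.zpowers x) (by rwa [Subgroup.zpowers_le]) (card_zpowers_ne hx h2K) ?_
        (fun v hv => hfix v (hv x (Subgroup.mem_zpowers x))) hμm hu ?_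
      · obtain ⟨k, hk⟩ := IsPGroup.iff_card.1 (hB.to_le hB₁B)
        rw [hk, Nat.cast_pow]
        exact pow_ne_zero _ hqK
      · intro a ha
        rw [hbot, Subgroup.mem_bot] at ha
        rw [ha, map_one]; rfl
    exact (invol_mem hx inf_le_left h1).2
  apply hz1
  have hcard : (Nat.card (Subgroup.zpowers x₀)).Coprime q := by
    rw [Nat.card_zpowers]
    apply Nat.Coprime.coprime_dvd_left (orderOf_dvd_of_pow_eq_one (n := 2) (by rw [sq, hx₀2]))
    exact (Nat.coprime_primes Nat.prime_two hq.out).2 (Ne.symm hq2)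
  refine weight_trivial hq.out (X := Subgroup.zpowers x₀) hμm (hB.to_le hB₁B) hcard
    (by rwa [Subgroup.zpowers_le]) ?_ z hz
  rw [eq_bot_iff]
  rintro g ⟨hg, hgc⟩
  rw [Subgroup.mem_bot]
  exact invol_abelian hq2 hB hBc hx₀2 hx₀B hg (Subgroup.mem_centralizer_iff.1 hgc _ (Subgroup.mem_zpowers x₀))

end AB

end Cfsg.Agent.H62.GR
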