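import Mathlib
import Cfsg.Agent.H62.GR3

set_option autoImplicit false
set_option linter.style.haveILetI false
set_option linter.unusedSectionVars false

/-!
The core of the theorem on two-automorphisms (helper62).
-/

namespace Cfsg.Agent.H62.GR

open Cfsg.Agent.HH Cfsg.Agent.H62.PQ Module
open scoped BigOperators commutatorElement TensorProduct

universe u v w

section modcore

variable {s t n : ℕ} [hs : Fact s.Prime] [ht : Fact t.Prime] {M : Type v} [AddCommGroup M] [Module (ZMod s) M]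
  [Finite M] {L : Type u} [Group L] [Finite L] {σ : Representation (ZMod s) L M}

theorem mod_core (hs2 : s ≠ 2) (ht2 : t ≠ 2) (hst : s ≠ t) {T : Subgroup L}
    (hT : IsPGroup t T) {x : L} (hx : orderOf x = 2 ^ n) (hn : 1 ≤ n) (hxT : x ∈ Subgroup.normalizer (T : Set L))
    (hTx : ⁅T, Subgroup.zpowers (x ^ 2 ^ (n - 1))⁆ = T) (hcase : 3 ≤ n ∨ 5 ≤ t)
    (hcen : ∀ z ∈ ⁅T, T⁆, ∀ g ∈ T, σ ⁅z, g⁆ = 1) (hxZ : ∀ z ∈ ⁅T, T⁆, σ ⁅z, x ^ 2 ^ (n - 1)⁆ = 1)
    (ω : LinearMap.BilinForm (ZMod s) M) (hω : ∀ g x y, ω (σ g x) (σ g y) = ω x y)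
    (hnd : ∀ y, (∀ x, ω x y = 0) → y = 0)
    (hrk : finrank (ZMod s) (LinearMap.range (σ (x ^ 2 ^ (n - 1)) - 1)) ≤ 2) :
    ∀ u ∈ ⁅T, T⁆, σ u = 1 := by
  classical
  set x₀ := x ^ 2 ^ (n - 1) with hx₀
  set N : Subgroup L := MonoidHom.ker (σ : L →* Module.End (ZMod s) M) with hN
  have hNmem : ∀ g, g ∈ N ↔ σ g = 1 := fun g => MonoidHom.mem_ker
  have hxx : x₀ * x₀ = 1 := sq_pow hn (by rw [← hx, pow_orderOf_eq_one])
  have hTT : ⁅T, T⁆ ≤ T := Subgroup.le_normalizer_iff_commutator_le_left.1 Subgroup.le_normalizer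
  by_cases hbN : x₀ ∈ N
  · intro u hu
    have h2 : ⁅T, Subgroup.zpowers x₀⁆ ≤ N := by
      calc ⁅T, Subgroup.zpowers x₀⁆ ≤ ⁅(⊤ : Subgroup L), N⁆ :=
            Subgroup.commutator_mono le_top (Subgroup.zpowers_le.2 hbN)
        _ ≤ N := Subgroup.commutator_le_right _ _
    rw [hTx] at h2
    exact (hNmem u).1 (h2 (hTT hu))
  · let π : L →* L ⧸ N := QuotientGroup.mk' N
    have hπs : Function.Surjective π := QuotientGroup.mk'_surjective N
    let σ' : Representation (ZMod s) (L ⧸ N) M := QuotientGroup.lift N (σ : L →* Module.End (ZMod s) M) le_rfl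
    have hσ' : ∀ g, σ' (π g) = σ g := fun g => rfl
    have hπ1 : ∀ g, σ g = 1 → π g = 1 := fun g hg => (QuotientGroup.eq_one_iff g).2 ((hNmem g).2 hg)
    have hπ1' : ∀ g, π g = 1 → σ g = 1 := fun g hg => (hNmem g).1 ((QuotientGroup.eq_one_iff g).1 hg)
    have hinj : Function.Injective σ' := by
      rw [injective_iff_map_eq_one]
      intro x
      obtain ⟨g, rfl⟩ := hπs x
      intro hg
      rw [hσ'] at hg
      exact hπ1 g hg
    have hb1 : π x₀ ≠ 1 := fun h => hbN ((QuotientGroup.eq_one_iff x₀).1 h)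
    haveI : Fact (Nat.Prime 2) := ⟨Nat.prime_two⟩
    have hpow : (π x) ^ 2 ^ (n - 1) = π x₀ := (map_pow π x _).symm
    have hbo : orderOf (π x) = 2 ^ n := by
      obtain ⟨m, rfl⟩ : ∃ m, n = m + 1 := ⟨n - 1, by omega⟩
      apply orderOf_eq_prime_pow
      · rw [Nat.add_sub_cancel] at hpow
        rw [hpow]; exact hb1
      · rw [← map_pow, ← hx, pow_orderOf_eq_one, map_one]
    have hTn : π x ∈ Subgroup.normalizer ((T.map π : Subgroup (L ⧸ N)) : Set (L ⧸ N)) := by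
      rw [Subgroup.mem_normalizer_iff]
      intro y
      obtain ⟨g, rfl⟩ := hπs y
      have hsub : ∀ c : L, c ∈ Subgroup.normalizer (T : Set L) → ∀ y ∈ T.map π, π c * y * (π c)⁻¹ ∈ T.map π := by
        rintro c hc _ ⟨z, hz, rfl⟩
        exact ⟨c * z * c⁻¹, (Subgroup.mem_normalizer_iff.1 hc z).1 hz, by simp⟩
      constructor
      · exact hsub x hxT _
      · intro h
        have h2 := hsub x⁻¹ (Subgroup.inv_mem _ hxT) _ h
        have h3 : π x⁻¹ * (π x * π g * (π x)⁻¹) * (π x⁻¹)⁻¹ = π g := by rw [map_inv]; group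
        rwa [h3] at h2
    have hTπ : ⁅T.map π, Subgroup.zpowers (π x₀)⁆ = T.map π := by
      rw [← MonoidHom.map_zpowers, ← Subgroup.map_commutator, hTx]
    have hω' : ∀ (g : L ⧸ N) (x y : M), ω (σ' g x) (σ' g y) = ω x y := by
      intro g
      obtain ⟨g, rfl⟩ := hπs g
      exact hω g
    intro u hu
    rcases hcase with hn3 | ht5
    · have h1 := m1 (σ := σ') hs2 ht2 hst hinj (hT.map π) hbo hn3 hTn ω hω' hnd (by rw [hpow]; exact hrk)
      rw [hpow, hTπ] at h1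
      have h2 : π u ∈ T.map π := Subgroup.mem_map_of_mem π (hTT hu)
      rw [h1, Subgroup.mem_bot] at h2
      exact hπ1' u h2
    · have hmm : ⁅T.map π, T.map π⁆ = (⁅T, T⁆ : Subgroup L).map π := (Subgroup.map_commutator T T π).symm
      have h1 := m2 (σ := σ') hs2 ht5 hst hinj (hT.map π) (x₀ := π x₀) (by rw [← map_mul, hxx, map_one])
        (by rw [← hpow]; exact Subgroup.pow_mem _ hTn _) hTπ (by
          rw [hmm]
          rintro _ ⟨z, hz, rfl⟩ _ ⟨g, hg, rfl⟩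
          have h2 := hπ1 _ (hcen z hz g hg)
          rw [map_commutatorElement, commutatorElement_eq_one_iff_mul_comm] at h2
          exact h2) (by
          rw [hmm]
          rintro _ ⟨z, hz, rfl⟩
          have h2 := hπ1 _ (hxZ z hz)
          rw [map_commutatorElement, commutatorElement_eq_one_iff_mul_comm] at h2
          exact h2) ω hω' hnd hrk
      rw [hmm] at h1
      have h2 : π u ∈ (⁅T, T⁆ : Subgroup L).map π := Subgroup.mem_map_of_mem π hu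
      rw [h1, Subgroup.mem_bot] at h2
      exact hπ1' u h2

end modcore

variable {Γ : Type u} [Group Γ] [Finite Γ] {K : Type w} [Field K]

/-- the hypotheses of the special case -/
structure Gr (s t n : ℕ) (S T Z : Subgroup Γ) (x : Γ) (μ : Γ → K) : Prop where
  c2 : C2 S Z μ
  Zn : Z.Normal
  hs : s.Prime
  ht : t.Prime
  st : s ≠ t
  s2 : s ≠ 2
  t2 : t ≠ 2
  hS : IsPGroup s S
  hT : IsPGroup t T
  pow : ∀ x ∈ S, x ^ s ∈ Z
  TZ : T ≤ stabW Z μ
  n1 : 1 ≤ n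
  xo : orderOf x = 2 ^ n
  xT : x ∈ Subgroup.normalizer (T : Set Γ)
  xμ : x ∈ stabW Z μ
  Tx : ⁅T, Subgroup.zpowers (x ^ 2 ^ (n - 1))⁆ = T
  star : S ⊓ Subgroup.centralizer ((⁅T, T⁆ : Subgroup Γ) : Set Γ) ≤ Z
  ST : ⁅S, T⁆ = S
  TT : ∀ z ∈ ⁅T, T⁆, ∀ g ∈ T, ∀ y ∈ S, ⁅z, g⁆ * y = y * ⁅z, g⁆
  Tx0 : ∀ z ∈ ⁅T, T⁆, ∀ y ∈ S, ⁅z, x ^ 2 ^ (n - 1)⁆ * y = y * ⁅z, x ^ 2 ^ (n - 1)⁆
  nrad : ¬ ∀ g ∈ S, ∀ h ∈ S, μ ⁅g, h⁆ = 1

namespace Gr

variable {s t n : ℕ} {S T Z : Subgroup Γ} {x : Γ} {μ : Γ → K} (d : Gr s t n S T Z x μ)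

include d

theorem YS : stabW Z μ ≤ Subgroup.normalizer (S : Set Γ) := by
  haveI := d.c2.Sn
  rw [Subgroup.normalizer_eq_top]; exact le_top

theorem xx : x ^ 2 ^ (n - 1) * x ^ 2 ^ (n - 1) = 1 := sq_pow d.n1 (by rw [← d.xo, pow_orderOf_eq_one])

theorem x0μ : x ^ 2 ^ (n - 1) ∈ stabW Z μ := Subgroup.pow_mem _ d.xμ _

theorem TT' : ⁅T, T⁆ ≤ T := Subgroup.le_normalizer_iff_commutator_le_left.1 Subgroup.le_normalizer

/-- fixed points modulo the radical -/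
theorem mem_rad_of_fixed {x : Γ} (hx : x ∈ S)
    (hfix : ∀ y ∈ ⁅T, T⁆, y * x * y⁻¹ * x⁻¹ ∈ d.c2.rad) : x ∈ d.c2.rad := by
  haveI : Fact s.Prime := ⟨d.hs⟩
  haveI : Fact t.Prime := ⟨d.ht⟩
  haveI := d.c2.Sn
  have hX : ⁅T, T⁆ ≤ stabW Z μ := d.TT'.trans d.TZ
  have hcop : (Nat.card ↥⁅T, T⁆).Coprime (Nat.card S) := by
    apply Cop.coprime_card_of_isPGroup d.hS
    apply Nat.Coprime.coprime_dvd_left (Subgroup.card_dvd_of_le d.TT')
    obtain ⟨k, hk⟩ := IsPGroup.iff_card.1 d.hT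
    rw [hk]
    exact ((Nat.coprime_primes d.ht d.hs).2 (Ne.symm d.st)).pow_left k
  have hsol : Group.IsSolvable S := by
    haveI := d.hS.isNilpotent
    exact inferInstance
  obtain ⟨c, hc, hac⟩ := Cop.fixed_points_quotient ⁅T, T⁆ S (hX.trans d.YS) hcop (Or.inr hsol) d.c2.rad
    d.c2.rad_le (d.c2.S_le_stab.trans d.c2.stab_norm) (hX.trans d.c2.stab_norm) x hx hfix
  have h1 := d.c2.Z_le_rad (d.star hc)
  have h2 := d.c2.rad.mul_mem h1 (d.c2.rad.inv_mem hac)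
  have h3 : c * (x⁻¹ * c)⁻¹ = x := by group
  rwa [h3] at h2

theorem not_le_rad : ¬ S ≤ d.c2.rad := fun h => d.nrad (fun _ hg h' hh' => (h hg).2 h' hh')

theorem B_norm_S : Subgroup.zpowers (x ^ 2 ^ (n - 1)) ≤ Subgroup.normalizer (S : Set Γ) := by
  rw [Subgroup.zpowers_le]
  exact d.YS d.x0μ

/-- case `α` -/
theorem caseA (hQ : ∀ g ∈ ⁅S, Subgroup.zpowers (x ^ 2 ^ (n - 1))⁆, ∀ h ∈ S, μ ⁅g, h⁆ = 1) : False := by
  set B := Subgroup.zpowers (x ^ 2 ^ (n - 1)) with hB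
  have hBμ : B ≤ stabW Z μ := by rw [hB, Subgroup.zpowers_le]; exact d.x0μ
  have hQS : ⁅S, B⁆ ≤ S := Subgroup.le_normalizer_iff_commutator_le_left.1 d.B_norm_S
  have hQr : ⁅S, B⁆ ≤ d.c2.rad := fun g hg => ⟨hQS hg, hQ g hg⟩
  have hSn := d.c2.Sn
  -- the elements acting trivially on `S / Rad`
  have hstab : ∀ x ∈ stabW Z μ, ∀ y ∈ d.c2.rad, x * y * x⁻¹ ∈ d.c2.rad := fun x hx y hy =>
    (Subgroup.mem_normalizer_iff.1 (d.c2.stab_norm hx) y).1 hy
  have hstab' : ∀ x ∈ stabW Z μ, ∀ y ∈ d.c2.rad, x⁻¹ * y * x ∈ d.c2.rad := fun x hx y hy =>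
    (Subgroup.mem_normalizer_iff''.1 (d.c2.stab_norm hx) y).1 hy
  let D : Subgroup Γ :=
    { carrier := {y | y ∈ stabW Z μ ∧ ∀ x ∈ S, y * x * y⁻¹ * x⁻¹ ∈ d.c2.rad}
      one_mem' := ⟨Subgroup.one_mem _, fun x _ => by
        have h1 : 1 * x * (1 : Γ)⁻¹ * x⁻¹ = 1 := by group
        rw [h1]; exact d.c2.rad.one_mem⟩
      mul_mem' := by
        rintro y z ⟨hy, hy'⟩ ⟨hz, hz'⟩
        refine ⟨Subgroup.mul_mem _ hy hz, fun x hx => ?_⟩
        have h1 : y * z * x * (y * z)⁻¹ * x⁻¹ = (y * (z * x * z⁻¹ * x⁻¹) * y⁻¹) * (y * x * y⁻¹ * x⁻¹) := by group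
        rw [h1]
        exact d.c2.rad.mul_mem (hstab y hy _ (hz' x hx)) (hy' x hx)
      inv_mem' := by
        rintro y ⟨hy, hy'⟩
        refine ⟨Subgroup.inv_mem _ hy, fun x hx => ?_⟩
        have h1 : y⁻¹ * x * y⁻¹⁻¹ * x⁻¹ = (y⁻¹ * (y * x * y⁻¹ * x⁻¹) * y)⁻¹ := by group
        rw [h1]
        exact d.c2.rad.inv_mem (hstab' y hy _ (hy' x hx)) }
  have hBD : B ≤ D := by
    intro β hβ
    refine ⟨hBμ hβ, fun x hx => ?_⟩
    have h1 : β * x * β⁻¹ * x⁻¹ = ⁅x, β⁆⁻¹ := by rw [commutatorElement_def]; group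
    rw [h1]
    exact d.c2.rad.inv_mem (hQr (Subgroup.commutator_mem_commutator hx hβ))
  have hTD : ∀ τ ∈ T, ∀ y ∈ D, τ * y * τ⁻¹ ∈ D := by
    rintro τ hτ y ⟨hy, hy'⟩
    have hτs := d.TZ hτ
    refine ⟨Subgroup.mul_mem _ (Subgroup.mul_mem _ hτs hy) (Subgroup.inv_mem _ hτs), fun x hx => ?_⟩
    have h2 : τ⁻¹ * x * τ ∈ S := by
      have := hSn.conj_mem x hx τ⁻¹
      rwa [inv_inv] at this
    have h1 : τ * y * τ⁻¹ * x * (τ * y * τ⁻¹)⁻¹ * x⁻¹ = τ * (y * (τ⁻¹ * x * τ) * y⁻¹ * (τ⁻¹ * x * τ)⁻¹) * τ⁻¹ := by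
      group
    rw [h1]
    exact hstab τ hτs _ (hy' _ h2)
  have hXD : T ≤ D := by
    rw [← d.Tx, ← hB]
    rw [Subgroup.commutator_le]
    intro τ hτ β hβ
    rw [commutatorElement_def]
    exact D.mul_mem (hTD τ hτ β (hBD hβ)) (D.inv_mem (hBD hβ))
  apply d.not_le_rad
  refine le_trans d.ST.ge (Subgroup.commutator_le.2 ?_)
  intro y hy τ hτ
  have h1 := (hXD hτ).2 y hy
  have h2 : ⁅y, τ⁆ = (τ * y * τ⁻¹ * y⁻¹)⁻¹ := by rw [commutatorElement_def]; group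
  rw [h2]
  exact d.c2.rad.inv_mem h1

/-- the exceptional case -/
theorem caseB {ζ : K} (hζ : IsPrimitiveRoot ζ s) (hcase : 3 ≤ n ∨ 5 ≤ t)
    (hrel : d.c2.rad.relIndex ⁅S, Subgroup.zpowers (x ^ 2 ^ (n - 1))⁆ ≤ s ^ 2) : False := by
  classical
  haveI : Fact s.Prime := ⟨d.hs⟩
  haveI : Fact t.Prime := ⟨d.ht⟩
  have hSn := d.c2.Sn
  have hZr := d.c2.Z_le_rad
  set x₀ := x ^ 2 ^ (n - 1) with hx₀
  obtain ⟨M, iA, iM, ⟨E⟩⟩ := BG3.exists_secMod (ℓ := s) (M := S) (M1 := d.c2.rad) (Y := stabW Z μ)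
    (d.c2.S_le_stab.trans d.c2.stab_norm) d.YS d.c2.stab_norm (fun x hx => hZr (d.pow x hx))
    (fun x hx y hy => hZr (d.c2.comm x hx y hy))
  haveI : Finite M := E.finite
  haveI : Module.Finite (ZMod s) M := Module.Finite.of_finite
  -- representatives
  have hrep := E.exists_rep
  choose ψ hψ using hrep
  have hval : ∀ (x x' y y' : S), (E.π x).toAdd = (E.π x').toAdd → (E.π y).toAdd = (E.π y').toAdd →
      μ ⁅(x : Γ), (y : Γ)⁆ = μ ⁅(x' : Γ), (y' : Γ)⁆ := by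
    have h1 : ∀ (x x' y : S), (E.π x).toAdd = (E.π x').toAdd → μ ⁅(x : Γ), (y : Γ)⁆ = μ ⁅(x' : Γ), (y : Γ)⁆ := by
      intro x x' y hxx
      have h2 := (E.eq_iff x x').1 hxx
      have h3 : (x : Γ) = ((x : Γ) * (x' : Γ)⁻¹) * x' := by group
      rw [h3, d.c2.left (S.mul_mem x.2 (S.inv_mem x'.2)) x'.2 y.2, h2.2 y y.2, one_mul]
    have h1' : ∀ (x y y' : S), (E.π y).toAdd = (E.π y').toAdd → μ ⁅(x : Γ), (y : Γ)⁆ = μ ⁅(x : Γ), (y' : Γ)⁆ := by
      intro x y y' hyy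
      have h2 := (E.eq_iff y y').1 hyy
      have h3 : (y : Γ) = ((y : Γ) * (y' : Γ)⁻¹) * y' := by group
      have h4 : ⁅(x : Γ), (y : Γ) * (y' : Γ)⁻¹⁆ = ⁅(y : Γ) * (y' : Γ)⁻¹, (x : Γ)⁆⁻¹ := by
        simp only [commutatorElement_def]; group
      have h5 : ⁅(y : Γ) * (y' : Γ)⁻¹, (x : Γ)⁆ ∈ Z := d.c2.comm _ (S.mul_mem y.2 (S.inv_mem y'.2)) _ x.2
      rw [h3, d.c2.right x.2 (S.mul_mem y.2 (S.inv_mem y'.2)) y'.2, h4, d.c2.mult.inv h5, h2.2 x x.2, inv_one,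
        one_mul]
    intro x x' y y' hx hy
    rw [h1 x x' y hx, h1' x' y y' hy]
  let β : M → M → K := fun m n => μ ⁅(ψ m : Γ), (ψ n : Γ)⁆
  have hβ : ∀ x y : S, β (E.π x).toAdd (E.π y).toAdd = μ ⁅(x : Γ), (y : Γ)⁆ := fun x y =>
    hval _ _ _ _ (hψ _) (hψ _)
  obtain ⟨ω, hω0, hωc⟩ := exists_form_s hζ β (by
    intro m m' n
    change μ ⁅(ψ (m + m') : Γ), (ψ n : Γ)⁆ = μ ⁅(ψ m : Γ), (ψ n : Γ)⁆ * μ ⁅(ψ m' : Γ), (ψ n : Γ)⁆
    rw [← d.c2.left (ψ m).2 (ψ m').2 (ψ n).2]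
    exact hval _ (ψ m * ψ m') _ _ (by rw [hψ, map_mul, toAdd_mul, hψ, hψ]) rfl) (by
    intro m n n'
    change μ ⁅(ψ m : Γ), (ψ (n + n') : Γ)⁆ = μ ⁅(ψ m : Γ), (ψ n : Γ)⁆ * μ ⁅(ψ m : Γ), (ψ n' : Γ)⁆
    rw [← d.c2.right (ψ m).2 (ψ n).2 (ψ n').2]
    exact hval _ _ _ (ψ n * ψ n') rfl (by rw [hψ, map_mul, toAdd_mul, hψ, hψ]))
    (fun m n => d.c2.mult.ne_zero (d.c2.comm _ (ψ m).2 _ (ψ n).2))
  have hxY : x ∈ stabW Z μ := d.xμ
  have hequiv : ∀ (y : stabW Z μ) (x : S) (hx : (y : Γ) * x * (y : Γ)⁻¹ ∈ S),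
      (E.π ⟨(y : Γ) * x * (y : Γ)⁻¹, hx⟩).toAdd = E.ρ y (E.π x).toAdd := fun y x hx => E.equiv y x
  have hbo : orderOf (⟨x, hxY⟩ : stabW Z μ) = 2 ^ n := by
    rw [← Subgroup.orderOf_coe]; exact d.xo
  have hmapT : (T.subgroupOf (stabW Z μ)).map (stabW Z μ).subtype = T := Subgroup.map_subgroupOf_eq_of_le d.TZ
  have hmapTT : (⁅T.subgroupOf (stabW Z μ), T.subgroupOf (stabW Z μ)⁆).map (stabW Z μ).subtype = ⁅T, T⁆ := by
    rw [Subgroup.map_commutator, hmapT]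
  have hx0Y : x₀ ∈ stabW Z μ := d.x0μ
  have hcoe0 : (⟨x, hxY⟩ : stabW Z μ) ^ 2 ^ (n - 1) = ⟨x₀, hx0Y⟩ := Subtype.ext rfl
  have hQS : ⁅S, Subgroup.zpowers x₀⁆ ≤ S := Subgroup.le_normalizer_iff_commutator_le_left.1 d.B_norm_S
  have hrk : finrank (ZMod s) (LinearMap.range (E.ρ ⟨x₀, hx0Y⟩ - 1)) ≤ 2 := by
    let φ : (⁅S, Subgroup.zpowers x₀⁆ : Subgroup Γ) →* Multiplicative M := E.π.comp (Subgroup.inclusion hQS)
    have h1 : Nat.card φ.range ≤ s ^ 2 := by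
      rw [← Subgroup.index_ker]
      have h2 : φ.ker = d.c2.rad.subgroupOf ⁅S, Subgroup.zpowers x₀⁆ := by
        ext x
        rw [MonoidHom.mem_ker, Subgroup.mem_subgroupOf]
        exact E.ker _
      rw [h2]
      exact hrel
    have h2 : Nat.card (LinearMap.range (E.ρ ⟨x₀, hx0Y⟩ - 1)) ≤ Nat.card φ.range := by
      apply Nat.card_le_card_of_injective
        (fun m : LinearMap.range (E.ρ ⟨x₀, hx0Y⟩ - 1) => (⟨Multiplicative.ofAdd (m : M), ?_⟩ : φ.range))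
      · intro m m' h
        have h3 := congrArg Subtype.val h
        exact Subtype.ext (Multiplicative.ofAdd.injective h3)
      · obtain ⟨m, hm⟩ := m.2
        obtain ⟨x, rfl⟩ := E.exists_rep m
        have h3 : x₀ * x * x₀⁻¹ ∈ S := hSn.conj_mem _ x.2 _
        have h4 : x₀ * x * x₀⁻¹ * (x : Γ)⁻¹ ∈ ⁅S, Subgroup.zpowers x₀⁆ := by
          have h5 : x₀ * x * x₀⁻¹ * (x : Γ)⁻¹ = ⁅(x : Γ), x₀⁆⁻¹ := by rw [commutatorElement_def]; group
          rw [h5]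
          exact Subgroup.inv_mem _ (Subgroup.commutator_mem_commutator x.2 (Subgroup.mem_zpowers x₀))
        refine ⟨⟨_, h4⟩, ?_⟩
        have h5 : (⟨x₀ * x * x₀⁻¹ * (x : Γ)⁻¹, hQS h4⟩ : S) = ⟨x₀ * x * x₀⁻¹, h3⟩ * x⁻¹ := rfl
        change E.π ⟨x₀ * x * x₀⁻¹ * (x : Γ)⁻¹, hQS h4⟩ = Multiplicative.ofAdd (m : M)
        rw [h5, ← hm]
        apply Multiplicative.toAdd.injective
        rw [map_mul, toAdd_mul, map_inv, toAdd_inv, toAdd_ofAdd, LinearMap.sub_apply, Module.End.one_apply,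
          ← hequiv ⟨x₀, hx0Y⟩ x h3, sub_eq_add_neg]
    have h3 : Nat.card (LinearMap.range (E.ρ ⟨x₀, hx0Y⟩ - 1)) =
        s ^ finrank (ZMod s) (LinearMap.range (E.ρ ⟨x₀, hx0Y⟩ - 1)) := by
      have := Module.natCard_eq_pow_finrank (K := ZMod s) (V := LinearMap.range (E.ρ ⟨x₀, hx0Y⟩ - 1))
      rwa [Nat.card_zmod] at this
    rw [h3] at h2
    exact (Nat.pow_le_pow_iff_right d.hs.one_lt).1 (h2.trans h1)
  have htriv : ∀ y : stabW Z μ, (∀ x ∈ S, (y : Γ) * x = x * y) → E.ρ y = 1 := by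
    intro y hy
    apply LinearMap.ext
    intro m
    apply (E.rho_eq_iff y).2
    intro x hx
    rw [hy x hx]
    have : x * (y : Γ) * (y : Γ)⁻¹ * x⁻¹ = 1 := by group
    rw [this]
    exact Subgroup.one_mem _
  have hmain := mod_core (σ := (E.ρ : Representation (ZMod s) (stabW Z μ) M)) (T := T.subgroupOf (stabW Z μ))
    d.s2 d.t2 d.st (d.hT.comap_of_injective _ (stabW Z μ).subtype_injective) hbo d.n1 (by
      have h1 := d.xT
      rw [Subgroup.mem_normalizer_iff] at h1 ⊢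
      intro x
      exact h1 x) (by
      apply Subgroup.map_injective (stabW Z μ).subtype_injective
      rw [Subgroup.map_commutator, hmapT, MonoidHom.map_zpowers, hcoe0]
      exact d.Tx) hcase (by
      intro z hz g hg
      apply htriv
      intro y hy
      have h1 : (z : Γ) ∈ ⁅T, T⁆ := by
        rw [← hmapTT]
        exact Subgroup.mem_map_of_mem _ hz
      exact d.TT z h1 g hg y hy) (by
      intro z hz
      apply htriv
      intro y hy
      have h1 : (z : Γ) ∈ ⁅T, T⁆ := by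
        rw [← hmapTT]
        exact Subgroup.mem_map_of_mem _ hz
      exact d.Tx0 z h1 y hy) ω (by
      intro g m n
      apply hωc
      obtain ⟨x, rfl⟩ := E.exists_rep m
      obtain ⟨y, rfl⟩ := E.exists_rep n
      have h3 := hSn.conj_mem _ x.2 (g : Γ)
      have h4 := hSn.conj_mem _ y.2 (g : Γ)
      rw [← hequiv g x h3, ← hequiv g y h4, hβ, hβ]
      exact d.c2.inv_form g.2 x.2 y.2) (by
      intro m hm
      obtain ⟨x, rfl⟩ := E.exists_rep m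
      have h1 : (x : Γ) ∈ d.c2.rad := by
        refine ⟨x.2, fun h hh => ?_⟩
        have h2 := (hω0 _ _).1 (hm (E.π ⟨h, hh⟩).toAdd)
        rw [hβ] at h2
        have h3 : ⁅(x : Γ), h⁆ = ⁅h, (x : Γ)⁆⁻¹ := by simp only [commutatorElement_def]; group
        rw [h3, d.c2.mult.inv (d.c2.comm _ hh _ x.2), h2, inv_one]
      rw [(E.ker x).2 h1]; rfl) (by rw [hcoe0]; exact hrk)
  -- conclusion
  apply d.not_le_rad
  intro y hy
  apply d.mem_rad_of_fixed hy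
  intro u hu
  have hu' := hu
  rw [← hmapTT] at hu'
  obtain ⟨u', hu'1, rfl⟩ := hu'
  have h1 := hmain u' hu'1
  exact (E.rho_eq_iff u').1 (fun v => by rw [show E.ρ u' = 1 from h1]; rfl) y hy

end Gr

theorem Gr.false {V : Type v} [AddCommGroup V] [Module K V] [FiniteDimensional K V] [IsAlgClosed K]
    {ρ : Representation K Γ V} {s t n : ℕ} {S T Z : Subgroup Γ} {x : Γ} {μ : Γ → K}
    (d : Gr s t n S T Z x μ) (hμ : wsp ρ Z μ ≠ ⊥) (hsK : (s : K) ≠ 0) (h2K : (2 : K) ≠ 0)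
    (hfixB : ∀ w ∈ wsp ρ Z μ, ρ x w = w → w = 0) : False := by
  classical
  haveI : Fact s.Prime := ⟨d.hs⟩
  haveI : Fact t.Prime := ⟨d.ht⟩
  haveI : Fact (Nat.Prime 2) := ⟨Nat.prime_two⟩
  have hSn := d.c2.Sn
  have hZn := d.Zn
  set x₀ := x ^ 2 ^ (n - 1) with hx₀
  set B : Subgroup Γ := Subgroup.zpowers x₀ with hB
  set Q : Subgroup Γ := ⁅S, B⁆ with hQ
  have hx₀2 : x₀ * x₀ = 1 := d.xx
  have hx₀1 : x₀ ≠ 1 := by
    intro h0
    obtain ⟨m, rfl⟩ : ∃ m, n = m + 1 := ⟨n - 1, by have := d.n1; omega⟩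
    rw [hx₀, Nat.add_sub_cancel] at h0
    have h1 : orderOf x ∣ 2 ^ m := orderOf_dvd_of_pow_eq_one h0
    rw [d.xo] at h1
    have h2 := (Nat.pow_dvd_pow_iff_le_right (by norm_num)).1 h1
    omega
  have hx₀o : orderOf x₀ = 2 := orderOf_eq_prime (by rw [sq, hx₀2]) hx₀1
  have hBc : Nat.card B = 2 := by rw [hB, Nat.card_zpowers, hx₀o]
  have hBS := d.B_norm_S
  have hQS : Q ≤ S := Subgroup.le_normalizer_iff_commutator_le_left.1 hBS
  have hBcop : (Nat.card B).Coprime s := by rw [hBc]; exact (Nat.coprime_primes Nat.prime_two d.hs).2 (Ne.symm d.s2)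
  have hBScop : (Nat.card B).Coprime (Nat.card S) := Cop.coprime_card_of_isPGroup d.hS hBcop
  have hsolS : Group.IsSolvable S := by
    haveI := d.hS.isNilpotent
    exact inferInstance
  have hQpg : IsPGroup s Q := d.hS.to_le hQS
  have hBμ : B ≤ stabW Z μ := by rw [hB, Subgroup.zpowers_le]; exact d.x0μ
  have hxB : x ∈ Subgroup.normalizer ((B : Subgroup Γ) : Set Γ) := by
    have : Subgroup.zpowers x ≤ Subgroup.normalizer ((B : Subgroup Γ) : Set Γ) := by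
      refine le_trans ?_ (Subgroup.centralizer_le_normalizer _)
      rw [Subgroup.zpowers_le, Subgroup.mem_centralizer_iff]
      intro y hy
      obtain ⟨k, rfl⟩ := Subgroup.mem_zpowers_iff.1 hy
      have h1 : Commute x ((x ^ 2 ^ (n - 1)) ^ k) := ((Commute.refl x).pow_right _).zpow_right k
      exact h1.eq.symm
    exact this (Subgroup.mem_zpowers x)
  have hxQ : x ∈ Subgroup.normalizer (Q : Set Γ) := H49.mem_normalizer_commutator (d.YS d.xμ) hxB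
  have hW₀Q : ∀ g ∈ S, ∀ w ∈ wsp ρ Z μ, ρ g w ∈ wsp ρ Z μ := fun g hg w hw =>
    wsp_stab (d.c2.S_le_stab hg) hw
  by_cases hnt : ∃ g ∈ Q, ∃ w ∈ wsp ρ Z μ, ρ g w ≠ w
  · -- the main case
    have hQK : (Nat.card Q : K) ≠ 0 := by
      obtain ⟨k, hk⟩ := IsPGroup.iff_card.1 hQpg
      rw [hk, Nat.cast_pow]
      exact pow_ne_zero _ hsK
    obtain ⟨W', hW'le, hW'0, hW'Q, hW'b, hW'fix⟩ := exists_nofix_on ρ Q hQK x
      (fun g hg => (Subgroup.mem_normalizer_iff.1 hxQ g).1 hg)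
      (fun g hg => (Subgroup.mem_normalizer_iff''.1 hxQ g).1 hg)
      (fun g hg => hW₀Q g (hQS hg)) (fun w hw => wsp_stab d.xμ hw) hnt
    obtain ⟨W, hWW', hW⟩ := exists_irrOn ρ Q x hW'0 hW'Q hW'b
    have hcore := core_C (p := 2) (q := s) (n := n) (Ne.symm d.s2) hsK (by exact_mod_cast h2K) hQpg (x := x) d.xo hxQ
        (Cop.commutator_commutator_eq hBS hBScop (Or.inr hsolS)) (by
        intro g hg hc h hh
        have h1 : g ∈ Z := comm_cent d.hs hSn hZn d.pow (fun x hx y hy => d.c2.comm x hx y hy) hBc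
          ((Nat.coprime_primes Nat.prime_two d.hs).2 (Ne.symm d.s2)) hg (by
            intro β hβ
            obtain ⟨k, rfl⟩ := Subgroup.mem_zpowers_iff.1 hβ
            exact (hc.zpow_left k))
        exact d.c2.cen g h1 h (hQS hh)) (by
        intro g hg h hh k hk
        exact d.c2.cen _ (d.c2.comm g (hQS hg) h (hQS hh)) k (hQS hk)) hW
        (fun w hw => hW'fix w (hWW' hw))
    rcases hcore with h1 | h1
    · obtain ⟨v, hvW, hv0, hv⟩ := h1 1 (one_pow _)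
      apply hv0
      apply hfixB v (hW'le (hWW' hvW))
      rw [hv, one_smul]
    · obtain ⟨k₁, n₀, b', U, R, hE⟩ := h1
      have h1 := hE.one_le
      have h2 := hE.le
      have h4 := hE.eq
      have hb := b_eq_one d.hs d.s2 hE.b_pos h4
      have hn₀ := n_ge_two d.hs hE.b_pos h4
      subst hb
      obtain ⟨ζ, hζ⟩ : ∃ ζ : K, IsPrimitiveRoot ζ s := by
        haveI : NeZero (s : K) := ⟨hsK⟩
        exact HasEnoughRootsOfUnity.exists_primitiveRoot K s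
      have hcase : 3 ≤ n ∨ 5 ≤ t := by
        by_cases hn3 : 3 ≤ n
        · exact Or.inl hn3
        · right
          have h5 : n₀ = 2 := by omega
          rw [h5] at h4
          have h6 : s = 3 := by
            have h11 : 2 ^ 2 - 1 = s ^ 1 := h4
            rw [pow_one] at h11
            omega
          have h7 := d.ht.two_le
          have h8 := d.t2
          have h9 := d.st
          have h10 : t ≠ 4 := by
            rintro rfl
            exact absurd d.ht (by norm_num)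
          omega
      refine d.caseB hζ hcase ?_
      have hrelR := hE.relR
      rw [mul_one] at hrelR
      rw [← hrelR, ← hQ]
      apply Subgroup.relIndex_le_of_le_left
      · intro g hgR
        have hgQ : g ∈ Q := ((hE.memR g).1 hgR).1
        have hgc := ((hE.memR g).1 hgR).2
        have hgQ1 : ∀ h ∈ Q, μ ⁅g, h⁆ = 1 := by
          intro h hh
          obtain ⟨u, huU, hu0⟩ := (Submodule.ne_bot_iff _).1 hE.ne
          have h5 : ∀ w ∈ U, w ∈ wsp ρ Z μ := fun w hw => hW'le (hWW' (hE.UW hw))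
          -- use the vector `ρ (h g)⁻¹ u`
          have h6 : ρ (h * g)⁻¹ u ∈ U := hE.invQ _ (Q.inv_mem (Q.mul_mem hh hgQ)) u huU
          have h7 := hgc h hh _ h6
          rw [← rho_mul, ← rho_mul, ← rho_mul, ← rho_mul] at h7
          have h8 : h * g * (h * g)⁻¹ = 1 := by group
          have h9 : g * h * (h * g)⁻¹ = ⁅g, h⁆ := by rw [commutatorElement_def]; group
          rw [h8, h9, h5 u huU _ (d.c2.comm g (hQS hgQ) h (hQS hh)), map_one] at h7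
          have h10 : (μ ⁅g, h⁆ - 1) • u = 0 := by
            rw [sub_smul, one_smul, h7]
            exact sub_self _
          rcases smul_eq_zero.1 h10 with h11 | h11
          · exact sub_eq_zero.1 h11
          · exact absurd h11 hu0
        refine ⟨hQS hgQ, fun h hh => ?_⟩
        obtain ⟨u, hu, c, hc, rfl⟩ := Cop.exists_eq_mul_of_mem hBS hBScop (Or.inr hsolS) hh
        rw [d.c2.right (hQS hgQ) (hQS hu) hc.1, hgQ1 u hu, d.c2.orth hBμ hgQ hc.1 hc.2, one_mul]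
      · rw [hrelR]
        have := d.hs.pos
        positivity
  · -- the trivial case
    push Not at hnt
    apply d.caseA
    intro g hg h hh
    obtain ⟨u, hu, hu0⟩ := (Submodule.ne_bot_iff _).1 hμ
    have h1 : ρ ⁅g, h⁆ u = u := by
      have h2 : ⁅g, h⁆ = g * (h * (g⁻¹ * h⁻¹)) := by rw [commutatorElement_def]; group
      have h3 : ρ h⁻¹ u ∈ wsp ρ Z μ := hW₀Q _ (S.inv_mem hh) u hu
      rw [h2, rho_mul, rho_mul, rho_mul, hnt g⁻¹ (Q.inv_mem hg) _ h3, rho_apply_inv, hnt g hg u hu]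
    rw [hu _ (d.c2.comm g (hQS hg) h hh)] at h1
    have h2 : (μ ⁅g, h⁆ - 1) • u = 0 := by rw [sub_smul, one_smul, h1, sub_self]
    rcases smul_eq_zero.1 h2 with h3 | h3
    · exact sub_eq_zero.1 h3
    · exact absurd h3 hu0

end Cfsg.Agent.H62.GR
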