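import Mathlib
import Cfsg.Agent.H62.GR4

set_option autoImplicit false
set_option linter.style.haveILetI false
set_option linter.unusedSectionVars false

/-!
From the special case to the core theorem (helper62).
-/

namespace Cfsg.Agent.H62.GR

open Cfsg.Agent.HH Cfsg.Agent.H62.PQ Module
open scoped BigOperators commutatorElement TensorProduct

universe u v w

variable {Γ : Type u} [Group Γ] [Finite Γ]

/-- the data of the core theorem -/
structure Dat (s t n : ℕ) (S T : Subgroup Γ) (x : Γ) : Prop where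
  Sn : S.Normal
  hs : s.Prime
  ht : t.Prime
  st : s ≠ t
  s2 : s ≠ 2
  t2 : t ≠ 2
  hS : IsPGroup s S
  hT : IsPGroup t T
  n1 : 1 ≤ n
  xn : x ^ 2 ^ n = 1
  xT : x ∈ Subgroup.normalizer (T : Set Γ)
  Tx : ⁅T, Subgroup.zpowers (x ^ 2 ^ (n - 1))⁆ = T
  CS : ∀ g ∈ S, x * g = g * x → g = 1
  TT : ∀ z ∈ ⁅T, T⁆, ∀ g ∈ T, ∀ y ∈ S, ⁅z, g⁆ * y = y * ⁅z, g⁆
  Tx0 : ∀ z ∈ ⁅T, T⁆, ∀ y ∈ S, ⁅z, x ^ 2 ^ (n - 1)⁆ * y = y * ⁅z, x ^ 2 ^ (n - 1)⁆
  nt : ⁅S, T⁆ ≠ ⊥
  min : ∀ U : Subgroup Γ, U < S → T ⊔ Subgroup.zpowers x ≤ Subgroup.normalizer (U : Set Γ) → ⁅U, T⁆ = ⊥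

namespace Dat

variable {s t n : ℕ} {S T : Subgroup Γ} {x : Γ} (d : Dat s t n S T x)

include d

theorem normS (X : Subgroup Γ) : X ≤ Subgroup.normalizer (S : Set Γ) := by
  haveI := d.Sn
  rw [Subgroup.normalizer_eq_top]; exact le_top

theorem xT' : Subgroup.zpowers x ≤ Subgroup.normalizer (T : Set Γ) := by
  rw [Subgroup.zpowers_le]; exact d.xT

theorem BT : T ⊔ Subgroup.zpowers x ≤ Subgroup.normalizer (T : Set Γ) := sup_le Subgroup.le_normalizer d.xT'

theorem copTs : (Nat.card T).Coprime s := by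
  haveI : Fact t.Prime := ⟨d.ht⟩
  obtain ⟨k, hk⟩ := IsPGroup.iff_card.1 d.hT
  rw [hk]
  exact ((Nat.coprime_primes d.ht d.hs).2 (Ne.symm d.st)).pow_left k

theorem ST : ⁅S, T⁆ = S := by
  haveI : Fact s.Prime := ⟨d.hs⟩
  exact Cop.min_commutator_eq d.hS (d.normS (T ⊔ Subgroup.zpowers x)) le_sup_left d.BT d.copTs d.nt d.min

theorem copxs : (Nat.card (Subgroup.zpowers x)).Coprime s := by
  rw [Nat.card_zpowers]
  apply Nat.Coprime.coprime_dvd_left (orderOf_dvd_of_pow_eq_one d.xn)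
  exact ((Nat.coprime_primes Nat.prime_two d.hs).2 (Ne.symm d.s2)).pow_left n

theorem T_not_cent (h : T ≤ Subgroup.centralizer (S : Set Γ)) : False := by
  apply d.nt
  rw [Subgroup.commutator_comm, Subgroup.commutator_eq_bot_iff_le_centralizer]
  exact h

theorem TT' : ⁅T, T⁆ ≤ T := Subgroup.le_normalizer_iff_commutator_le_left.1 Subgroup.le_normalizer

/-- the star property -/
theorem star (hZn : (S ⊓ Subgroup.centralizer (T : Set Γ)).Normal)
    (hpow : ∀ x ∈ S, x ^ s ∈ S ⊓ Subgroup.centralizer (T : Set Γ))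
    (hcomm : ∀ x ∈ S, ∀ y ∈ S, x * y * x⁻¹ * y⁻¹ ∈ S ⊓ Subgroup.centralizer (T : Set Γ)) :
    S ⊓ Subgroup.centralizer ((⁅T, T⁆ : Subgroup Γ) : Set Γ) ≤ S ⊓ Subgroup.centralizer (T : Set Γ) := by
  classical
  haveI : Fact s.Prime := ⟨d.hs⟩
  haveI : Fact t.Prime := ⟨d.ht⟩
  have hSn := d.Sn
  set Z : Subgroup Γ := S ⊓ Subgroup.centralizer (T : Set Γ) with hZ
  have hZS : Z ≤ S := inf_le_left
  -- the preimage of the fixed points
  let U : Subgroup Γ :=
    { carrier := {g | g ∈ S ∧ ∀ u ∈ ⁅T, T⁆, u * g * u⁻¹ * g⁻¹ ∈ Z}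
      one_mem' := ⟨S.one_mem, fun u _ => by
        have h1 : u * 1 * u⁻¹ * (1 : Γ)⁻¹ = 1 := by group
        rw [h1]; exact Z.one_mem⟩
      mul_mem' := by
        rintro a b ⟨ha, ha'⟩ ⟨hb, hb'⟩
        refine ⟨S.mul_mem ha hb, fun u hu => ?_⟩
        have h1 : u * (a * b) * u⁻¹ * (a * b)⁻¹ = (u * a * u⁻¹ * a⁻¹) * (a * (u * b * u⁻¹ * b⁻¹) * a⁻¹) := by group
        rw [h1]
        exact Z.mul_mem (ha' u hu) (hZn.conj_mem _ (hb' u hu) a)
      inv_mem' := by
        rintro a ⟨ha, ha'⟩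
        refine ⟨S.inv_mem ha, fun u hu => ?_⟩
        have h1 : u * a⁻¹ * u⁻¹ * a⁻¹⁻¹ = a⁻¹ * (u * a * u⁻¹ * a⁻¹)⁻¹ * a⁻¹⁻¹ := by group
        rw [h1]
        exact hZn.conj_mem _ (Z.inv_mem (ha' u hu)) a⁻¹ }
  have hUS : U ≤ S := fun g hg => hg.1
  have hTTn : T ⊔ Subgroup.zpowers x ≤ Subgroup.normalizer ((⁅T, T⁆ : Subgroup Γ) : Set Γ) :=
    le_normalizer_comm d.BT d.BT
  have hUconj : ∀ c ∈ T ⊔ Subgroup.zpowers x, ∀ g ∈ U, c * g * c⁻¹ ∈ U := by
    rintro c hc g ⟨hg, hg'⟩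
    refine ⟨hSn.conj_mem g hg c, fun u hu => ?_⟩
    have h1 : u * (c * g * c⁻¹) * u⁻¹ * (c * g * c⁻¹)⁻¹ =
        c * ((c⁻¹ * u * c) * g * (c⁻¹ * u * c)⁻¹ * g⁻¹) * c⁻¹ := by group
    rw [h1]
    exact hZn.conj_mem _ (hg' _ ((Subgroup.mem_normalizer_iff''.1 (hTTn hc) u).1 hu)) c
  have hUn : T ⊔ Subgroup.zpowers x ≤ Subgroup.normalizer (U : Set Γ) := by
    intro c hc
    rw [Subgroup.mem_normalizer_iff]
    intro g
    constructor
    · exact hUconj c hc g
    · intro h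
      have h2 := hUconj c⁻¹ (Subgroup.inv_mem _ hc) _ h
      have h3 : c⁻¹ * (c * g * c⁻¹) * c⁻¹⁻¹ = g := by group
      rwa [h3] at h2
  have hCU : S ⊓ Subgroup.centralizer ((⁅T, T⁆ : Subgroup Γ) : Set Γ) ≤ U := by
    rintro g ⟨hg, hgc⟩
    refine ⟨hg, fun u hu => ?_⟩
    have h1 : u * g = g * u := Subgroup.mem_centralizer_iff.1 hgc u hu
    have h2 : u * g * u⁻¹ * g⁻¹ = 1 := by rw [h1]; group
    rw [h2]; exact Z.one_mem
  by_cases hUeq : U = S
  swap
  · have h1 := d.min U (lt_of_le_of_ne hUS hUeq) hUn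
    rw [Subgroup.commutator_eq_bot_iff_le_centralizer] at h1
    exact le_inf inf_le_left (hCU.trans h1)
  · exfalso
    obtain ⟨M, iA, iM, iF, ⟨E⟩⟩ := exists_gmod hSn hZn hpow hcomm
    haveI : Module.Finite (ZMod s) M := Module.Finite.of_finite
    set N : Subgroup Γ := MonoidHom.ker (E.σ : Γ →* Module.End (ZMod s) M) with hN
    have hNmem : ∀ g, g ∈ N ↔ E.σ g = 1 := fun g => MonoidHom.mem_ker
    have hTTN : ⁅T, T⁆ ≤ N := by
      intro u hu
      rw [hNmem]
      apply LinearMap.ext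
      intro m
      obtain ⟨a, rfl⟩ := E.surj m
      have ha : (a : Γ) ∈ U := by rw [hUeq]; exact a.2
      have h1 := hSn.conj_mem a a.2 u
      refine (E.fix_iff u a h1).2 ?_
      have h2 : (a : Γ)⁻¹ * (u * a * u⁻¹) = (a : Γ)⁻¹ * (u * a * u⁻¹ * (a : Γ)⁻¹) * (a : Γ)⁻¹⁻¹ := by group
      rw [h2]
      exact hZn.conj_mem _ (ha.2 u hu) _
    let π : Γ →* Γ ⧸ N := QuotientGroup.mk' N
    have hπs : Function.Surjective π := QuotientGroup.mk'_surjective N
    let σ' : Representation (ZMod s) (Γ ⧸ N) M := QuotientGroup.lift N (E.σ : Γ →* Module.End (ZMod s) M) le_rfl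
    have hσ' : ∀ g, σ' (π g) = E.σ g := fun g => rfl
    have hπ1 : ∀ g, E.σ g = 1 → π g = 1 := fun g hg => (QuotientGroup.eq_one_iff g).2 ((hNmem g).2 hg)
    have hinj : Function.Injective σ' := by
      rw [injective_iff_map_eq_one]
      intro x
      obtain ⟨g, rfl⟩ := hπs x
      intro hg
      rw [hσ'] at hg
      exact hπ1 g hg
    have hfixx : ∀ m : M, (∀ a ∈ Subgroup.zpowers x, E.σ a m = m) → m = 0 := by
      intro m hm
      refine E.eq_zero d.hs d.hS d.Sn hZn inf_le_left d.copxs ?_ hm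
      rintro g ⟨hg, hgc⟩
      have h1 := d.CS g hg (Subgroup.mem_centralizer_iff.1 hgc x (Subgroup.mem_zpowers x))
      rw [h1]
      exact Subgroup.one_mem _
    have h2K : (2 : AlgebraicClosure (ZMod s)) ≠ 0 := by
      have := cast_ne_zero_bc (ℓ := s) Nat.prime_two d.s2
      exact_mod_cast this
    have hπxn : (π x) ^ 2 ^ n = 1 := by rw [← map_pow, d.xn, map_one]
    have hbc := bc_nofix σ' (Subgroup.zpowers (π x)) (by
      intro m hm
      apply hfixx
      intro a ha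
      rw [← hσ']
      apply hm
      rw [← MonoidHom.map_zpowers]
      exact Subgroup.mem_map_of_mem π ha) (card_zpowers_ne hπxn h2K)
    have hTn : π x ∈ Subgroup.normalizer ((T.map π : Subgroup (Γ ⧸ N)) : Set (Γ ⧸ N)) := by
      rw [Subgroup.mem_normalizer_iff]
      intro y
      obtain ⟨g, rfl⟩ := hπs y
      have hsub : ∀ c : Γ, c ∈ Subgroup.normalizer (T : Set Γ) → ∀ y ∈ T.map π, π c * y * (π c)⁻¹ ∈ T.map π := by
        rintro c hc _ ⟨z, hz, rfl⟩
        exact ⟨c * z * c⁻¹, (Subgroup.mem_normalizer_iff.1 hc z).1 hz, by simp⟩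
      constructor
      · exact hsub x d.xT _
      · intro h
        have h2 := hsub x⁻¹ (Subgroup.inv_mem _ d.xT) _ h
        have h3 : π x⁻¹ * (π x * π g * (π x)⁻¹) * (π x⁻¹)⁻¹ = π g := by rw [map_inv]; group
        rwa [h3] at h2
    have h1 := ab (ρ := bc (ZMod s) σ') (q := t) (B := T.map π) (x := π x) (n := n) d.t2 h2K
      (cast_ne_zero_bc d.ht d.st) (d.hT.map π) (by
        rintro _ ⟨a, ha, rfl⟩ _ ⟨b, hb, rfl⟩
        have h2 : ⁅π a, π b⁆ = 1 := by
          rw [← map_commutatorElement]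
          exact (QuotientGroup.eq_one_iff _).2 (hTTN (Subgroup.commutator_mem_commutator ha hb))
        rwa [commutatorElement_eq_one_iff_mul_comm] at h2) d.n1 hπxn hTn (by
        intro g _ hg
        apply bc_injective (ZMod s) σ' hinj
        rw [hg, map_one]) (by
        intro v hv
        apply hbc v
        intro a ha
        have h2 : Subgroup.zpowers (π x) ≤ fixer (bc (ZMod s) σ') v := by
          rw [Subgroup.zpowers_le]
          exact hv
        exact h2 ha)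
    rw [← map_pow, ← MonoidHom.map_zpowers, ← Subgroup.map_commutator, d.Tx, Subgroup.map_eq_bot_iff,
      QuotientGroup.ker_mk'] at h1
    -- `T` acts trivially on `S / Z`
    have h2 : ⁅S, T⁆ ≤ Z := by
      rw [Subgroup.commutator_le]
      intro a ha τ hτ
      have h3 := (hNmem τ).1 (h1 hτ)
      have h4 := hSn.conj_mem a ha τ
      have h5 := (E.fix_iff τ ⟨a, ha⟩ h4).1 (by rw [h3]; rfl)
      change a⁻¹ * (τ * a * τ⁻¹) ∈ Z at h5
      have h6 : ⁅a, τ⁆ = (a * (a⁻¹ * (τ * a * τ⁻¹)) * a⁻¹)⁻¹ := by rw [commutatorElement_def]; group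
      rw [h6]
      exact Z.inv_mem (hZn.conj_mem _ h5 a)
    rw [d.ST] at h2
    apply d.nt
    rw [Subgroup.commutator_eq_bot_iff_le_centralizer]
    exact h2.trans inf_le_right

end Dat

/-- **The core theorem.** -/
theorem Dat.false {K : Type w} [Field K] {V : Type v} [AddCommGroup V] [Module K V] [FiniteDimensional K V]
    [IsAlgClosed K] {ρ : Representation K Γ V} {s t n : ℕ} {S T : Subgroup Γ} {x : Γ} (d : Dat s t n S T x)
    (hsK : (s : K) ≠ 0) (h2K : (2 : K) ≠ 0) (hinj : ∀ g ∈ S, ρ g = 1 → g = 1)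
    (hfix : ∀ v, ρ x v = v → v = 0) : False := by
  classical
  haveI : Fact s.Prime := ⟨d.hs⟩
  haveI : Fact t.Prime := ⟨d.ht⟩
  haveI : Fact (Nat.Prime 2) := ⟨Nat.prime_two⟩
  have hSn := d.Sn
  have hwt : ∀ Z : Subgroup Γ, Z ≤ S → (∀ a ∈ Z, ∀ b ∈ Z, a * b = b * a) → Z ≠ ⊥ →
      ∃ μ : Γ → K, wsp ρ Z μ ≠ ⊥ ∧ ∃ z ∈ Z, μ z ≠ 1 := by
    intro Z hZS hZc hZ1
    apply exists_weight ρ Z hZc
    · obtain ⟨k, hk⟩ := IsPGroup.iff_card.1 (d.hS.to_le hZS)
      rw [hk, Nat.cast_pow]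
      exact pow_ne_zero _ hsK
    · obtain ⟨g, hg⟩ := Subgroup.ne_bot_iff_exists_ne_one.1 hZ1
      exact ⟨g, g.2, fun h0 => hg (Subtype.ext (hinj g (hZS g.2) h0))⟩
  rcases Cop.min_structure d.hS (d.normS (T ⊔ Subgroup.zpowers x)) le_sup_left d.BT d.copTs d.nt d.min with
    ⟨h1, h2⟩ | ⟨h1, h2, h3⟩
  · -- the elementary case
    have hc : ∀ x ∈ S, ∀ y ∈ S, x * y = y * x := fun x hx y hy =>
      congrArg Subtype.val (h1.1.1.1 ⟨x, hx⟩ ⟨y, hy⟩)
    have h4 := ab (ρ := ρ) (q := s) (B := S) d.s2 h2K hsK d.hS hc d.n1 d.xn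
      (d.normS (Subgroup.zpowers x) (Subgroup.mem_zpowers x)) hinj hfix
    rw [Subgroup.commutator_comm, Subgroup.commutator_eq_bot_iff_le_centralizer] at h4
    have hCn : (Subgroup.centralizer (S : Set Γ)).Normal := inferInstance
    apply d.T_not_cent
    rw [← d.Tx]
    calc ⁅T, Subgroup.zpowers (x ^ 2 ^ (n - 1))⁆ ≤ ⁅(⊤ : Subgroup Γ), Subgroup.centralizer (S : Set Γ)⁆ :=
          Subgroup.commutator_mono le_top h4
      _ ≤ Subgroup.centralizer (S : Set Γ) := Subgroup.commutator_le_right _ _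
  · -- the special case
    have hZeq : S ⊓ Subgroup.centralizer (T : Set Γ) = (Subgroup.center S).map S.subtype := h3.symm
    have hcen : ∀ z ∈ S ⊓ Subgroup.centralizer (T : Set Γ), ∀ g ∈ S, z * g = g * z := by
      intro z hz g hg
      rw [hZeq] at hz
      obtain ⟨z, hz, rfl⟩ := hz
      exact (congrArg Subtype.val (Subgroup.mem_center_iff.1 hz ⟨g, hg⟩)).symm
    have hcommS : ⁅S, S⁆ = S ⊓ Subgroup.centralizer (T : Set Γ) := by
      rw [hZeq, ← h1.2.2, commutator_def, Subgroup.map_commutator, ← MonoidHom.range_eq_map, Subgroup.range_subtype]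
    have hZ1 : S ⊓ Subgroup.centralizer (T : Set Γ) ≠ ⊥ := by
      intro hbot
      apply h2
      rw [hbot, Subgroup.commutator_eq_bot_iff_le_centralizer] at hcommS
      exact ⟨⟨fun x y => Subtype.ext (Subgroup.mem_centralizer_iff.1 (hcommS y.2) x x.2)⟩⟩
    have hZn : (S ⊓ Subgroup.centralizer (T : Set Γ)).Normal := by
      rw [hZeq]
      infer_instance
    have hpow : ∀ x ∈ S, x ^ s ∈ S ⊓ Subgroup.centralizer (T : Set Γ) := by
      intro x hx
      rw [hZeq, ← h1.2.1]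
      exact ⟨⟨x, hx⟩ ^ s, Solv.pow_mem_frattini_of_pGroup d.hS _, rfl⟩
    have hcomm : ∀ x ∈ S, ∀ y ∈ S, ⁅x, y⁆ ∈ S ⊓ Subgroup.centralizer (T : Set Γ) := by
      intro x hx y hy
      rw [← hcommS]
      exact Subgroup.commutator_mem_commutator hx hy
    obtain ⟨μ, hμ, z₁, hz₁, hz₁1⟩ := hwt _ inf_le_left (fun a ha b hb => hcen a ha b hb.1) hZ1
    have hμm := mult_of_ne hμ
    have hstar := d.star hZn hpow (fun x hx y hy => hcomm x hx y hy)
    set Z : Subgroup Γ := S ⊓ Subgroup.centralizer (T : Set Γ) with hZ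
    have hZK : (Nat.card Z : K) ≠ 0 := by
      obtain ⟨k, hk⟩ := IsPGroup.iff_card.1 (d.hS.to_le (inf_le_left : Z ≤ S))
      rw [hk, Nat.cast_pow]
      exact pow_ne_zero _ hsK
    have htop : ∀ x : Γ, x ∈ Subgroup.normalizer (Z : Set Γ) := fun x => by
      rw [Subgroup.normalizer_eq_top]; trivial
    have hxZ : Subgroup.zpowers x ≤ Subgroup.normalizer (Z : Set Γ) := fun y _ => htop y
    have hst : ∀ u ∈ wsp ρ Z μ, (∀ a ∈ Subgroup.zpowers x ⊓ stabW Z μ, ρ a u = u) → u = 0 := fun u hu hfu =>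
      stab_fixed_eq_zero (A := Subgroup.zpowers x) hxZ (card_zpowers_ne d.xn h2K) hZK
        (fun v hv => hfix v (hv x (Subgroup.mem_zpowers x))) hμm hu hfu
    have hA1 : Subgroup.zpowers x ⊓ stabW Z μ ≠ ⊥ := by
      intro hbot
      obtain ⟨u, hu, hu0⟩ := (Submodule.ne_bot_iff _).1 hμ
      apply hu0
      apply hst u hu
      intro a ha
      rw [hbot, Subgroup.mem_bot] at ha
      rw [ha, map_one]; rfl
    obtain ⟨i, hi, hAi⟩ := sub_cyclic d.xn inf_le_left hA1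
    -- the order of `x`
    have hx₀1 : x ^ 2 ^ (n - 1) ≠ 1 := by
      intro h0
      have h4 := d.Tx
      rw [h0, Subgroup.zpowers_one_eq_bot, Subgroup.commutator_bot_right] at h4
      apply d.nt
      rw [← h4, Subgroup.commutator_bot_right]
    have hxo : orderOf x = 2 ^ n := by
      obtain ⟨m, hm⟩ : ∃ m, n = m + 1 := ⟨n - 1, by omega⟩
      subst hm
      rw [Nat.add_sub_cancel] at hx₀1
      exact orderOf_eq_prime_pow hx₀1 d.xn
    have hτo : orderOf (x ^ 2 ^ i) = 2 ^ (n - i) := by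
      rw [orderOf_pow, hxo, Nat.gcd_eq_right (Nat.pow_dvd_pow 2 hi.le), Nat.pow_div hi.le (by norm_num)]
    have hτ0 : (x ^ 2 ^ i) ^ 2 ^ (n - i - 1) = x ^ 2 ^ (n - 1) := by
      rw [← pow_mul, ← pow_add]
      congr 2
      omega
    have hτμ : x ^ 2 ^ i ∈ stabW Z μ := by
      have h4 : x ^ 2 ^ i ∈ Subgroup.zpowers x ⊓ stabW Z μ := by
        rw [hAi]; exact Subgroup.mem_zpowers _
      exact h4.2
    have g : Gr s t (n - i) S T Z (x ^ 2 ^ i) μ :=
      { c2 := ⟨d.Sn, inf_le_left, hcen, hcomm, hμm⟩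
        Zn := hZn
        hs := d.hs
        ht := d.ht
        st := d.st
        s2 := d.s2
        t2 := d.t2
        hS := d.hS
        hT := d.hT
        pow := hpow
        TZ := by
          intro τ hτ
          refine ⟨htop τ, fun z hz => ?_⟩
          have h1 : τ * z = z * τ := Subgroup.mem_centralizer_iff.1 hz.2 τ hτ
          rw [mul_assoc, ← h1, inv_mul_cancel_left]
        n1 := by omega
        xo := hτo
        xT := Subgroup.pow_mem _ d.xT _
        xμ := hτμ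
        Tx := by rw [hτ0]; exact d.Tx
        star := hstar
        ST := d.ST
        TT := d.TT
        Tx0 := by rw [hτ0]; exact d.Tx0
        nrad := by
          intro hall
          let D : Subgroup Γ :=
            { carrier := {z | z ∈ Z ∧ μ z = 1}
              one_mem' := ⟨Z.one_mem, hμm.one⟩
              mul_mem' := by
                rintro a b ⟨ha, ha'⟩ ⟨hb, hb'⟩
                exact ⟨Z.mul_mem ha hb, by rw [hμm.mul a ha b hb, ha', hb', mul_one]⟩
              inv_mem' := by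
                rintro a ⟨ha, ha'⟩
                exact ⟨Z.inv_mem ha, by rw [hμm.inv ha, ha', inv_one]⟩ }
          have h1 : ⁅S, S⁆ ≤ D := by
            rw [Subgroup.commutator_le]
            intro x hx y hy
            exact ⟨hcomm x hx y hy, hall x hx y hy⟩
          rw [hcommS] at h1
          exact hz₁1 (h1 hz₁).2 }
    refine g.false hμ hsK h2K ?_
    intro w hw hxw
    apply hst w hw
    rw [hAi]
    intro a ha
    have h4 : Subgroup.zpowers (x ^ 2 ^ i) ≤ fixer ρ w := by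
      rw [Subgroup.zpowers_le]
      exact hxw
    exact h4 ha

end Cfsg.Agent.H62.GR
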