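import Mathlib
import Cfsg.Agent.H62.GR5

set_option autoImplicit false
set_option linter.style.haveILetI false
set_option linter.unusedSectionVars false

/-!
The core theorem for pairs of subgroups, enhanced chief representations (helper62).
-/

namespace Cfsg.Agent.H62.GR

open Cfsg.Agent.HH Cfsg.Agent.H62.PQ Cfsg.Agent.H62.ChiefRep Module
open scoped BigOperators commutatorElement TensorProduct

universe u v w

/-- the core theorem for a normal `s`-subgroup and an invariant `t`-subgroup -/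
theorem core_big {H : Type u} [Group H] [Finite H] {K : Type w} [Field K] [IsAlgClosed K] {V : Type v} [AddCommGroup V]
    [Module K V] [FiniteDimensional K V] (ρ : Representation K H V) {s t n : ℕ} {S₁ T₁ : Subgroup H} {x : H}
    (S₁n : S₁.Normal) (hs : s.Prime) (ht : t.Prime) (st : s ≠ t) (s2 : s ≠ 2) (t2 : t ≠ 2)
    (hS : IsPGroup s S₁) (hT : IsPGroup t T₁) (n1 : 1 ≤ n) (xn : x ^ 2 ^ n = 1)
    (xT : Subgroup.zpowers x ≤ Subgroup.normalizer (T₁ : Set H)) (CS : ∀ g ∈ S₁, x * g = g * x → g = 1)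
    (hsK : (s : K) ≠ 0) (h2K : (2 : K) ≠ 0) (hinj : ∀ g ∈ S₁, ρ g = 1 → g = 1)
    (hfix : ∀ v, ρ x v = v → v = 0) : ⁅S₁, ⁅T₁, Subgroup.zpowers (x ^ 2 ^ (n - 1))⁆⁆ = ⊥ := by
  classical
  haveI : Fact s.Prime := ⟨hs⟩
  haveI : Fact t.Prime := ⟨ht⟩
  by_contra hne
  set X₀ := Subgroup.zpowers (x ^ 2 ^ (n - 1)) with hX₀
  have hX₀x : X₀ ≤ Subgroup.zpowers x := by
    rw [hX₀, Subgroup.zpowers_le]
    exact Subgroup.pow_mem _ (Subgroup.mem_zpowers x) _
  have hxX₀ : Subgroup.zpowers x ≤ Subgroup.normalizer (X₀ : Set H) := by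
    refine le_trans ?_ (Subgroup.centralizer_le_normalizer _)
    rw [Subgroup.zpowers_le, Subgroup.mem_centralizer_iff]
    intro y hy
    obtain ⟨k, rfl⟩ := Subgroup.mem_zpowers_iff.1 hy
    have h1 : Commute x ((x ^ 2 ^ (n - 1)) ^ k) := ((Commute.refl x).pow_right _).zpow_right k
    exact h1.eq.symm
  have hX₀c : Nat.card X₀ ∣ 2 := by
    rw [hX₀, Nat.card_zpowers]
    exact orderOf_dvd_of_pow_eq_one (by rw [sq]; exact sq_pow n1 xn)
  obtain ⟨T, hTT₁, hTm⟩ := (Set.toFinite {T : Subgroup H | Subgroup.zpowers x ≤ Subgroup.normalizer (T : Set H) ∧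
    ⁅S₁, ⁅T, X₀⁆⁆ ≠ ⊥}).exists_le_minimal (a := T₁) ⟨xT, hne⟩
  have hxT := hTm.prop.1
  have hTne := hTm.prop.2
  have hTp : IsPGroup t T := hT.to_le hTT₁
  have hX₀T : X₀ ≤ Subgroup.normalizer (T : Set H) := hX₀x.trans hxT
  have hTX₀ : ⁅T, X₀⁆ ≤ T := Subgroup.le_normalizer_iff_commutator_le_left.1 hX₀T
  have hcop : (Nat.card X₀).Coprime (Nat.card T) := by
    apply Nat.Coprime.coprime_dvd_left hX₀c
    obtain ⟨k, hk⟩ := IsPGroup.iff_card.1 hTp
    rw [hk]
    exact ((Nat.coprime_primes Nat.prime_two ht).2 (Ne.symm t2)).pow_right k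
  have hTsol : Group.IsSolvable T := by
    haveI := hTp.isNilpotent
    exact inferInstance
  have hTx : ⁅T, X₀⁆ = T := by
    apply le_antisymm hTX₀
    apply hTm.le_of_le _ hTX₀
    refine ⟨le_normalizer_comm hxT hxX₀, ?_⟩
    rw [Cop.commutator_commutator_eq hX₀T hcop (Or.inr hTsol)]
    exact hTne
  rw [hTx] at hTne
  -- passing to the quotient by the centralizer
  set C : Subgroup H := Subgroup.centralizer (S₁ : Set H) with hC
  haveI hCn : C.Normal := by rw [hC]; infer_instance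
  let π : H →* H ⧸ C := QuotientGroup.mk' C
  have hπs : Function.Surjective π := QuotientGroup.mk'_surjective C
  have hker : ∀ g, π g = 1 ↔ g ∈ C := fun g => QuotientGroup.eq_one_iff g
  have hT3 : ∀ z ∈ ⁅T, T⁆, (∀ g ∈ T, π z * π g = π g * π z) ∧ π z * π (x ^ 2 ^ (n - 1)) = π (x ^ 2 ^ (n - 1)) * π z := by
    have hmapn : ∀ Y Z : Subgroup H, Y ≤ Subgroup.normalizer (Z : Set H) →
        Y.map π ≤ Subgroup.normalizer ((Z.map π : Subgroup (H ⧸ C)) : Set (H ⧸ C)) := by
      rintro Y Z hYZ _ ⟨c, hc, rfl⟩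
      have hsub : ∀ c : H, c ∈ Subgroup.normalizer (Z : Set H) → ∀ y ∈ Z.map π, π c * y * (π c)⁻¹ ∈ Z.map π := by
        rintro c hc _ ⟨z, hz, rfl⟩
        exact ⟨c * z * c⁻¹, (Subgroup.mem_normalizer_iff.1 hc z).1 hz, by simp⟩
      rw [Subgroup.mem_normalizer_iff]
      intro y
      obtain ⟨g, rfl⟩ := hπs y
      constructor
      · exact hsub c (hYZ hc) _
      · intro h
        have h2 := hsub c⁻¹ (Subgroup.inv_mem _ (hYZ hc)) _ h
        have h3 : π c⁻¹ * (π c * π g * (π c)⁻¹) * (π c⁻¹)⁻¹ = π g := by rw [map_inv]; group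
        rwa [h3] at h2
    have hstr := Cop.min_structure (P := T.map π) (A := X₀.map π) (B := (Subgroup.zpowers x).map π) (p := t)
      (hTp.map π) (hmapn _ _ hxT) (Subgroup.map_mono hX₀x) (hmapn _ _ hxX₀) (by
        apply Nat.Coprime.coprime_dvd_left ((Subgroup.card_map_dvd X₀ π).trans hX₀c)
        exact (Nat.coprime_primes Nat.prime_two ht).2 (Ne.symm t2)) (by
        rw [← Subgroup.map_commutator, hTx]
        intro h0
        rw [Subgroup.map_eq_bot_iff, QuotientGroup.ker_mk'] at h0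
        apply hTne
        rw [Subgroup.commutator_comm, Subgroup.commutator_eq_bot_iff_le_centralizer]
        exact h0) (by
        intro U hU hUn
        set U' : Subgroup H := U.comap π ⊓ T with hU'
        have hU'map : U'.map π = U := by
          apply le_antisymm
          · rintro _ ⟨g, hg, rfl⟩
            exact hg.1
          · intro y hy
            obtain ⟨g, hg, rfl⟩ := hU.le hy
            exact ⟨g, ⟨hy, hg⟩, rfl⟩
        have hU'T : U' < T := by
          apply lt_of_le_of_ne inf_le_right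
          intro h0
          apply hU.ne
          rw [← hU'map, hU', h0]
        have hcm : Subgroup.zpowers x ≤ Subgroup.normalizer ((U.comap π : Subgroup H) : Set H) := by
          intro c hc
          have hcn : π c ∈ Subgroup.normalizer (U : Set (H ⧸ C)) := hUn (Subgroup.mem_map_of_mem π hc)
          rw [Subgroup.mem_normalizer_iff]
          intro g
          have h1 := Subgroup.mem_normalizer_iff.1 hcn (π g)
          rw [← map_mul, ← map_inv, ← map_mul] at h1
          exact h1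
        have hU'n : Subgroup.zpowers x ≤ Subgroup.normalizer (U' : Set H) := by
          intro c hc
          rw [Subgroup.mem_normalizer_iff]
          intro g
          exact and_congr (Subgroup.mem_normalizer_iff.1 (hcm hc) g) (Subgroup.mem_normalizer_iff.1 (hxT hc) g)
        have h1 : ⁅S₁, ⁅U', X₀⁆⁆ = ⊥ := by
          by_contra h0
          exact hU'T.not_ge (hTm.le_of_le ⟨hU'n, h0⟩ hU'T.le)
        rw [Subgroup.commutator_comm, Subgroup.commutator_eq_bot_iff_le_centralizer] at h1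
        rw [← hU'map, ← Subgroup.map_commutator, Subgroup.map_eq_bot_iff, QuotientGroup.ker_mk']
        exact h1)
    have hTTm : (⁅T, T⁆ : Subgroup H).map π = ⁅T.map π, T.map π⁆ := Subgroup.map_commutator T T π
    intro z hz
    have hzm : π z ∈ ⁅T.map π, T.map π⁆ := by rw [← hTTm]; exact Subgroup.mem_map_of_mem π hz
    have hx₀m : π (x ^ 2 ^ (n - 1)) ∈ X₀.map π := Subgroup.mem_map_of_mem π (Subgroup.mem_zpowers _)
    rcases hstr with ⟨h1, h2⟩ | ⟨h1, h2, h3⟩
    · have h4 : ⁅T.map π, T.map π⁆ = ⊥ := by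
        rw [Subgroup.commutator_eq_bot_iff_le_centralizer]
        intro a ha
        rw [Subgroup.mem_centralizer_iff]
        intro b hb
        exact congrArg Subtype.val (h1.1.1.1 ⟨b, hb⟩ ⟨a, ha⟩)
      rw [h4, Subgroup.mem_bot] at hzm
      exact ⟨fun g _ => by rw [hzm, one_mul, mul_one], by rw [hzm, one_mul, mul_one]⟩
    · have hcommT : ⁅T.map π, T.map π⁆ = (T.map π) ⊓ Subgroup.centralizer ((X₀.map π : Subgroup (H ⧸ C)) : Set (H ⧸ C)) := by
        rw [← h3, ← h1.2.2, commutator_def, Subgroup.map_commutator, ← MonoidHom.range_eq_map, Subgroup.range_subtype]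
      have hcenT : ⁅T.map π, T.map π⁆ = (Subgroup.center ↥(T.map π)).map (T.map π).subtype := by rw [hcommT, ← h3]
      constructor
      · intro g hg
        rw [hcenT] at hzm
        obtain ⟨z', hz', hzz⟩ := hzm
        have h5 := congrArg Subtype.val (Subgroup.mem_center_iff.1 hz' ⟨π g, Subgroup.mem_map_of_mem π hg⟩)
        have h6 : π g * (z' : H ⧸ C) = (z' : H ⧸ C) * π g := h5
        have h7 : (z' : H ⧸ C) = π z := hzz
        rw [h7] at h6
        exact h6.symm
      · rw [hcommT] at hzm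
        exact (Subgroup.mem_centralizer_iff.1 hzm.2 _ hx₀m).symm
  have hTT3 : ∀ z ∈ ⁅T, T⁆, ∀ g ∈ T, ⁅z, g⁆ ∈ C := by
    intro z hz g hg
    rw [← hker, map_commutatorElement, commutatorElement_eq_one_iff_mul_comm]
    exact (hT3 z hz).1 g hg
  have hTX3 : ∀ z ∈ ⁅T, T⁆, ⁅z, x ^ 2 ^ (n - 1)⁆ ∈ C := by
    intro z hz
    rw [← hker, map_commutatorElement, commutatorElement_eq_one_iff_mul_comm]
    exact (hT3 z hz).2
  -- minimal `S`
  have htop : ∀ L : Subgroup H, L ≤ Subgroup.normalizer (S₁ : Set H) := fun L => by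
    rw [Subgroup.normalizer_eq_top]; exact le_top
  obtain ⟨S, hSS₁, hSn, hSnt, hSmin⟩ := Cop.exists_min (A := T) (B := T ⊔ Subgroup.zpowers x) (P := S₁)
    (htop _) hTne
  have hSp : IsPGroup s S := hS.to_le hSS₁
  set Γ : Subgroup H := Subgroup.normalizer (S : Set H) with hΓ
  have hSΓ : S ≤ Γ := Subgroup.le_normalizer
  have hTΓ : T ≤ Γ := le_sup_left.trans hSn
  have hxΓ' : Subgroup.zpowers x ≤ Γ := le_sup_right.trans hSn
  have hxΓ : x ∈ Γ := hxΓ' (Subgroup.mem_zpowers x)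
  have hmapT : (T.subgroupOf Γ).map Γ.subtype = T := Subgroup.map_subgroupOf_eq_of_le hTΓ
  have hmapS : (S.subgroupOf Γ).map Γ.subtype = S := Subgroup.map_subgroupOf_eq_of_le hSΓ
  have hmapTT : (⁅T.subgroupOf Γ, T.subgroupOf Γ⁆).map Γ.subtype = ⁅T, T⁆ := by
    rw [Subgroup.map_commutator, hmapT]
  have hcoe0 : (((⟨x, hxΓ⟩ : Γ) ^ 2 ^ (n - 1) : Γ) : H) = x ^ 2 ^ (n - 1) := rfl
  have hmapx : (Subgroup.zpowers ((⟨x, hxΓ⟩ : Γ) ^ 2 ^ (n - 1))).map Γ.subtype = X₀ := by
    rw [MonoidHom.map_zpowers]; rfl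
  have d : Dat s t n (S.subgroupOf Γ) (T.subgroupOf Γ) (⟨x, hxΓ⟩ : Γ) :=
    { Sn := Subgroup.normal_subgroupOf_of_le_normalizer le_rfl
      hs := hs
      ht := ht
      st := st
      s2 := s2
      t2 := t2
      hS := IsPGroup.comap_subtype hSp
      hT := IsPGroup.comap_subtype hTp
      n1 := n1
      xn := Subtype.ext xn
      xT := by
        have h1 := hxT (Subgroup.mem_zpowers x)
        rw [Subgroup.mem_normalizer_iff] at h1 ⊢
        intro y
        exact h1 y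
      Tx := by
        apply Subgroup.map_injective Γ.subtype_injective
        rw [Subgroup.map_commutator, hmapT, hmapx]
        exact hTx
      CS := by
        intro g hg hxg
        exact Subtype.ext (CS g (hSS₁ hg) (congrArg Subtype.val hxg))
      TT := by
        intro z hz g hg y hy
        have h1 : (z : H) ∈ ⁅T, T⁆ := by
          rw [← hmapTT]
          exact Subgroup.mem_map_of_mem _ hz
        have h2 := hTT3 z h1 g hg
        apply Subtype.ext
        exact (Subgroup.mem_centralizer_iff.1 h2 y (hSS₁ hy)).symm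
      Tx0 := by
        intro z hz y hy
        have h1 : (z : H) ∈ ⁅T, T⁆ := by
          rw [← hmapTT]
          exact Subgroup.mem_map_of_mem _ hz
        have h2 := hTX3 z h1
        apply Subtype.ext
        exact (Subgroup.mem_centralizer_iff.1 h2 y (hSS₁ hy)).symm
      nt := by
        intro h0
        apply hSnt
        rw [← hmapS, ← hmapT, ← Subgroup.map_commutator, h0, Subgroup.map_bot]
      min := by
        intro U hU hUn
        have h1 : U.map Γ.subtype < S := by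
          rw [← hmapS]
          exact (Subgroup.map_lt_map_iff_of_injective Γ.subtype_injective).2 hU
        have key : ∀ X : Subgroup H, X ≤ Γ → X.subgroupOf Γ ≤ Subgroup.normalizer (U : Set Γ) →
            X ≤ Subgroup.normalizer ((U.map Γ.subtype : Subgroup H) : Set H) := by
          intro X hX hXU x hx
          have hxU : (⟨x, hX hx⟩ : Γ) ∈ Subgroup.normalizer (U : Set Γ) := hXU hx
          rw [Subgroup.mem_normalizer_iff]
          intro y
          constructor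
          · rintro ⟨z, hz, rfl⟩
            exact ⟨⟨x, hX hx⟩ * z * ⟨x, hX hx⟩⁻¹, (Subgroup.mem_normalizer_iff.1 hxU z).1 hz, rfl⟩
          · rintro ⟨z, hz, hzy⟩
            refine ⟨⟨x, hX hx⟩⁻¹ * z * ⟨x, hX hx⟩, (Subgroup.mem_normalizer_iff''.1 hxU z).1 hz, ?_⟩
            change x⁻¹ * (z : H) * x = y
            have h3 : (z : H) = x * y * x⁻¹ := hzy
            rw [h3]; group
        have h2 := hSmin _ h1 (by
          refine sup_le (key T hTΓ (le_sup_left.trans hUn)) (key _ hxΓ' ?_)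
          refine le_trans ?_ (le_sup_right.trans hUn)
          rintro ⟨y, hy⟩ hy'
          obtain ⟨k, hk⟩ := Subgroup.mem_zpowers_iff.1 (show y ∈ Subgroup.zpowers x from hy')
          exact Subgroup.mem_zpowers_iff.2 ⟨k, Subtype.ext hk⟩)
        rw [← hmapT, ← Subgroup.map_commutator, Subgroup.map_eq_bot_iff_of_injective _ Γ.subtype_injective] at h2
        exact h2 }
  refine d.false (ρ := (ρ.comp Γ.subtype : Representation K Γ V)) hsK h2K ?_ ?_
  · intro g hg h1
    exact Subtype.ext (hinj g (hSS₁ hg) h1)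
  · intro v hv
    exact hfix v hv

/-- elements of `ℓ`-power order of the Fitting subgroup -/
theorem mem_pCore_of_fitting {N : Type u} [Group N] [Finite N] {ℓ : ℕ} [hℓ : Fact ℓ.Prime] {a : N}
    (ha : a ∈ Cfsg.fittingSubgroup N) {k : ℕ} (hk : a ^ ℓ ^ k = 1) : a ∈ Cfsg.pCore ℓ N := by
  have h1 := Solv.coprime_relIndex_pCore_iSup (G := N) ℓ
  rw [← Solv.fitting_eq_iSup_pCore] at h1
  set F := Cfsg.fittingSubgroup N with hF
  haveI : ((Cfsg.pCore ℓ N).subgroupOf F).Normal := inferInstance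
  have h2 : (⟨a, ha⟩ : F) ^ (Cfsg.pCore ℓ N).relIndex F ∈ (Cfsg.pCore ℓ N).subgroupOf F :=
    Subgroup.pow_index_mem _ _
  have h3 : a ^ (Cfsg.pCore ℓ N).relIndex F ∈ Cfsg.pCore ℓ N := h2
  have h4 : ((Cfsg.pCore ℓ N).relIndex F).Coprime (orderOf a) :=
    Nat.Coprime.coprime_dvd_right (orderOf_dvd_of_pow_eq_one hk) (Nat.Coprime.pow_right _ h1)
  obtain ⟨j, hj⟩ := exists_pow_eq_self_of_coprime h4
  rw [← hj]
  exact Subgroup.pow_mem _ h3 j

/-- An element of the normal subgroup `N` outside the Fitting subgroup of `N` acts nontrivially on some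
irreducible chief module inside `N`; elements centralizing the `ℓ`-core of `N` act trivially. -/
theorem exists_chief_rep' {X : Type u} [Group X] [Finite X] (hX : Group.IsSolvable X) (N : Subgroup X) [N.Normal]
    {g : X} (hg : g ∈ N) (hgF : g ∉ (Cfsg.fittingSubgroup ↥N).map N.subtype) :
    ∃ (ℓ : ℕ) (_ : Fact ℓ.Prime) (V : Type u) (_ : AddCommGroup V) (_ : Module (ZMod ℓ) V) (_ : Finite V)
      (ρ : Representation (ZMod ℓ) X V), ρ g ≠ 1 ∧
      (∀ W : Submodule (ZMod ℓ) V, (∀ x, ∀ w ∈ W, ρ x w ∈ W) → W = ⊥ ∨ W = ⊤) ∧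
      ∀ h : X, (∀ y ∈ (Cfsg.pCore ℓ ↥N).map N.subtype, h * y = y * h) → ρ h = 1 := by
  classical
  obtain ⟨-, h2⟩ := Cfsg.Agent.S3766.result hX N g
  rw [h2] at hgF
  push Not at hgF
  obtain ⟨U, V, ⟨hU, hV, hVU, hmin⟩, hUF, w, hw, hwg⟩ := hgF hg
  obtain ⟨ℓ, hℓ, hpow, hcomm, hdvd⟩ := chief_elementary hX hU hV hVU hmin
  haveI : Fact ℓ.Prime := ⟨hℓ⟩
  have hn : ∀ (K : Subgroup X), K.Normal → ∀ L : Subgroup X, L ≤ Subgroup.normalizer (K : Set X) := by
    intro K hK L
    haveI := hK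
    rw [Subgroup.normalizer_eq_top]
    exact le_top
  have hUN : U ≤ N := hUF.trans (Subgroup.map_subtype_le _)
  obtain ⟨A, iA, iM, ⟨S⟩⟩ := BG3.exists_secMod (ℓ := ℓ) (M := U) (M1 := V) (Y := ⊤) (hn V hV U) (hn U hU ⊤)
    (hn V hV ⊤) hpow hcomm
  haveI : Finite A := S.finite
  let ρ : Representation (ZMod ℓ) X A := S.ρ.comp (Subgroup.topEquiv.symm : X ≃* (⊤ : Subgroup X)).toMonoidHom
  have hρ : ∀ x : X, ρ x = S.ρ ⟨x, Subgroup.mem_top x⟩ := fun x => rfl
  refine ⟨ℓ, inferInstance, A, iA, iM, inferInstance, ρ, ?_, ?_, ?_⟩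
  · intro h1
    have h3 := (S.rho_eq_iff ⟨g, Subgroup.mem_top g⟩).1 (by
      intro v
      rw [← hρ, h1]; rfl) w hw
    apply hwg
    change g * w * g⁻¹ * w⁻¹ ∈ V at h3
    have h4 := V.inv_mem h3
    have h5 : (g * w * g⁻¹ * w⁻¹)⁻¹ = w * g * w⁻¹ * g⁻¹ := by group
    rwa [h5] at h4
  · intro W hW
    -- the preimage
    let M : Subgroup X :=
      { carrier := {x | ∃ hx : x ∈ U, (S.π ⟨x, hx⟩).toAdd ∈ W}
        one_mem' := ⟨U.one_mem, by
          have : S.π ⟨1, U.one_mem⟩ = 1 := map_one S.π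
          rw [this]; exact W.zero_mem⟩
        mul_mem' := by
          rintro a b ⟨ha, ha'⟩ ⟨hb, hb'⟩
          refine ⟨U.mul_mem ha hb, ?_⟩
          have : S.π ⟨a * b, U.mul_mem ha hb⟩ = S.π ⟨a, ha⟩ * S.π ⟨b, hb⟩ := map_mul S.π ⟨a, ha⟩ ⟨b, hb⟩
          rw [this]; exact W.add_mem ha' hb'
        inv_mem' := by
          rintro a ⟨ha, ha'⟩
          refine ⟨U.inv_mem ha, ?_⟩
          have : S.π ⟨a⁻¹, U.inv_mem ha⟩ = (S.π ⟨a, ha⟩)⁻¹ := map_inv S.π ⟨a, ha⟩
          rw [this]; exact W.neg_mem ha' }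
    have hMn : M.Normal := by
      constructor
      rintro a ⟨ha, ha'⟩ y
      refine ⟨hU.conj_mem a ha y, ?_⟩
      have h3 := S.equiv ⟨y, Subgroup.mem_top y⟩ ⟨a, ha⟩
      have h4 : BG3.cjHom (hn U hU ⊤) ⟨y, Subgroup.mem_top y⟩ ⟨a, ha⟩ = ⟨y * a * y⁻¹, hU.conj_mem a ha y⟩ := rfl
      rw [h4] at h3
      rw [h3]
      exact hW y _ ha'
    have hVM : V ≤ M := by
      intro a ha
      refine ⟨hVU.le ha, ?_⟩
      have h3 : S.π ⟨a, hVU.le ha⟩ = 1 := (S.ker _).2 ha
      rw [h3]; exact W.zero_mem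
    have hMU : M ≤ U := fun a ha => ha.1
    rcases hmin M hMn hVM hMU with h3 | h3
    · left
      rw [eq_bot_iff]
      intro v hv
      obtain ⟨a, rfl⟩ := S.exists_rep v
      have h4 : (a : X) ∈ M := ⟨a.2, hv⟩
      rw [h3] at h4
      rw [Submodule.mem_bot, (S.ker a).2 h4]; rfl
    · right
      rw [eq_top_iff]
      intro v _
      obtain ⟨a, rfl⟩ := S.exists_rep v
      have h4 : (a : X) ∈ M := by rw [h3]; exact a.2
      exact h4.2
  · intro h hh
    apply LinearMap.ext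
    rw [hρ]
    refine (S.rho_eq_iff ⟨h, Subgroup.mem_top h⟩).2 ?_
    intro y hy
    change h * y * h⁻¹ * y⁻¹ ∈ V
    -- split `y` into its parts
    obtain ⟨e, m, hm, hem⟩ : ∃ e m : ℕ, ¬ ℓ ∣ m ∧ orderOf y = ℓ ^ e * m :=
      Nat.exists_eq_pow_mul_and_not_dvd (orderOf_pos y).ne' ℓ hℓ.ne_one
    have hcop : Nat.Coprime (ℓ ^ e) m := Nat.Coprime.pow_left _ ((Nat.Prime.coprime_iff_not_dvd hℓ).2 hm)
    -- `y ^ m` is in the `ℓ`-core
    have hyN : y ∈ N := hUN hy
    have h3 : (y ^ m) ∈ (Cfsg.pCore ℓ ↥N).map N.subtype := by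
      obtain ⟨y', hy', hyy⟩ := hUF hy
      have hyy' : (y' : X) = y := hyy
      refine ⟨y' ^ m, mem_pCore_of_fitting (Subgroup.pow_mem _ hy' m) (k := e) ?_, ?_⟩
      · apply Subtype.ext
        rw [← pow_mul, mul_comm m, ← hem]
        push_cast
        rw [hyy', pow_orderOf_eq_one]
      · change ((y' ^ m : N) : X) = y ^ m
        push_cast
        rw [hyy']
    have h4 : h * y ^ m = y ^ m * h := hh _ h3
    -- `y ^ (ℓ ^ e)` is in `V`
    have h5 : y ^ ℓ ^ e ∈ V := by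
      have h6 : (y ^ ℓ ^ e) ^ m = 1 := by rw [← pow_mul, ← hem, pow_orderOf_eq_one]
      have h7 : (y ^ ℓ ^ e) ^ ℓ ∈ V := hpow _ (U.pow_mem hy _)
      have h8 : Nat.Coprime ℓ m := (Nat.Prime.coprime_iff_not_dvd hℓ).2 hm
      have h9 : ℓ.Coprime (orderOf (y ^ ℓ ^ e)) := Nat.Coprime.coprime_dvd_right (orderOf_dvd_of_pow_eq_one h6) h8
      obtain ⟨j, hj⟩ := exists_pow_eq_self_of_coprime h9
      rw [← hj]
      exact V.pow_mem h7 j
    -- combine
    obtain ⟨a, b, hab⟩ : ∃ a b : ℤ, y = (y ^ m) ^ a * (y ^ ℓ ^ e) ^ b := by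
      have h6 := Int.isCoprime_iff_gcd_eq_one.2 (by rw [Int.gcd_natCast_natCast]; exact hcop.symm : Int.gcd (m : ℤ) ((ℓ ^ e : ℕ) : ℤ) = 1)
      obtain ⟨a, b, hab⟩ := h6
      refine ⟨a, b, ?_⟩
      rw [← zpow_natCast, ← zpow_mul, ← zpow_natCast y (ℓ ^ e), ← zpow_mul, ← zpow_add]
      have : (m : ℤ) * a + ((ℓ ^ e : ℕ) : ℤ) * b = 1 := by rw [mul_comm (m : ℤ), mul_comm ((ℓ ^ e : ℕ) : ℤ)]; exact hab
      rw [this, zpow_one]
    set c := (y ^ m) ^ a with hc
    set d := (y ^ ℓ ^ e) ^ b with hd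
    have hdV : d ∈ V := V.zpow_mem h5 b
    have hcc : h * c = c * h := by
      have : Commute h (y ^ m) := h4
      exact this.zpow_right a
    rw [hab]
    have h6 : h * (c * d) * h⁻¹ * (c * d)⁻¹ = c * ((h * d * h⁻¹) * d⁻¹) * c⁻¹ := by
      calc h * (c * d) * h⁻¹ * (c * d)⁻¹ = (h * c) * d * h⁻¹ * d⁻¹ * c⁻¹ := by group
        _ = c * ((h * d * h⁻¹) * d⁻¹) * c⁻¹ := by rw [hcc]; group
    rw [h6]
    exact hV.conj_mem _ (V.mul_mem (hV.conj_mem d hdV h) (V.inv_mem hdV)) c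

/-- The faithful version. -/
theorem exists_faithful_chief_rep' {X : Type u} [Group X] [Finite X] (hX : Group.IsSolvable X) (N : Subgroup X)
    [N.Normal] {g : X} (hg : g ∈ N) (hgF : g ∉ (Cfsg.fittingSubgroup ↥N).map N.subtype) :
    ∃ (ℓ : ℕ) (_ : Fact ℓ.Prime) (V : Type u) (_ : AddCommGroup V) (_ : Module (ZMod ℓ) V) (_ : Finite V)
      (H : Type u) (_ : Group H) (_ : Finite H) (f : X →* H)
      (ρ : Representation (ZMod ℓ) H V), Function.Surjective f ∧ Function.Injective ρ ∧ f g ≠ 1 ∧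
      (∀ W : Submodule (ZMod ℓ) V, (∀ x, ∀ w ∈ W, ρ x w ∈ W) → W = ⊥ ∨ W = ⊤) ∧
      ∀ h : X, (∀ y ∈ (Cfsg.pCore ℓ ↥N).map N.subtype, h * y = y * h) → f h = 1 := by
  obtain ⟨ℓ, iℓ, V, iV, iM, iF, ρ, h1, h2, h3⟩ := exists_chief_rep' hX N hg hgF
  set e := HH.toEquiv (F := ZMod ℓ) ρ with he
  let e' : X →* e.range := e.rangeRestrict
  have he's : Function.Surjective e' := e.rangeRestrict_surjective
  haveI : Finite e.range := Finite.of_surjective e' he's
  have hcoe : ∀ g, HH.tautRep e.range (e' g) = ρ g := fun _ => rfl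
  refine ⟨ℓ, iℓ, V, iV, iM, iF, e.range, inferInstance, inferInstance, e', HH.tautRep e.range, he's,
    HH.tautRep_injective _, ?_, ?_, ?_⟩
  · intro h5
    apply h1
    rw [← hcoe, h5, map_one]
  · intro W hW
    exact h2 W (fun x w hw => hW (e' x) w hw)
  · intro h hh
    apply HH.tautRep_injective e.range
    rw [hcoe, h3 h hh, map_one]

end Cfsg.Agent.H62.GR
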