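import Mathlib
import Cfsg.Agent.H62.ChiefRep
import Cfsg.Agent.H62.ExcFix

set_option autoImplicit false

/-!
Fixed-point-free cyclic `p`-groups of operators: the Hall-Higman-Shult-Gross reduction (helper62).
-/

namespace Cfsg.Agent.H62.HHFix

open Cfsg.Agent.HH Cfsg.Agent.H62.ChiefRep Cfsg.Agent.H62.ExcFix
open scoped commutatorElement

universe u v

/-- Either `x ^ p ^ (n-1)` centralizes `N`, or the exceptional configuration occurs. -/
theorem fpf_or_exc {Γ : Type u} [Group Γ] [Finite Γ] {ℓ p : ℕ} [hℓ : Fact ℓ.Prime] [hp : Fact p.Prime]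
    {V : Type v} [AddCommGroup V] [Module (ZMod ℓ) V] [Finite V] (ρ : Representation (ZMod ℓ) Γ V)
    (hinj : Function.Injective ρ)
    (hirr : ∀ W : Submodule (ZMod ℓ) V, (∀ x, ∀ w ∈ W, ρ x w ∈ W) → W = ⊥ ∨ W = ⊤)
    (N : Subgroup Γ) [N.Normal] (hN : Group.IsSolvable N) {x : Γ} {n : ℕ} (hx : orderOf x = p ^ n)
    (hcop : (Nat.card N).Coprime p) (hℓp : ℓ ≠ p) (hV : ∀ v, ρ x v = v → v = 0) :
    (∀ g ∈ N, Commute (x ^ p ^ (n - 1)) g) ∨
    ∃ (q : ℕ) (_ : Fact q.Prime) (Q R : Subgroup Γ) (W U : Submodule (AlgebraicClosure (ZMod ℓ))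
      (TensorProduct (ZMod ℓ) (AlgebraicClosure (ZMod ℓ)) V)) (k₁ n₀ b : ℕ), q ≠ ℓ ∧
      MinQ x p n q ((Cfsg.fittingSubgroup ↥N).map N.subtype) Q ∧
      ExcData (bc (ZMod ℓ) ρ) Q x p n q W k₁ n₀ b U R := by
  classical
  haveI : FiniteDimensional (ZMod ℓ) V := Module.Finite.of_finite
  by_cases hall : ∀ g ∈ N, Commute (x ^ p ^ (n - 1)) g
  · exact Or.inl hall
  right
  have hn : ∀ (K : Subgroup Γ), K.Normal → ∀ L : Subgroup Γ, L ≤ Subgroup.normalizer (K : Set Γ) := by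
    intro K hK L
    haveI := hK
    rw [Subgroup.normalizer_eq_top]
    exact le_top
  set L := (Cfsg.fittingSubgroup ↥N).map N.subtype with hL
  haveI hLn : L.Normal := by rw [hL]; infer_instance
  have hLN : L ≤ N := Subgroup.map_subtype_le _
  have hLcop : (Nat.card L).Coprime p := Nat.Coprime.coprime_dvd_left (Subgroup.card_dvd_of_le hLN) hcop
  have hnt : ⁅L, Subgroup.zpowers (x ^ p ^ (n - 1))⁆ ≠ ⊥ := by
    intro h0
    have h1 := commutator_fitting (Subgroup.zpowers (x ^ p ^ (n - 1))) N hN (by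
      have h2 : Nat.card (Subgroup.zpowers (x ^ p ^ (n - 1))) ∣ p ^ n := by
        rw [← hx, ← Nat.card_zpowers]
        apply Subgroup.card_dvd_of_le
        rw [Subgroup.zpowers_le]
        exact Subgroup.pow_mem _ (Subgroup.mem_zpowers x) _
      exact Nat.Coprime.coprime_dvd_left h2 (Nat.Coprime.pow_left _ hcop.symm)) h0
    apply hall
    intro g hg
    have h2 := Subgroup.commutator_mem_commutator hg (Subgroup.mem_zpowers (x ^ p ^ (n - 1)))
    rw [h1, Subgroup.mem_bot, commutatorElement_eq_one_iff_mul_comm] at h2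
    exact h2.symm
  obtain ⟨q, hq, Q, hM⟩ := exists_minQ L hLcop hx (hn L hLn ⊤ trivial) hnt
  have hLℓ : (Nat.card L).Coprime ℓ := by
    have h1 := fitting_coprime (pCore_eq_bot ρ hinj hirr)
    exact Nat.Coprime.coprime_dvd_left (Subgroup.card_dvd_of_le (Solv.map_subtype_fitting_le N)) h1
  have hqL : q ∣ Nat.card L := by
    have h1 : q ∣ Nat.card Q := by
      haveI : Nontrivial Q := (Subgroup.nontrivial_iff_ne_bot Q).2 hM.nt
      obtain ⟨m, hm0, hm⟩ := (IsPGroup.nontrivial_iff_card hM.isP).1 ‹_›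
      rw [hm]; exact dvd_pow_self q hm0.ne'
    exact h1.trans (Subgroup.card_dvd_of_le hM.le)
  have hℓq : ℓ ≠ q := by
    rintro rfl
    have h1 : ℓ ∣ 1 := by
      have := Nat.dvd_gcd hqL dvd_rfl
      rwa [hLℓ] at this
    exact hℓ.out.one_lt.ne' (Nat.dvd_one.1 h1)
  rcases hM.all_or_exc (ρ := bc (ZMod ℓ) ρ) hx (cast_ne_zero_bc hq.out hℓq)
    (cast_ne_zero_bc hp.out hℓp) (bc_injective _ _ hinj) with h1 | ⟨W, k₁, n₀, b, U, R, -, -, hE⟩
  · exfalso
    obtain ⟨v, hv0, hv⟩ := h1 (algebraMap (ZMod ℓ) (AlgebraicClosure (ZMod ℓ)) 1) (by rw [map_one, one_pow])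
    obtain ⟨w, hw0, hw⟩ := bc_fixed (ZMod ℓ) ρ x 1 hv0 hv
    rw [one_smul] at hw
    exact hw0 (hV w hw)
  · exact ⟨q, hq, Q, R, W, U, k₁, n₀, b, hℓq.symm, hM, hE⟩

/-- The case of odd `p`: no exception under fixed-point-free action. -/
theorem fpf_linear_odd {Γ : Type u} [Group Γ] [Finite Γ] {ℓ p : ℕ} [hℓ : Fact ℓ.Prime] [hp : Fact p.Prime]
    {V : Type v} [AddCommGroup V] [Module (ZMod ℓ) V] [Finite V] (ρ : Representation (ZMod ℓ) Γ V)
    (hinj : Function.Injective ρ)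
    (hirr : ∀ W : Submodule (ZMod ℓ) V, (∀ x, ∀ w ∈ W, ρ x w ∈ W) → W = ⊥ ∨ W = ⊤)
    (N : Subgroup Γ) [N.Normal] (hN : Group.IsSolvable N) {x : Γ} {n : ℕ} (hx : orderOf x = p ^ n)
    (hcop : (Nat.card N).Coprime p) (hℓp : ℓ ≠ p) (hV : ∀ v, ρ x v = v → v = 0) (hp2 : p ≠ 2)
    (hfix : ∀ g ∈ N, x * g * x⁻¹ = g → g = 1) : ∀ g ∈ N, Commute (x ^ p ^ (n - 1)) g := by
  rcases fpf_or_exc ρ hinj hirr N hN hx hcop hℓp hV with h1 | ⟨q, hq, Q, R, W, U, k₁, n₀, b, -, hM, hE⟩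
  · exact h1
  exfalso
  have hq2 := hE.q_eq hp2
  subst hq2
  refine exc_contra hx hM hE ?_ (fun g hg => hfix g (Subgroup.map_subtype_le _ (hM.le hg)))
  intro m hm hdvd
  have h1 := ord_mul hp.out hp2 hE.one_le hE.b_pos hE.eq (n := n) (by have := hE.le; omega) hm hdvd
  refine le_trans (Nat.mul_le_mul_left _ ?_) h1
  exact Nat.pow_le_pow_right hp.out.pos (by have := hE.le; omega)

/-- **Shult-Gross**, key step: `[N, x ^ p ^ (n-1)] ≤ F(N)`. -/
theorem commutator_mem_fitting {X : Type u} [Group X] [Finite X] (hX : Group.IsSolvable X) (N : Subgroup X) [N.Normal]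
    {p n : ℕ} [hp : Fact p.Prime] (hp2 : p ≠ 2) {x : X} (hx : x ^ p ^ n = 1) (hcop : (Nat.card N).Coprime p)
    (hfix : ∀ g ∈ N, x * g = g * x → g = 1) {g : X} (hg : g ∈ N) :
    ⁅g, x ^ p ^ (n - 1)⁆ ∈ (Cfsg.fittingSubgroup ↥N).map N.subtype := by
  classical
  set x₀ := x ^ p ^ (n - 1) with hx₀
  have hgN : ⁅g, x₀⁆ ∈ N := Subgroup.commutator_le_left N ⊤ (Subgroup.commutator_mem_commutator hg trivial)
  by_contra hcon
  obtain ⟨ℓ, iℓ, V, iV, iM, iF, H, iH, iFH, f, ρ, hf, hinj, hfg, hirr, hdvd, hfixV⟩ :=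
    exists_faithful_chief_rep hX N hgN hcon
  have hNsol : Group.IsSolvable N := by haveI := hX; infer_instance
  have hcard : Nat.card (Subgroup.zpowers x) ∣ p ^ n := by
    rw [Nat.card_zpowers]; exact orderOf_dvd_of_pow_eq_one hx
  have hcopx : (Nat.card (Subgroup.zpowers x)).Coprime (Nat.card N) :=
    Nat.Coprime.coprime_dvd_left hcard (Nat.Coprime.pow_left _ hcop.symm)
  have hfin : ∀ y : X, IsOfFinOrder y := fun y => isOfFinOrder_of_finite y
  -- the order of the image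
  have hfx₀ : f x ^ p ^ (n - 1) ≠ 1 := by
    intro h0
    apply hfg
    rw [map_commutatorElement, hx₀, map_pow, h0, commutatorElement_one_right]
  have hox : orderOf (f x) = p ^ n := by
    rcases Nat.eq_zero_or_pos n with rfl | hn
    · rw [pow_zero, pow_one] at hx
      rw [hx, map_one, one_pow] at hfx₀
      exact absurd rfl hfx₀
    · obtain ⟨m, rfl⟩ : ∃ m, n = m + 1 := ⟨n - 1, by omega⟩
      rw [Nat.add_sub_cancel] at hfx₀
      exact orderOf_eq_prime_pow hfx₀ (by rw [← map_pow, hx, map_one])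
  haveI hNfn : (N.map f).Normal := Subgroup.Normal.map inferInstance f hf
  have hNfsol : Group.IsSolvable (N.map f) := by
    haveI := hNsol
    exact Group.isSolvable_of_surjective (f.subgroupMap_surjective N)
  have hNfcop : (Nat.card (N.map f)).Coprime p := Nat.Coprime.coprime_dvd_left (Subgroup.card_map_dvd N f) hcop
  have hℓp : ℓ ≠ p := by
    rintro rfl
    have h1 : ℓ ∣ 1 := by
      have := Nat.dvd_gcd hdvd dvd_rfl
      rwa [hcop] at this
    exact iℓ.out.one_lt.ne' (Nat.dvd_one.1 h1)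
  -- no fixed vectors
  have hpow : ∀ v : V, ρ (f x) v = v → ∀ y ∈ Subgroup.zpowers x, ρ (f y) v = v := by
    intro v hv y hy
    obtain ⟨j, rfl⟩ := (Submonoid.mem_powers_iff y x).1 ((hfin x).mem_powers_iff_mem_zpowers.2 hy)
    induction j with
    | zero => rw [pow_zero, map_one, map_one]; rfl
    | succ j ih =>
      rw [pow_succ, map_mul, HH.rho_mul, hv]
      exact ih (Subgroup.pow_mem _ (Subgroup.mem_zpowers x) _)
  have hV : ∀ v, ρ (f x) v = v → v = 0 := by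
    intro v hv
    by_contra hv0
    obtain ⟨h, hhN, hh1, hhc⟩ := hfixV (Subgroup.zpowers x) hcopx v hv0 (hpow v hv)
    exact hh1 (hfix h hhN (Subgroup.mem_centralizer_iff.1 hhc x (Subgroup.mem_zpowers x)))
  -- no fixed points in the image
  have hfix' : ∀ h ∈ N.map f, f x * h * (f x)⁻¹ = h → h = 1 := by
    intro h hh hxh
    obtain ⟨c, hc, hfc⟩ := fixed_map f (Subgroup.zpowers x) N hcopx (Or.inr hNsol) hh (by
      intro a ha
      obtain ⟨j, rfl⟩ := (Submonoid.mem_powers_iff a x).1 ((hfin x).mem_powers_iff_mem_zpowers.2 ha)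
      have h1 : Commute (f x) h := by
        rw [mul_inv_eq_iff_eq_mul] at hxh; exact hxh
      rw [map_pow, (h1.pow_left j).eq, mul_inv_cancel_right])
    rw [← hfc, hfix c hc.1 (Subgroup.mem_centralizer_iff.1 hc.2 x (Subgroup.mem_zpowers x)), map_one]
  have hres := fpf_linear_odd ρ hinj hirr (N.map f) hNfsol hox hNfcop hℓp hV hp2 hfix' (f g) ⟨g, hg, rfl⟩
  apply hfg
  rw [map_commutatorElement, hx₀, map_pow, commutatorElement_eq_one_iff_mul_comm]
  exact hres.eq.symm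

end Cfsg.Agent.H62.HHFix
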