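import Mathlib
import Cfsg.Agent.H62.FitChain
import Cfsg.Agent.H62.SemiExt
import Cfsg.Agent.H62.HHFix

set_option autoImplicit false

/-!
The Shult-Gross theorem on fixed-point-free automorphisms of odd prime power order (helper62).
-/

namespace Cfsg.Agent.H62.ShultGross

open SemidirectProduct Cfsg.Agent.H62.SemiExt
open scoped commutatorElement

universe u

theorem coprime_of_fpf {G : Type u} [Group G] [Finite G] {p : ℕ} [hp : Fact p.Prime] (n : ℕ) (σ : MulAut G)
    (hσ : σ ^ p ^ n = 1) (hfpf : ∀ g : G, σ g = g → g = 1) : (Nat.card G).Coprime p := by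
  have hpg : IsPGroup p (Subgroup.zpowers σ) := by
    apply IsPGroup.of_card_dvd_pow
    swap
    exact n
    rw [Nat.card_zpowers]
    exact orderOf_dvd_of_pow_eq_one hσ
  have h1 := hpg.card_modEq_card_fixedPoints G
  have h3 : MulAction.fixedPoints (Subgroup.zpowers σ) G = {1} := by
    ext g
    rw [MulAction.mem_fixedPoints, Set.mem_singleton_iff]
    constructor
    · intro h
      exact hfpf g (h ⟨σ, Subgroup.mem_zpowers σ⟩)
    · rintro rfl ⟨x, hx⟩
      exact map_one x
  rw [h3] at h1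
  have h4 : Nat.card ({1} : Set G) = 1 := by simp
  rw [h4] at h1
  rw [Nat.coprime_comm, hp.out.coprime_iff_not_dvd]
  intro h5
  have h6 : 0 ≡ 1 [MOD p] := ((Nat.modEq_zero_iff_dvd.2 h5).symm).trans h1
  have h7 := (Nat.modEq_iff_dvd' (Nat.zero_le 1)).1 h6
  exact hp.out.one_lt.ne' (Nat.dvd_one.1 (by simpa using h7))

theorem fixed_zpowers {G : Type u} [Group G] (σ : MulAut G) {g : G} (h : σ g = g) (τ : Subgroup.zpowers σ) :
    (τ : MulAut G) g = g := by
  obtain ⟨τ, k, rfl⟩ := τ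
  change (σ ^ k) g = g
  have h1 : σ⁻¹ g = g := by
    rw [← h]
    exact (MulAut.inv_apply_self G σ g).trans h.symm
  induction k with
  | zero => rfl
  | succ k ih => rw [zpow_add_one, MulAut.mul_apply, h, ih]
  | pred k ih => rw [zpow_sub_one, MulAut.mul_apply, h1, ih]

/-- The quotient by a characteristic subgroup. -/
theorem fpf_quotient {G : Type u} [Group G] [Finite G] {p : ℕ} [hp : Fact p.Prime] (n : ℕ) (σ : MulAut G)
    (hσ : σ ^ p ^ n = 1) (hfpf : ∀ g : G, σ g = g → g = 1) (hG : Group.IsSolvable G) (N : Subgroup G) [N.Normal]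
    [hN : N.Characteristic] {g : G} (hg : σ g * g⁻¹ ∈ N) : g ∈ N := by
  have hcop := coprime_of_fpf n σ hσ hfpf
  have hNσ : ∀ τ : MulAut G, ∀ g ∈ N, τ g ∈ N := by
    intro τ y hy
    have h1 := Subgroup.characteristic_iff_map_eq.1 hN τ
    rw [← h1]
    exact ⟨y, hy, rfl⟩
  obtain ⟨c, hc, hgc⟩ := fixed_quotient (A := Subgroup.zpowers σ) (Subgroup.subtype _) (by
    rw [Nat.card_zpowers]
    exact Nat.Coprime.coprime_dvd_left (orderOf_dvd_of_pow_eq_one hσ) (Nat.Coprime.pow_left _ hcop.symm))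
    (Or.inr hG) N (fun a y hy => hNσ _ y hy) (g := g) (by
      rintro ⟨τ, hτ⟩
      obtain ⟨k, rfl⟩ := (Submonoid.mem_powers_iff τ σ).1 ((isOfFinOrder_of_finite σ).mem_powers_iff_mem_zpowers.2 hτ)
      change (σ ^ k) g * g⁻¹ ∈ N
      induction k with
      | zero => simp [N.one_mem]
      | succ k ih =>
        have h1 : (σ ^ (k + 1)) g * g⁻¹ = (σ ^ k) (σ g * g⁻¹) * ((σ ^ k) g * g⁻¹) := by
          rw [pow_succ, MulAut.mul_apply, map_mul, map_inv]; group
        rw [h1]
        exact N.mul_mem (hNσ _ _ hg) (ih (Subgroup.pow_mem _ (Subgroup.mem_zpowers σ) k)))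
  have h1 : c = 1 := hfpf c (hc ⟨σ, Subgroup.mem_zpowers σ⟩)
  rw [h1, mul_one] at hgc
  have := N.inv_mem hgc
  rwa [inv_inv] at this

/-- The automorphism induced on the quotient by a characteristic subgroup. -/
noncomputable def quotAut {G : Type u} [Group G] (N : Subgroup G) [N.Normal] [N.Characteristic] (σ : MulAut G) :
    MulAut (G ⧸ N) :=
  QuotientGroup.congr N N σ (Subgroup.characteristic_iff_map_eq.1 inferInstance σ)

theorem quotAut_mk {G : Type u} [Group G] (N : Subgroup G) [N.Normal] [N.Characteristic] (σ : MulAut G) (g : G) :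
    quotAut N σ (QuotientGroup.mk g) = QuotientGroup.mk (σ g) := rfl

theorem quotAut_pow {G : Type u} [Group G] (N : Subgroup G) [N.Normal] [N.Characteristic] (σ : MulAut G) (k : ℕ)
    (g : G) : ((quotAut N σ) ^ k) (QuotientGroup.mk g) = QuotientGroup.mk ((σ ^ k) g) := by
  induction k generalizing g with
  | zero => rfl
  | succ k ih => rw [pow_succ, pow_succ, MulAut.mul_apply, MulAut.mul_apply, quotAut_mk, ih]

theorem comm_mem_fitting {G : Type u} [Group G] [Finite G] (hG : Group.IsSolvable G) {p : ℕ} [hp : Fact p.Prime]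
    (hp2 : p ≠ 2) (n : ℕ) (σ : MulAut G) (hσ : σ ^ p ^ n = 1) (hfpf : ∀ g : G, σ g = g → g = 1) (g : G) :
    g * ((σ ^ p ^ (n - 1)) g)⁻¹ ∈ Cfsg.fittingSubgroup G := by
  set φ : Subgroup.zpowers σ →* MulAut G := Subgroup.subtype _ with hφ
  haveI := finite_semi φ
  set s : Subgroup.zpowers σ := ⟨σ, Subgroup.mem_zpowers σ⟩ with hs
  set x : G ⋊[φ] (Subgroup.zpowers σ) := inr s with hx
  have hcop := coprime_of_fpf n σ hσ hfpf
  have hspow : s ^ p ^ n = 1 := Subtype.ext hσ
  have h := HHFix.commutator_mem_fitting (isSolvable_semi φ hG inferInstance) (nf φ) (p := p) (n := n) hp2 (x := x)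
    (by rw [hx, ← map_pow, hspow, map_one]) (by rw [card_nf]; exact hcop) (by
      rintro _ ⟨y, rfl⟩ hy
      rw [inr_comm_iff] at hy
      rw [hfpf y hy, map_one]) (g := inl g) ⟨g, rfl⟩
  rw [fitting_nf, commutatorElement_def, hx, ← map_pow] at h
  have h1 : (inl g : G ⋊[φ] (Subgroup.zpowers σ)) * inr (s ^ p ^ (n - 1)) * (inl g)⁻¹ * (inr (s ^ p ^ (n - 1)))⁻¹ =
      inl (g * ((σ ^ p ^ (n - 1)) g)⁻¹) := by
    have h2 := inr_conj φ (s ^ p ^ (n - 1)) g
    have h3 : φ (s ^ p ^ (n - 1)) g = (σ ^ p ^ (n - 1)) g := rfl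
    rw [h3] at h2
    rw [map_mul, map_inv, ← h2]
    group
  rw [h1] at h
  obtain ⟨y, hy, hy'⟩ := h
  rw [← inl_injective hy']
  exact hy

theorem main {p : ℕ} (hp : p.Prime) (hp2 : p ≠ 2) : ∀ (n : ℕ) (G : Type u) [Group G] [Finite G], Group.IsSolvable G →
    ∀ σ : MulAut G, σ ^ p ^ n = 1 → (∀ g : G, σ g = g → g = 1) → FitChain G n := by
  haveI : Fact p.Prime := ⟨hp⟩
  intro n
  induction n with
  | zero =>
    intro G _ _ hG σ hσ hfpf
    rw [FitChain.zero_iff]
    rw [pow_zero, pow_one] at hσ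
    constructor
    intro a b
    rw [hfpf a (by rw [hσ]; rfl), hfpf b (by rw [hσ]; rfl)]
  | succ n ih =>
    intro G _ _ hG σ hσ hfpf
    set F := Cfsg.fittingSubgroup G with hF
    haveI hchar : F.Characteristic := Solv.fitting_characteristic
    apply FitChain.of_quotient F Solv.fitting_isNilpotent
    haveI := hG
    apply ih (G ⧸ F) inferInstance (quotAut F σ)
    · apply MulEquiv.ext
      intro q
      induction q using QuotientGroup.induction_on with
      | H g =>
        rw [quotAut_pow, MulAut.one_apply]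
        have h1 := comm_mem_fitting hG hp2 (n + 1) σ hσ hfpf g
        rw [Nat.add_sub_cancel] at h1
        apply QuotientGroup.eq.2
        have h2 : F.Normal := inferInstance
        have h3 := h2.conj_mem _ h1 ((σ ^ p ^ n) g)⁻¹
        have h4 : ((σ ^ p ^ n) g)⁻¹ * (g * ((σ ^ p ^ n) g)⁻¹) * ((σ ^ p ^ n) g)⁻¹⁻¹ = ((σ ^ p ^ n) g)⁻¹ * g := by group
        rwa [h4] at h3
    · intro q hq
      induction q using QuotientGroup.induction_on with
      | H g =>
        rw [quotAut_mk] at hq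
        have h1 : (σ g)⁻¹ * g ∈ F := QuotientGroup.eq.1 hq
        have h2 : F.Normal := inferInstance
        have h3 := h2.conj_mem _ (F.inv_mem h1) g
        have h4 : g * ((σ g)⁻¹ * g)⁻¹ * g⁻¹ = σ g * g⁻¹ := by group
        rw [h4] at h3
        exact (QuotientGroup.eq_one_iff g).2 (fpf_quotient (n + 1) σ hσ hfpf hG F h3)

end Cfsg.Agent.H62.ShultGross
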