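import Mathlib
import Cfsg.Agent.H62.GR6
import Cfsg.Agent.H62.ShultGross
import Cfsg.Agent.S3794

set_option autoImplicit false
set_option linter.style.haveILetI false
set_option linter.unusedSectionVars false

/-!
Fitting height of groups with a fixed-point-free automorphism of order `2^n` (helper62).
-/

namespace Cfsg.Agent.H62.GR

open Cfsg.Agent.HH Cfsg.Agent.H62.PQ Cfsg.Agent.H62.ChiefRep Module
open scoped BigOperators commutatorElement TensorProduct

universe u v w

theorem zpowers_norm (X : Type u) [Group X] (x : X) (k : ℕ) :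
    Subgroup.zpowers x ≤ Subgroup.normalizer ((Subgroup.zpowers (x ^ k) : Subgroup X) : Set X) := by
  refine le_trans ?_ (Subgroup.centralizer_le_normalizer _)
  rw [Subgroup.zpowers_le, Subgroup.mem_centralizer_iff]
  intro y hy
  obtain ⟨k, rfl⟩ := Subgroup.mem_zpowers_iff.1 hy
  have h1 : ∀ k' : ℕ, Commute x ((x ^ k') ^ k) := fun k' => ((Commute.refl x).pow_right _).zpow_right k
  exact (h1 _).eq.symm

theorem claim {H : Type u} [Group H] [Finite H] (hH : Group.IsSolvable H) {ℓ : ℕ} [hℓ : Fact ℓ.Prime] (hℓ2 : ℓ ≠ 2)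
    {V : Type v} [AddCommGroup V] [Module (ZMod ℓ) V] [Finite V] (ρ : Representation (ZMod ℓ) H V)
    (hinj : Function.Injective ρ)
    (hirr : ∀ W : Submodule (ZMod ℓ) V, (∀ x, ∀ w ∈ W, ρ x w ∈ W) → W = ⊥ ∨ W = ⊤)
    (N : Subgroup H) [hNn : N.Normal] (hN2 : (Nat.card N).Coprime 2) {x : H} {n : ℕ} (n1 : 1 ≤ n) (xn : x ^ 2 ^ n = 1)
    (hfixN : ∀ g ∈ N, x * g = g * x → g = 1) (hfix : ∀ v, ρ x v = v → v = 0) :
    ⁅N, Subgroup.zpowers (x ^ 2 ^ (n - 1))⁆ ≤ (Cfsg.fittingSubgroup N).map N.subtype := by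
  classical
  haveI : Module.Finite (ZMod ℓ) V := Module.Finite.of_finite
  haveI := hH
  have hNsol : Group.IsSolvable N := inferInstance
  set X₀ := Subgroup.zpowers (x ^ 2 ^ (n - 1)) with hX₀
  by_contra hcon
  obtain ⟨g, hg, hgF⟩ := SetLike.not_le_iff_exists.1 hcon
  have hgN : g ∈ N := Subgroup.commutator_le_left N X₀ hg
  obtain ⟨s, iℓ, V₁, iV, iM, iF, H₁, iH, iHf, f, ρ₁, hf, hinj₁, hfg, hirr₁, hcent⟩ :=
    exists_faithful_chief_rep' hH N hgN hgF
  have hs : s.Prime := iℓ.out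
  set N₁ : Subgroup H₁ := N.map f with hN₁
  haveI hN₁n : N₁.Normal := hNn.map f hf
  haveI hH₁sol : Group.IsSolvable H₁ := Group.isSolvable_of_surjective hf
  have hN₁sol : Group.IsSolvable N₁ := inferInstance
  have hcore := pCore_eq_bot ρ₁ hinj₁ hirr₁
  have hX₀c : Nat.card X₀ ∣ 2 := by
    rw [hX₀, Nat.card_zpowers]
    exact orderOf_dvd_of_pow_eq_one (by rw [sq]; exact sq_pow n1 xn)
  have hcop₁ : (Nat.card (X₀.map f)).Coprime (Nat.card N₁) :=
    Nat.Coprime.coprime_dvd_left ((Subgroup.card_map_dvd X₀ f).trans hX₀c)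
      (Nat.Coprime.coprime_dvd_right (Subgroup.card_map_dvd N f) hN2.symm)
  have hne₁ : ⁅(Cfsg.fittingSubgroup ↥N₁).map N₁.subtype, X₀.map f⁆ ≠ ⊥ := by
    intro h0
    have h1 := commutator_fitting (X₀.map f) N₁ hN₁sol hcop₁ h0
    apply hfg
    have h2 : f g ∈ ⁅N₁, X₀.map f⁆ := by
      rw [hN₁, ← Subgroup.map_commutator]
      exact Subgroup.mem_map_of_mem f hg
    rw [h1, Subgroup.mem_bot] at h2
    exact h2
  -- the prime `t`
  obtain ⟨t, ht, htne⟩ : ∃ t : ℕ, t.Prime ∧ ⁅(Cfsg.pCore t ↥N₁).map N₁.subtype, X₀.map f⁆ ≠ ⊥ := by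
    by_contra hno
    push Not at hno
    apply hne₁
    rw [Subgroup.commutator_eq_bot_iff_le_centralizer, Solv.fitting_eq_iSup_pCore, Subgroup.map_iSup]
    apply iSup_le
    intro q
    have h1 := hno q q.2
    rwa [Subgroup.commutator_eq_bot_iff_le_centralizer] at h1
  haveI : Fact t.Prime := ⟨ht⟩
  have hst : s ≠ t := by
    rintro rfl
    apply htne
    have h1 : (Cfsg.pCore s ↥N₁).map N₁.subtype ≤ Cfsg.pCore s H₁ := Solv.map_subtype_pCore_le s N₁
    rw [hcore, le_bot_iff] at h1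
    rw [h1, Subgroup.commutator_bot_left]
  -- the invariant Sylow subgroup
  have hxc : (Nat.card (Subgroup.zpowers x)).Coprime (Nat.card N) := by
    rw [Nat.card_zpowers]
    exact Nat.Coprime.coprime_dvd_left (orderOf_dvd_of_pow_eq_one xn) (hN2.symm.pow_left n)
  have hxN : Subgroup.zpowers x ≤ Subgroup.normalizer (N : Set H) := by
    rw [Subgroup.normalizer_eq_top]; exact le_top
  obtain ⟨T, hT⟩ := Cop.exists_invariant_sylow hxN hxc (Or.inr hNsol) t
  set T' : Subgroup H := (T : Subgroup N).map N.subtype with hT'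
  have hTp : IsPGroup t T' := T.isPGroup'.map _
  have hTN : T' ≤ N := Subgroup.map_subtype_le _
  let f' : N →* N₁ := f.subgroupMap N
  have hf's : Function.Surjective f' := f.subgroupMap_surjective N
  have hTcore : (Cfsg.pCore t ↥N₁).map N₁.subtype ≤ T'.map f := by
    have h1 : Cfsg.pCore t ↥N₁ ≤ (T.mapSurjective hf's : Subgroup N₁) := Solv.pCore_le_sylow _
    rw [Sylow.coe_mapSurjective] at h1
    have h2 := Subgroup.map_mono (f := N₁.subtype) h1
    rw [Subgroup.map_map] at h2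
    rw [hT', Subgroup.map_map]
    exact h2
  have hne₂ : ⁅T', X₀⁆.map f ≠ ⊥ := by
    intro h0
    apply htne
    rw [eq_bot_iff, ← h0, Subgroup.map_commutator]
    exact Subgroup.commutator_mono hTcore le_rfl
  set S₁ : Subgroup H := (Cfsg.pCore s ↥N).map N.subtype with hS₁
  haveI hS₁n : S₁.Normal := by rw [hS₁]; infer_instance
  have hS₁p : IsPGroup s S₁ := (Solv.pCore_isPGroup s).map _
  have hS₁N : S₁ ≤ N := Subgroup.map_subtype_le _
  have hne₃ : ⁅S₁, ⁅T', X₀⁆⁆ ≠ ⊥ := by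
    intro h0
    apply hne₂
    rw [eq_bot_iff]
    rintro _ ⟨h, hh, rfl⟩
    rw [Subgroup.mem_bot]
    apply hcent
    intro y hy
    rw [Subgroup.commutator_eq_bot_iff_le_centralizer] at h0
    exact Subgroup.mem_centralizer_iff.1 (h0 hy) h hh
  have hS₁ne : S₁ ≠ ⊥ := by
    intro h0
    apply hne₃
    rw [h0, Subgroup.commutator_bot_left]
  have hT'ne : T' ≠ ⊥ := by
    intro h0
    apply hne₃
    rw [h0, Subgroup.commutator_bot_left, Subgroup.commutator_bot_right]
  have hdvd : ∀ (r : ℕ) (B : Subgroup H), r.Prime → IsPGroup r B → B ≤ N → B ≠ ⊥ → r ≠ 2 := by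
    intro r B hr hB hBN hB1
    haveI : Fact r.Prime := ⟨hr⟩
    haveI : Nontrivial B := (Subgroup.nontrivial_iff_ne_bot B).2 hB1
    obtain ⟨n, hn0, hn⟩ := (IsPGroup.nontrivial_iff_card hB).1 ‹_›
    have h1 : r ∣ Nat.card B := by rw [hn]; exact dvd_pow_self r hn0.ne'
    rintro rfl
    have h2 : 2 ∣ Nat.card N := h1.trans (Subgroup.card_dvd_of_le hBN)
    have h3 := Nat.Coprime.eq_one_of_dvd hN2.symm h2
    norm_num at h3
  have hsℓ : ℓ ≠ s := by
    rintro rfl
    have h1 := pCore_eq_bot ρ hinj hirr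
    have h2 : S₁ ≤ Cfsg.pCore ℓ H := Solv.le_pCore hS₁n hS₁p
    rw [h1] at h2
    exact hS₁ne (le_bot_iff.1 h2)
  have h2K : (2 : AlgebraicClosure (ZMod ℓ)) ≠ 0 := by
    have := cast_ne_zero_bc (ℓ := ℓ) Nat.prime_two hℓ2
    exact_mod_cast this
  have hbc := bc_nofix ρ (Subgroup.zpowers x) (fun v hv => hfix v (hv x (Subgroup.mem_zpowers x)))
    (card_zpowers_ne xn h2K)
  apply hne₃
  refine core_big (bc (ZMod ℓ) ρ) hS₁n hs ht hst (hdvd s S₁ hs hS₁p hS₁N hS₁ne) (hdvd t T' ht hTp hTN hT'ne) hS₁p hTp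
    n1 xn hT (fun g hg => hfixN g (hS₁N hg)) (cast_ne_zero_bc hs hsℓ) h2K ?_ ?_
  · intro g _ hg1
    apply bc_injective (ZMod ℓ) ρ hinj
    rw [hg1, map_one]
  · intro v hv
    apply hbc v
    intro a ha
    have h2 : Subgroup.zpowers x ≤ fixer (bc (ZMod ℓ) ρ) v := by
      rw [Subgroup.zpowers_le]
      exact hv
    exact h2 ha

theorem D_lcs {X : Type u} [Group X] [Finite X] (hX : Group.IsSolvable X) (N : Subgroup X) [hNn : N.Normal] {x : X}
    {n : ℕ} (n1 : 1 ≤ n) (xn : x ^ 2 ^ n = 1) (hfix : ∀ g ∈ N, x * g = g * x → g = 1) (hcop : (Nat.card N).Coprime 2)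
    (D : Subgroup X) (hD : D = ⁅N, Subgroup.zpowers (x ^ 2 ^ (n - 1))⁆) [hDn : D.Normal] :
    ∃ k, D.lowerCentralSeries k ≤ (Cfsg.fittingSubgroup N).map N.subtype := by
  classical
  by_contra hcon
  push Not at hcon
  obtain ⟨k, hk⟩ := lcs_stab D
  obtain ⟨g, hg, hgF⟩ := SetLike.not_le_iff_exists.1 (hcon k)
  have hDN : D ≤ N := by rw [hD]; exact Subgroup.commutator_le_left _ _
  have hgN : g ∈ N := hDN (lcs_le D k hg)
  obtain ⟨ℓ, iℓ, V, iV, iM, iVf, H, iH, iHf, f, ρ, hf, hinj, hfg, hirr, hℓN, hfixV⟩ :=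
    exists_faithful_chief_rep hX N hgN hgF
  haveI hXs := hX
  have hHsol : Group.IsSolvable H := Group.isSolvable_of_surjective hf
  have hNsol : Group.IsSolvable N := inferInstance
  set N' : Subgroup H := N.map f with hN'
  haveI hN'n : N'.Normal := hNn.map f hf
  have hcopx : (Nat.card (Subgroup.zpowers x)).Coprime (Nat.card N) := by
    rw [Nat.card_zpowers]
    exact Nat.Coprime.coprime_dvd_left (orderOf_dvd_of_pow_eq_one xn) (hcop.symm.pow_left n)
  have hℓ2 : ℓ ≠ 2 := by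
    rintro rfl
    have h3 := Nat.Coprime.eq_one_of_dvd hcop.symm hℓN
    norm_num at h3
  have hCV : ∀ v, ρ (f x) v = v → v = 0 := by
    intro v hv
    by_contra hv0
    obtain ⟨h, hhN, hh1, hhc⟩ := hfixV (Subgroup.zpowers x) hcopx v hv0 (by
      intro y hy
      have h1 : f y ∈ Subgroup.zpowers (f x) := by
        rw [← MonoidHom.map_zpowers]
        exact Subgroup.mem_map_of_mem f hy
      have h2 : Subgroup.zpowers (f x) ≤ fixer ρ v := by
        rw [Subgroup.zpowers_le]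
        exact hv
      exact h2 h1)
    exact hh1 (hfix h hhN (Subgroup.mem_centralizer_iff.1 hhc x (Subgroup.mem_zpowers x)))
  have hCN' : ∀ g ∈ N', f x * g = g * f x → g = 1 := by
    intro y hy hyc
    obtain ⟨c, hc, hcy⟩ := fixed_map f (Subgroup.zpowers x) N hcopx (Or.inr hNsol) hy (by
      intro a ha
      have h1 : f a ∈ Subgroup.centralizer {y} := by
        have h2 : Subgroup.zpowers (f x) ≤ Subgroup.centralizer {y} := by
          rw [Subgroup.zpowers_le, Subgroup.mem_centralizer_singleton_iff]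
          exact hyc
        apply h2
        rw [← MonoidHom.map_zpowers]
        exact Subgroup.mem_map_of_mem f ha
      rw [Subgroup.mem_centralizer_singleton_iff] at h1
      rw [h1, mul_inv_cancel_right])
    have h1 := hfix c hc.1 (Subgroup.mem_centralizer_iff.1 hc.2 x (Subgroup.mem_zpowers x))
    rw [← hcy, h1, map_one]
  have hN'2 : (Nat.card N').Coprime 2 := Nat.Coprime.coprime_dvd_left (Subgroup.card_map_dvd N f) hcop
  have hcl := claim hHsol hℓ2 ρ hinj hirr N' hN'2 n1 (x := f x) (by rw [← map_pow, xn, map_one]) hCN' hCV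
  rw [← map_pow, ← MonoidHom.map_zpowers, hN', ← Subgroup.map_commutator, ← hD, ← hN'] at hcl
  -- nilpotency
  obtain ⟨m, hm⟩ := (Subgroup.isNilpotent_iff_lowerCentralSeries (Cfsg.fittingSubgroup ↥N')).1
    Solv.fitting_isNilpotent
  have hFm : ((Cfsg.fittingSubgroup ↥N').map N'.subtype).lowerCentralSeries m = ⊥ := by
    rw [← Subgroup.map_lowerCentralSeries, hm, Subgroup.map_bot]
  apply hfg
  have h1 : f g ∈ (D.map f).lowerCentralSeries (max k m) := by
    rw [← Subgroup.map_lowerCentralSeries, hk _ (le_max_left k m)]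
    exact Subgroup.mem_map_of_mem f hg
  haveI : (D.map f).Normal := hDn.map f hf
  have h2 := lcs_anti (D.map f) (le_max_right k m) h1
  have h3 := FitChain.lcs_mono hcl m h2
  rw [hFm, Subgroup.mem_bot] at h3
  exact h3

/-- two nilpotent steps -/
theorem two_step {G : Type u} [Group G] (F D : Subgroup G) [hF : F.Normal] [hD : D.Normal]
    (hFn : Group.IsNilpotent F) {k : ℕ} (hk : D.lowerCentralSeries k ≤ F) {m : ℕ} (h : FitChain (G ⧸ (F ⊔ D)) m) :
    FitChain G (m + 2) := by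
  apply FitChain.of_quotient F hFn
  have hs := QuotientGroup.mk'_surjective F
  haveI hDn : (D.map (QuotientGroup.mk' F)).Normal := hD.map _ hs
  apply FitChain.of_quotient (D.map (QuotientGroup.mk' F))
  · rw [Subgroup.isNilpotent_iff_lowerCentralSeries]
    refine ⟨k, ?_⟩
    rw [← Subgroup.map_lowerCentralSeries, Subgroup.map_eq_bot_iff, QuotientGroup.ker_mk']
    exact hk
  · let f : G ⧸ (F ⊔ D) →* (G ⧸ F) ⧸ (D.map (QuotientGroup.mk' F)) :=
      QuotientGroup.lift (F ⊔ D) ((QuotientGroup.mk' (D.map (QuotientGroup.mk' F))).comp (QuotientGroup.mk' F)) (by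
        apply sup_le
        · intro y hy
          have h1 : (QuotientGroup.mk' F) y = 1 := (QuotientGroup.eq_one_iff y).2 hy
          change (QuotientGroup.mk' (D.map (QuotientGroup.mk' F))) ((QuotientGroup.mk' F) y) = 1
          rw [h1, map_one]
        · intro y hy
          change (QuotientGroup.mk' (D.map (QuotientGroup.mk' F))) ((QuotientGroup.mk' F) y) = 1
          exact (QuotientGroup.eq_one_iff _).2 (Subgroup.mem_map_of_mem _ hy))
    apply h.map f
    intro q
    obtain ⟨q, rfl⟩ := QuotientGroup.mk'_surjective _ q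
    obtain ⟨g, rfl⟩ := QuotientGroup.mk'_surjective _ q
    exact ⟨QuotientGroup.mk g, rfl⟩

/-- The automorphism induced on the quotient by an invariant subgroup. -/
noncomputable def qAut {G : Type u} [Group G] (N : Subgroup G) [N.Normal] (σ : MulAut G)
    (hN : N.map (σ : G →* G) = N) : MulAut (G ⧸ N) :=
  QuotientGroup.congr N N σ hN

theorem qAut_mk {G : Type u} [Group G] (N : Subgroup G) [N.Normal] (σ : MulAut G) (hN : N.map (σ : G →* G) = N)
    (g : G) : qAut N σ hN (QuotientGroup.mk g) = QuotientGroup.mk (σ g) := rfl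

theorem qAut_pow {G : Type u} [Group G] (N : Subgroup G) [N.Normal] (σ : MulAut G) (hN : N.map (σ : G →* G) = N)
    (k : ℕ) (g : G) : ((qAut N σ hN) ^ k) (QuotientGroup.mk g) = QuotientGroup.mk ((σ ^ k) g) := by
  induction k generalizing g with
  | zero => rfl
  | succ k ih => rw [pow_succ, pow_succ, MulAut.mul_apply, MulAut.mul_apply, qAut_mk, ih]

/-- fixed points in the quotient by an invariant subgroup -/
theorem fpf_q {G : Type u} [Group G] [Finite G] {p : ℕ} [hp : Fact p.Prime] (n : ℕ) (σ : MulAut G)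
    (hσ : σ ^ p ^ n = 1) (hfpf : ∀ g : G, σ g = g → g = 1) (hG : Group.IsSolvable G) (N : Subgroup G) [N.Normal]
    (hN : N.map (σ : G →* G) = N) {g : G} (hg : σ g * g⁻¹ ∈ N) : g ∈ N := by
  have hcop := ShultGross.coprime_of_fpf n σ hσ hfpf
  have hNσ1 : ∀ g ∈ N, σ g ∈ N := by
    intro y hy
    rw [← hN]
    exact ⟨y, hy, rfl⟩
  have hNσk : ∀ (k : ℕ), ∀ g ∈ N, (σ ^ k) g ∈ N := by
    intro k
    induction k with
    | zero => intro g hg; exact hg
    | succ k ih =>
      intro g hg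
      rw [pow_succ, MulAut.mul_apply]
      exact ih _ (hNσ1 g hg)
  have hNσ : ∀ τ ∈ Subgroup.zpowers σ, ∀ g ∈ N, τ g ∈ N := by
    intro τ hτ
    obtain ⟨k, rfl⟩ := (Submonoid.mem_powers_iff τ σ).1 ((isOfFinOrder_of_finite σ).mem_powers_iff_mem_zpowers.2 hτ)
    exact hNσk k
  obtain ⟨c, hc, hgc⟩ := SemiExt.fixed_quotient (A := Subgroup.zpowers σ) (Subgroup.subtype _) (by
    rw [Nat.card_zpowers]
    exact Nat.Coprime.coprime_dvd_left (orderOf_dvd_of_pow_eq_one hσ) (Nat.Coprime.pow_left _ hcop.symm))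
    (Or.inr hG) N (fun a y hy => hNσ a a.2 y hy) (g := g) (by
      rintro ⟨τ, hτ⟩
      obtain ⟨k, rfl⟩ := (Submonoid.mem_powers_iff τ σ).1 ((isOfFinOrder_of_finite σ).mem_powers_iff_mem_zpowers.2 hτ)
      change (σ ^ k) g * g⁻¹ ∈ N
      induction k with
      | zero => simp [N.one_mem]
      | succ k ih =>
        have h1 : (σ ^ (k + 1)) g * g⁻¹ = (σ ^ k) (σ g * g⁻¹) * ((σ ^ k) g * g⁻¹) := by
          rw [pow_succ, MulAut.mul_apply, map_mul, map_inv]; group
        rw [h1]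
        exact N.mul_mem (hNσk k _ hg) (ih (Subgroup.pow_mem _ (Subgroup.mem_zpowers σ) k)))
  have h1 : c = 1 := hfpf c (hc ⟨σ, Subgroup.mem_zpowers σ⟩)
  rw [h1, mul_one] at hgc
  have := N.inv_mem hgc
  rwa [inv_inv] at this

open SemidirectProduct SemiExt in
/-- the normal subgroup generated by the commutators with the involution -/
theorem exists_D {G : Type u} [Group G] [Finite G] (hG : Group.IsSolvable G) (n : ℕ) (n1 : 1 ≤ n) (σ : MulAut G)
    (hσ : σ ^ 2 ^ n = 1) (hfpf : ∀ g : G, σ g = g → g = 1) :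
    ∃ (D : Subgroup G) (k : ℕ), D.Normal ∧ D.map (σ : G →* G) = D ∧ (∀ g : G, g * ((σ ^ 2 ^ (n - 1)) g)⁻¹ ∈ D) ∧
      D.lowerCentralSeries k ≤ Cfsg.fittingSubgroup G := by
  haveI : Fact (Nat.Prime 2) := ⟨Nat.prime_two⟩
  set φ : Subgroup.zpowers σ →* MulAut G := Subgroup.subtype _ with hφ
  haveI := finite_semi φ
  set s : Subgroup.zpowers σ := ⟨σ, Subgroup.mem_zpowers σ⟩ with hs
  set x : G ⋊[φ] (Subgroup.zpowers σ) := inr s with hx
  have hcop := ShultGross.coprime_of_fpf n σ hσ hfpf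
  have hspow : s ^ 2 ^ n = 1 := Subtype.ext hσ
  have hxn : x ^ 2 ^ n = 1 := by rw [hx, ← map_pow, hspow, map_one]
  set N := nf φ with hN
  set X₀ := Subgroup.zpowers (x ^ 2 ^ (n - 1)) with hX₀
  set D := ⁅N, X₀⁆ with hD
  have hDN : D ≤ N := Subgroup.commutator_le_left _ _
  have hxr : ∀ a : Subgroup.zpowers σ, (inr a : G ⋊[φ] (Subgroup.zpowers σ)) ∈ Subgroup.zpowers x := by
    intro a
    obtain ⟨k, hk⟩ := Subgroup.mem_zpowers_iff.1 a.2
    have h1 : a = s ^ k := Subtype.ext hk.symm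
    rw [h1, map_zpow]
    exact Subgroup.zpow_mem _ (Subgroup.mem_zpowers x) k
  have hNx : N ⊔ Subgroup.zpowers x = ⊤ := by
    rw [eq_top_iff]
    intro y _
    rw [← inl_left_mul_inr_right y]
    exact Subgroup.mul_mem _ (Subgroup.mem_sup_left ⟨_, rfl⟩) (Subgroup.mem_sup_right (hxr _))
  have hxD : Subgroup.zpowers x ≤ Subgroup.normalizer (D : Set _) :=
    le_normalizer_comm (by rw [Subgroup.normalizer_eq_top]; exact le_top) (zpowers_norm _ x _)
  haveI hDn : D.Normal := by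
    rw [← Subgroup.normalizer_eq_top_iff, eq_top_iff, ← hNx]
    exact sup_le (Subgroup.normalizer_commutator_ge_left N X₀) hxD
  obtain ⟨k, hk⟩ := D_lcs (isSolvable_semi φ hG inferInstance) N n1 hxn (by
      rintro _ ⟨y, rfl⟩ hy
      rw [inr_comm_iff] at hy
      rw [hfpf y hy, map_one]) (by rw [hN, card_nf]; exact hcop) D hD
  have hmapD : (D.comap (inl : G →* G ⋊[φ] (Subgroup.zpowers σ))).map inl = D := by
    rw [Subgroup.map_comap_eq]
    exact inf_eq_right.2 hDN
  refine ⟨D.comap (inl : G →* G ⋊[φ] (Subgroup.zpowers σ)), k, inferInstance, ?_, ?_, ?_⟩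
  · have hmem : ∀ g : G, g ∈ D.comap (inl : G →* G ⋊[φ] (Subgroup.zpowers σ)) ↔
        σ g ∈ D.comap (inl : G →* G ⋊[φ] (Subgroup.zpowers σ)) := by
      intro g
      rw [Subgroup.mem_comap, Subgroup.mem_comap]
      have h1 : (inl (σ g) : G ⋊[φ] (Subgroup.zpowers σ)) = x * inl g * x⁻¹ := (inr_conj φ s g).symm
      rw [h1]
      exact (Subgroup.mem_normalizer_iff.1 (hxD (Subgroup.mem_zpowers x)) _)
    ext g
    constructor
    · rintro ⟨y, hy, rfl⟩
      exact (hmem y).1 hy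
    · intro hg
      refine ⟨σ⁻¹ g, ?_, MulAut.apply_inv_self G σ g⟩
      have h1 := (hmem (σ⁻¹ g)).2 (by rw [MulAut.apply_inv_self]; exact hg)
      exact h1
  · intro g
    rw [Subgroup.mem_comap]
    have h2 := inr_conj φ (s ^ 2 ^ (n - 1)) g
    have h3 : φ (s ^ 2 ^ (n - 1)) g = (σ ^ 2 ^ (n - 1)) g := rfl
    rw [h3] at h2
    have h1 : (inl (g * ((σ ^ 2 ^ (n - 1)) g)⁻¹) : G ⋊[φ] (Subgroup.zpowers σ)) = ⁅(inl g : G ⋊[φ] (Subgroup.zpowers σ)), x ^ 2 ^ (n - 1)⁆ := by
      rw [commutatorElement_def, hx, ← map_pow, map_mul, map_inv, ← h2]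
      group
    rw [h1]
    exact Subgroup.commutator_mem_commutator ⟨g, rfl⟩ (Subgroup.mem_zpowers _)
  · rw [hN, fitting_nf] at hk
    apply (Subgroup.map_le_map_iff_of_injective (f := (inl : G →* G ⋊[φ] (Subgroup.zpowers σ))) inl_injective).1
    rw [Subgroup.map_lowerCentralSeries, hmapD]
    exact hk

/-- **Gross's theorem.** -/
theorem gross : ∀ (m : ℕ) (G : Type u) [Group G] [Finite G], Group.IsSolvable G →
    ∀ σ : MulAut G, σ ^ 2 ^ (m + 2) = 1 → (∀ g : G, σ g = g → g = 1) → FitChain G (2 * m + 2) := by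
  haveI : Fact (Nat.Prime 2) := ⟨Nat.prime_two⟩
  intro m
  induction m with
  | zero =>
    intro G _ _ hG σ hσ hfpf
    have h1 := Cfsg.Agent.S3794.result hG σ hσ hfpf
    apply FitChain.of_quotient (commutator G) h1
    rw [FitChain.one_iff]
    have h2 : Group.IsNilpotent (Abelianization G) := inferInstance
    exact h2
  | succ m ih =>
    intro G _ _ hG σ hσ hfpf
    obtain ⟨D, k, hDn, hDσ, hD, hDk⟩ := exists_D hG (m + 3) (by omega) σ hσ hfpf
    set F := Cfsg.fittingSubgroup G with hF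
    haveI := hDn
    haveI hchar : F.Characteristic := Solv.fitting_characteristic
    have hMσ : (F ⊔ D).map (σ : G →* G) = F ⊔ D := by
      rw [Subgroup.map_sup, hDσ]
      congr 1
      exact Subgroup.characteristic_iff_map_eq.1 hchar σ
    have h1 : 2 * (m + 1) + 2 = (2 * m + 2) + 2 := by ring
    rw [h1]
    apply two_step F D Solv.fitting_isNilpotent hDk
    haveI := hG
    apply ih (G ⧸ (F ⊔ D)) inferInstance (qAut (F ⊔ D) σ hMσ)
    · apply MulEquiv.ext
      intro q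
      induction q using QuotientGroup.induction_on with
      | H g =>
        rw [qAut_pow, MulAut.one_apply]
        have h1 := hD g
        rw [show m + 3 - 1 = m + 2 by omega] at h1
        apply QuotientGroup.eq.2
        have h2 : (F ⊔ D).Normal := inferInstance
        have h3 := h2.conj_mem _ (Subgroup.mem_sup_right h1 : g * ((σ ^ 2 ^ (m + 2)) g)⁻¹ ∈ F ⊔ D)
          ((σ ^ 2 ^ (m + 2)) g)⁻¹
        have h4 : ((σ ^ 2 ^ (m + 2)) g)⁻¹ * (g * ((σ ^ 2 ^ (m + 2)) g)⁻¹) * ((σ ^ 2 ^ (m + 2)) g)⁻¹⁻¹ =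
          ((σ ^ 2 ^ (m + 2)) g)⁻¹ * g := by group
        rwa [h4] at h3
    · intro q hq
      induction q using QuotientGroup.induction_on with
      | H g =>
        rw [qAut_mk] at hq
        have h1 : (σ g)⁻¹ * g ∈ F ⊔ D := QuotientGroup.eq.1 hq
        have h2 : (F ⊔ D).Normal := inferInstance
        have h3 := h2.conj_mem _ ((F ⊔ D).inv_mem h1) g
        have h4 : g * ((σ g)⁻¹ * g)⁻¹ * g⁻¹ = σ g * g⁻¹ := by group
        rw [h4] at h3
        exact (QuotientGroup.eq_one_iff g).2 (fpf_q (m + 3) σ hσ hfpf hG (F ⊔ D) hMσ h3)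

end Cfsg.Agent.H62.GR
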