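import Mathlib

set_option autoImplicit false
set_option linter.style.haveILetI false
set_option linter.unusedSectionVars false

/-!
A Gauss sum argument: a 2-group `P` with a central Klein four-subgroup `Z` containing all squares and
`|P| ≥ 2^8` has an involution outside `Z`.
-/

namespace Cfsg.Agent.H62

open Subgroup
open scoped commutatorElement

section

variable {P : Type*} [Group P] [Fintype P]

theorem card_dvd_sum_of_coset (Z : Subgroup P) (g : P → ℤ) (hg : ∀ h : P, ∀ z ∈ Z, g (h * z) = g h) :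
    (Nat.card Z : ℤ) ∣ ∑ h, g h := by
  classical
  haveI : Fintype (P ⧸ Z) := Fintype.ofFinite _
  rw [← Finset.sum_fiberwise (s := Finset.univ) (g := fun h : P => (QuotientGroup.mk h : P ⧸ Z))]
  apply Finset.dvd_sum
  intro q _
  have h1 : ∀ h ∈ Finset.univ.filter (fun h : P => (QuotientGroup.mk h : P ⧸ Z) = q), g h = g q.out := by
    intro h hh
    rw [Finset.mem_filter] at hh
    have h2 : (QuotientGroup.mk (q.out) : P ⧸ Z) = QuotientGroup.mk h := by
      rw [hh.2]; exact Quotient.out_eq' q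
    have h3 : (q.out)⁻¹ * h ∈ Z := QuotientGroup.eq.1 h2
    have h4 := hg q.out _ h3
    rwa [mul_inv_cancel_left] at h4
  rw [Finset.sum_congr rfl h1, Finset.sum_const, nsmul_eq_mul]
  apply Dvd.dvd.mul_right
  have h5 : (Finset.univ.filter (fun h : P => (QuotientGroup.mk h : P ⧸ Z) = q)).card = Nat.card Z := by
    have e := QuotientGroup.preimageMkEquivSubgroupProdSet Z {q}
    have h6 := Nat.card_congr e
    rw [Nat.card_prod] at h6
    have h7 : Nat.card ({q} : Set (P ⧸ Z)) = 1 := by simp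
    rw [h7, mul_one] at h6
    rw [← h6, ← Fintype.card_subtype, ← Nat.card_eq_fintype_card]
    rfl
  rw [h5]

variable (Z : Subgroup P) (hZc : Z ≤ center P) (hsq : ∀ x : P, x ^ 2 ∈ Z)

include hZc in
theorem central_comm {z : P} (hz : z ∈ Z) (x : P) : x * z = z * x :=
  (mem_center_iff.1 (hZc hz) x)

include hZc hsq in
theorem conj_quot_mem (x h : P) : x⁻¹ * h * x * h⁻¹ ∈ Z := by
  have h1 : x⁻¹ * h * x * h⁻¹ = (x ^ 2)⁻¹ * ((x * h) ^ 2) * (h ^ 2)⁻¹ := by
    rw [sq, sq, sq]; group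
  rw [h1]
  exact Z.mul_mem (Z.mul_mem (Z.inv_mem (hsq x)) (hsq _)) (Z.inv_mem (hsq h))

/-- `x ↦ x⁻¹ h x h⁻¹` -/
def cHom (h : P) : P →* Z where
  toFun x := ⟨x⁻¹ * h * x * h⁻¹, conj_quot_mem Z hZc hsq x h⟩
  map_one' := by apply Subtype.ext; simp
  map_mul' x y := by
    apply Subtype.ext
    change (x * y)⁻¹ * h * (x * y) * h⁻¹ = (x⁻¹ * h * x * h⁻¹) * (y⁻¹ * h * y * h⁻¹)
    have h1 := central_comm Z hZc (conj_quot_mem Z hZc hsq x h) y⁻¹
    calc (x * y)⁻¹ * h * (x * y) * h⁻¹ = (y⁻¹ * (x⁻¹ * h * x * h⁻¹)) * h * y * h⁻¹ := by group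
      _ = (x⁻¹ * h * x * h⁻¹) * (y⁻¹ * h * y * h⁻¹) := by rw [h1]; group

include hZc in
theorem gauss_sq (hZ2 : ∀ z ∈ Z, z ^ 2 = 1) (lam : Z →* ℤˣ) :
    ((Nat.card P * Nat.card Z : ℕ) : ℤ) ∣ (∑ x : P, ((lam ⟨x ^ 2, hsq x⟩ : ℤˣ) : ℤ)) ^ 2 := by
  classical
  set f : P → ℤ := fun x => ((lam ⟨x ^ 2, hsq x⟩ : ℤˣ) : ℤ) with hf
  have key : ∀ x h : P, f x * f (x * h) = f h * ((lam (cHom Z hZc hsq h x) : ℤˣ) : ℤ) := by
    intro x h
    have h1 : (⟨(x * h) ^ 2, hsq (x * h)⟩ : Z) = ⟨x ^ 2, hsq x⟩ * (cHom Z hZc hsq h x) * ⟨h ^ 2, hsq h⟩ := by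
      apply Subtype.ext
      change (x * h) ^ 2 = x ^ 2 * (x⁻¹ * h * x * h⁻¹) * h ^ 2
      rw [sq, sq, sq]; group
    simp only [hf]
    rw [h1, map_mul, map_mul, Units.val_mul, Units.val_mul]
    have h2 : ((lam ⟨x ^ 2, hsq x⟩ : ℤˣ) : ℤ) * ((lam ⟨x ^ 2, hsq x⟩ : ℤˣ) : ℤ) = 1 := by
      rw [← Units.val_mul, Int.units_mul_self, Units.val_one]
    calc _ = (((lam ⟨x ^ 2, hsq x⟩ : ℤˣ) : ℤ) * ((lam ⟨x ^ 2, hsq x⟩ : ℤˣ) : ℤ)) *
          (((lam (cHom Z hZc hsq h x) : ℤˣ) : ℤ) * ((lam ⟨h ^ 2, hsq h⟩ : ℤˣ) : ℤ)) := by ring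
      _ = _ := by rw [h2]; ring
  set T : P → Prop := fun h => ((Units.coeHom ℤ).comp (lam.comp (cHom Z hZc hsq h))) = 1 with hT
  have hsum : ∀ h : P, ∑ x : P, ((lam (cHom Z hZc hsq h x) : ℤˣ) : ℤ) =
      if T h then (Fintype.card P : ℤ) else 0 := by
    intro h
    exact_mod_cast sum_hom_units ((Units.coeHom ℤ).comp (lam.comp (cHom Z hZc hsq h)))
  have hS : (∑ x : P, f x) ^ 2 = (Fintype.card P : ℤ) * ∑ h : P, (if T h then f h else 0) := by
    rw [sq, Finset.sum_mul]
    have h1 : ∀ x : P, f x * ∑ y : P, f y = ∑ h : P, f h * ((lam (cHom Z hZc hsq h x) : ℤˣ) : ℤ) := by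
      intro x
      rw [← Equiv.sum_comp (Equiv.mulLeft x) f, Finset.mul_sum]
      exact Finset.sum_congr rfl (fun h _ => key x h)
    rw [Finset.sum_congr rfl (fun x _ => h1 x), Finset.sum_comm, Finset.mul_sum]
    apply Finset.sum_congr rfl
    intro h _
    rw [← Finset.mul_sum, hsum h]
    split_ifs <;> ring
  have hdvd : (Nat.card Z : ℤ) ∣ ∑ h : P, (if T h then f h else 0) := by
    apply card_dvd_sum_of_coset
    intro h z hz
    have hc : cHom Z hZc hsq (h * z) = cHom Z hZc hsq h := by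
      ext x
      change x⁻¹ * (h * z) * x * (h * z)⁻¹ = x⁻¹ * h * x * h⁻¹
      have h1 := central_comm Z hZc hz x
      calc x⁻¹ * (h * z) * x * (h * z)⁻¹ = x⁻¹ * h * (z * x) * z⁻¹ * h⁻¹ := by group
        _ = x⁻¹ * h * x * h⁻¹ := by rw [← h1]; group
    have hff : f (h * z) = f h := by
      have h1 : (⟨(h * z) ^ 2, hsq (h * z)⟩ : Z) = ⟨h ^ 2, hsq h⟩ := by
        apply Subtype.ext
        change (h * z) ^ 2 = h ^ 2
        have h2 : Commute h z := central_comm Z hZc hz h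
        rw [h2.mul_pow, hZ2 z hz, mul_one]
      simp only [hf]
      rw [h1]
    simp only [hT, hc, hff]
  obtain ⟨k, hk⟩ := hdvd
  rw [hS, hk]
  refine ⟨k, ?_⟩
  rw [Nat.card_eq_fintype_card (α := P)]
  push_cast
  ring

/-- the characters of a Klein four group -/
noncomputable def kleinHom {V : Type*} [Group V] (hV : IsKleinFour V) (c : V) : V →* ℤˣ :=
  letI := Classical.decEq V
  if hc : c = 1 then 1 else
  { toFun := fun z => if z = 1 ∨ z = c then 1 else -1
    map_one' := by simp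
    map_mul' := by
      have hinv : ∀ v : V, v * v = 1 := fun v => IsKleinFour.mul_self v
      intro z w
      by_cases hz : z = 1
      · subst hz; simp
      by_cases hw : w = 1
      · subst hw; simp
      by_cases hzc : z = c
      · subst hzc
        by_cases hwc : w = z
        · subst hwc; simp [hinv]
        · have h1 : z * w ≠ 1 := by
            intro h
            apply hwc
            have : z * w = z * z := by rw [h, hinv]
            exact mul_left_cancel this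
          have h2 : z * w ≠ z := by
            intro h; exact hw (mul_eq_left.1 h)
          simp [h1, h2, hw, hwc]
      · by_cases hwc : w = c
        · subst hwc
          have h1 : z * w ≠ 1 := by
            intro h
            apply hzc
            have : z * w = w * w := by rw [h, hinv]
            exact mul_right_cancel this
          have h2 : z * w ≠ w := by
            intro h; exact hz (mul_eq_right.1 h)
          simp [h1, h2, hz, hzc]
        · by_cases hzw : z = w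
          · subst hzw; simp [hinv, hz, hzc]
          · have h1 : c = z * w := IsKleinFour.eq_mul_of_ne_all hz hw hzw hc
              (Ne.symm hzc) (Ne.symm hwc)
            simp [hz, hw, hzc, hwc, ← h1] }

theorem kleinHom_of {V : Type*} [Group V] (hV : IsKleinFour V) {c y : V} (hc : c ≠ 1)
    (h : y = 1 ∨ y = c) : kleinHom hV c y = 1 := by
  rw [kleinHom, dif_neg hc]
  exact if_pos h

theorem kleinHom_of_not {V : Type*} [Group V] (hV : IsKleinFour V) {c y : V} (hc : c ≠ 1)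
    (h : ¬ (y = 1 ∨ y = c)) : kleinHom hV c y = -1 := by
  rw [kleinHom, dif_neg hc]
  exact if_neg h

theorem kleinHom_sum {V : Type*} [Group V] [Fintype V] [DecidableEq V] (hV : IsKleinFour V) (y : V) :
    1 + ∑ c ∈ Finset.univ.filter (fun c : V => c ≠ 1), ((kleinHom hV c y : ℤˣ) : ℤ) =
      if y = 1 then 4 else 0 := by
  have hcard : (Finset.univ.filter (fun c : V => c ≠ 1)).card = 3 := by
    rw [Finset.filter_ne', Finset.card_erase_of_mem (Finset.mem_univ _), Finset.card_univ,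
      IsKleinFour.card_four']
  have h1 : ∀ c ∈ Finset.univ.filter (fun c : V => c ≠ 1), ((kleinHom hV c y : ℤˣ) : ℤ) =
      if y = 1 then 1 else (-1 + if c = y then 2 else 0) := by
    intro c hc
    rw [Finset.mem_filter] at hc
    by_cases hy : y = 1
    · rw [kleinHom_of hV hc.2 (Or.inl hy), if_pos hy]; simp
    · rw [if_neg hy]
      by_cases hyc : y = c
      · rw [kleinHom_of hV hc.2 (Or.inr hyc), if_pos hyc.symm]; simp
      · rw [kleinHom_of_not hV hc.2 (by push Not; exact ⟨hy, hyc⟩), if_neg (Ne.symm hyc)]; simp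
  rw [Finset.sum_congr rfl h1]
  by_cases hy : y = 1
  · simp [hy, hcard]
  · simp only [if_neg hy]
    rw [Finset.sum_add_distrib, Finset.sum_const, hcard]
    rw [Finset.sum_ite_eq' (Finset.univ.filter (fun c : V => c ≠ 1)) y]
    simp [hy]

include hZc hsq in
/-- If `|P| ≥ 2^8`, there is an involution outside `Z`. -/
theorem exists_sq_one_not_mem (hV : IsKleinFour Z) (hP : 2 ^ 8 ∣ Nat.card P) :
    ∃ x : P, x ∉ Z ∧ x ^ 2 = 1 := by
  classical
  by_contra hcon
  push Not at hcon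
  have hZ2 : ∀ z ∈ Z, z ^ 2 = 1 := by
    intro z hz
    have := IsKleinFour.mul_self (⟨z, hz⟩ : Z)
    rw [sq]
    exact congrArg Subtype.val this
  haveI : Fintype Z := Fintype.ofFinite _
  set S : Z → ℤ := fun c => ∑ x : P, ((kleinHom hV c ⟨x ^ 2, hsq x⟩ : ℤˣ) : ℤ) with hS
  have h32 : ∀ c : Z, (32 : ℤ) ∣ S c := by
    intro c
    have h1 := gauss_sq Z hZc hsq hZ2 (kleinHom hV c)
    have h2 : ((32 ^ 2 : ℤ)) ∣ ((Nat.card P * Nat.card Z : ℕ) : ℤ) := by
      have h3 : 2 ^ 8 * 4 ∣ Nat.card P * Nat.card Z := by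
        rw [hV.card_four]
        exact Nat.mul_dvd_mul_right hP 4
      have h4 : ((2 ^ 8 * 4 : ℕ) : ℤ) ∣ ((Nat.card P * Nat.card Z : ℕ) : ℤ) := Int.natCast_dvd_natCast.2 h3
      have h5 : ((2 ^ 8 * 4 : ℕ) : ℤ) = 32 ^ 2 := by norm_num
      rwa [h5] at h4
    exact (Int.pow_dvd_pow_iff two_ne_zero).1 (h2.trans h1)
  have hN : ∑ x : P, (if (⟨x ^ 2, hsq x⟩ : Z) = 1 then (4 : ℤ) else 0) =
      (Fintype.card P : ℤ) + ∑ c ∈ Finset.univ.filter (fun c : Z => c ≠ 1), S c := by
    simp only [← kleinHom_sum hV]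
    rw [Finset.sum_add_distrib, Finset.sum_comm]
    simp [hS]
  have hN2 : ∑ x : P, (if (⟨x ^ 2, hsq x⟩ : Z) = 1 then (4 : ℤ) else 0) = 16 := by
    have h1 : ∀ x : P, (if (⟨x ^ 2, hsq x⟩ : Z) = 1 then (4 : ℤ) else 0) = if x ∈ Z then 4 else 0 := by
      intro x
      have h2 : ((⟨x ^ 2, hsq x⟩ : Z) = 1) ↔ x ∈ Z := by
        constructor
        · intro h
          have h3 : x ^ 2 = 1 := congrArg Subtype.val h
          by_contra hx
          exact hcon x hx h3
        · intro h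
          exact Subtype.ext (hZ2 x h)
      simp only [h2]
    rw [Finset.sum_congr rfl (fun x _ => h1 x), Finset.sum_ite, Finset.sum_const_zero, add_zero,
      Finset.sum_const]
    have h3 : (Finset.univ.filter (fun x : P => x ∈ Z)).card = 4 := by
      rw [← hV.card_four, ← Fintype.card_subtype, Nat.card_eq_fintype_card]
    rw [h3]; norm_num
  have h5 : (32 : ℤ) ∣ (Fintype.card P : ℤ) := by
    rw [← Nat.card_eq_fintype_card]
    have : ((32 : ℕ) : ℤ) ∣ ((Nat.card P : ℕ) : ℤ) :=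
      Int.natCast_dvd_natCast.2 (dvd_trans (by norm_num) hP)
    exact_mod_cast this
  have h6 : (32 : ℤ) ∣ 16 := by
    rw [← hN2, hN]
    exact dvd_add h5 (Finset.dvd_sum (fun c _ => h32 c))
  norm_num at h6

end

theorem six_le_of_nine_dvd {k : ℕ} (hk : 0 < k) (h : 9 ∣ 2 ^ k - 1) : 6 ≤ k := by
  by_contra hlt
  push Not at hlt
  interval_cases k <;> omega

end Cfsg.Agent.H62
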