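import Cfsg.Agent.H62.PLoc
import Cfsg.Agent.H62.W1
import Cfsg.Agent.H76.PSolvable
import Cfsg.Agent.H11.Hol
import Cfsg.Agent.Solv.Frattini
import Cfsg.Agent.Cop.GenAb
import Cfsg.Prelude.Def_Transfer

set_option autoImplicit false
set_option linter.style.haveILetI false
set_option linter.unusedSectionVars false
set_option linter.unusedVariables false

/-!
`O^p(L)` inside the ambient group.
-/

namespace Cfsg.Agent.H62

open Subgroup Cfsg
open scoped commutatorElement
open H33 (cj mem_cj conj_mem_cj cj_mul cj_mono IsSyl mem_norm_iff)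

section

variable {G : Type*} [Group G] {p : ℕ}

/-- `O^p(L)` inside the ambient group -/
def opr (p : ℕ) (L : Subgroup G) : Subgroup G := (pResidual p L).map L.subtype

theorem opr_le (L : Subgroup G) : opr p L ≤ L := map_subtype_le _

theorem mem_opr {L : Subgroup G} {g : G} (hg : g ∈ L) (ho : (orderOf g).Coprime p) : g ∈ opr p L := by
  refine ⟨⟨g, hg⟩, Subgroup.subset_closure ?_, rfl⟩
  change (orderOf (⟨g, hg⟩ : L)).Coprime p
  rwa [Subgroup.orderOf_mk]

theorem opr_le_of {L K : Subgroup G} (h : ∀ g ∈ L, (orderOf g).Coprime p → g ∈ K) : opr p L ≤ K := by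
  unfold opr pResidual
  rw [Subgroup.map_le_iff_le_comap, Subgroup.closure_le]
  rintro ⟨g, hg⟩ ho
  change (orderOf (⟨g, hg⟩ : L)).Coprime p at ho
  rw [Subgroup.orderOf_mk] at ho
  exact h g hg ho

variable [Finite G] [Fact p.Prime]

theorem norm_opr (L : Subgroup G) : L ≤ normalizer (opr p L : Set G) := by
  intro x hx
  apply H33.mem_norm_of_le
  have h1 : opr p L ≤ cj x⁻¹ (opr p L) := by
    apply opr_le_of
    intro g hg ho
    rw [mem_cj]
    apply mem_opr
    · have : x⁻¹⁻¹ * g * x⁻¹ = x * g * x⁻¹ := by group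
      rw [this]
      exact L.mul_mem (L.mul_mem hx hg) (L.inv_mem hx)
    · have : x⁻¹⁻¹ * g * x⁻¹ = MulAut.conj x g := by rw [MulAut.conj_apply]; group
      rw [this, MulEquiv.orderOf_eq (MulAut.conj x) g]
      exact ho
  rw [H33.cj_le_iff_le_cj]
  exact h1

/-- `p'`-elements lie in normal subgroups with `p`-factor group -/
theorem mem_of_coprime {K P : Subgroup G} (hP : IsPGroup p P) (hn : P ≤ normalizer (K : Set G)) {g : G}
    (hg : g ∈ K ⊔ P) (ho : (orderOf g).Coprime p) : g ∈ K := by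
  have hnn : K ⊔ P ≤ normalizer (K : Set G) := sup_le le_normalizer hn
  have h1 : K.relIndex (K ⊔ P) = K.relIndex P := by
    rw [sup_comm]
    exact Cop.relIndex_sup_eq hn
  obtain ⟨k, hk⟩ := IsPGroup.iff_card.1 hP
  have h2 : K.relIndex (K ⊔ P) ∣ p ^ k := by
    rw [h1, ← hk]; exact Subgroup.relIndex_dvd_card _ _
  obtain ⟨j, -, hj⟩ := (Nat.dvd_prime_pow Fact.out).1 h2
  haveI : (K.subgroupOf (K ⊔ P)).Normal := by
    constructor
    intro x hx y
    exact (mem_normalizer_iff.1 (hnn y.2) (x : G)).1 hx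
  have h3 := Subgroup.pow_index_mem (K.subgroupOf (K ⊔ P)) ⟨g, hg⟩
  have h4 : g ^ p ^ j ∈ K := by
    have : (K.subgroupOf (K ⊔ P)).index = p ^ j := hj
    rw [this] at h3
    exact h3
  obtain ⟨i, hi⟩ := exists_pow_eq_self_of_coprime (x := g) (n := p ^ j) (Nat.Coprime.pow_left j ho.symm)
  rw [← hi]
  exact pow_mem h4 i

/-- lifting `p'`-elements -/
theorem exists_lift_coprime {H : Type*} [Group H] (f : G →* H) {L : Subgroup G} {d : H} (hd : d ∈ L.map f)
    (ho : (orderOf d).Coprime p) : ∃ y ∈ L, (orderOf y).Coprime p ∧ f y = d := by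
  have hp := Fact.out (p := p.Prime)
  obtain ⟨y, hy, rfl⟩ := hd
  obtain ⟨a, m, hm, he⟩ := Nat.exists_eq_pow_mul_and_not_dvd (orderOf_pos y).ne' p hp.ne_one
  have ho1 : (orderOf (y ^ p ^ a)).Coprime p := by
    rw [orderOf_pow, he, Nat.gcd_eq_right (Dvd.intro _ rfl), Nat.mul_div_cancel_left _ (pow_pos hp.pos a)]
    exact ((Nat.Prime.coprime_iff_not_dvd hp).2 hm).symm
  obtain ⟨i, hi⟩ := exists_pow_eq_self_of_coprime (x := f y) (n := p ^ a) (Nat.Coprime.pow_left a ho.symm)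
  refine ⟨(y ^ p ^ a) ^ i, pow_mem (pow_mem hy _) _, ?_, by rw [map_pow, map_pow, hi]⟩
  exact Nat.Coprime.of_dvd_left (orderOf_pow_dvd i) ho1

end

theorem map_cj' {G H : Type*} [Group G] [Group H] (f : G →* H) (x : G) (A : Subgroup G) :
    (cj x A).map f = cj (f x) (A.map f) := by
  ext z
  constructor
  · rintro ⟨w, hw, rfl⟩
    have hw' : x⁻¹ * w * x ∈ A := mem_cj.1 hw
    rw [mem_cj]
    exact ⟨x⁻¹ * w * x, hw', by rw [map_mul, map_mul, map_inv]⟩
  · intro hz
    rw [mem_cj] at hz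
    obtain ⟨a, ha, haz⟩ := hz
    refine ⟨x * a * x⁻¹, conj_mem_cj ha, ?_⟩
    rw [map_mul, map_mul, map_inv, haz]; group

theorem main_opr {M : Type*} [Group M] [Finite M] {p : ℕ} [hp : Fact p.Prime] (hM : IsPSolvable p M)
    (A : Subgroup M) (hA : IsPGroup p A) (hΦ : (frattini ↥A).map A.subtype ≤ pCore p M) (hnot : ¬ A ≤ pCore p M) :
    ∃ x ∈ (pPrimeCore p (M ⧸ pCore p M)).comap (QuotientGroup.mk' (pCore p M)),
      x ∈ opr p (A ⊔ cj x A) ∧ opr p (A ⊔ cj x A) ≤ (pPrimeCore p (M ⧸ pCore p M)).comap (QuotientGroup.mk' (pCore p M)) ∧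
      ⁅opr p (A ⊔ cj x A), A⁆ = opr p (A ⊔ cj x A) ∧
      (A ⊓ op p (A ⊔ cj x A)).relIndex A = p ∧
      ⁅A ⊓ op p (A ⊔ cj x A), A ⊔ cj x A⁆ ≤ pCore p M := by
  classical
  have hpp := hp.out
  set Q := pCore p M with hQ
  have hQn : Q.Normal := by rw [hQ]; infer_instance
  have hQp : IsPGroup p Q := Solv.pCore_isPGroup p
  set π := QuotientGroup.mk' Q with hπ
  have hker : ∀ y : M, π y = 1 ↔ y ∈ Q := fun y => QuotientGroup.eq_one_iff y
  set N := pPrimeCore p (M ⧸ Q) with hN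
  have hNo : (Nat.card N).Coprime p := Solv.pPrimeCore_card_coprime (G := M ⧸ Q) p
  have hNn : N.Normal := by rw [hN]; infer_instance
  have hNe : ∀ y ∈ N, (orderOf y).Coprime p := fun y hy =>
    Nat.Coprime.of_dvd_left (Subgroup.orderOf_dvd_natCard N hy) hNo
  set Ab := A.map π with hAb
  have hAbp : IsPGroup p Ab := hA.map π
  -- elements of order a power of `p` in `N` are trivial
  have hNA : ∀ y ∈ N, ∀ P : Subgroup (M ⧸ Q), IsPGroup p P → y ∈ P → y = 1 := by
    intro y hy P hP hyP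
    obtain ⟨k, hk⟩ := IsPGroup.iff_orderOf.1 hP ⟨y, hyP⟩
    rw [Subgroup.orderOf_mk] at hk
    have h1 := hNe y hy
    rw [hk] at h1
    rcases Nat.eq_zero_or_pos k with h0 | h0
    · rw [h0, pow_zero] at hk; exact orderOf_eq_one_iff.1 hk
    · exfalso
      have h2 : p ∣ Nat.gcd (p ^ k) p := Nat.dvd_gcd (dvd_pow_self p (by omega)) dvd_rfl
      rw [Nat.Coprime] at h1
      rw [h1] at h2
      exact hpp.one_lt.ne' (Nat.dvd_one.1 h2)
  have hAcomm : ∀ a ∈ Ab, ∀ b ∈ Ab, a * b = b * a := by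
    rintro _ ⟨a, ha, rfl⟩ _ ⟨b, hb, rfl⟩
    have h1 : ⁅(⟨a, ha⟩ : A), (⟨b, hb⟩ : A)⁆ ∈ frattini A :=
      Solv.commutator_le_frattini_of_pGroup hA (commutator_mem_commutator (mem_top _) (mem_top _))
    have h2 : a * b * a⁻¹ * b⁻¹ ∈ Q := hΦ ⟨_, h1, rfl⟩
    have h3 := (hker _).2 h2
    rw [map_mul, map_mul, map_mul, map_inv, map_inv, mul_inv_eq_one, mul_inv_eq_iff_eq_mul] at h3
    exact h3
  have hApow : ∀ a ∈ Ab, a ^ p = 1 := by
    rintro _ ⟨a, ha, rfl⟩
    have h1 := Solv.pow_mem_frattini_of_pGroup hA ⟨a, ha⟩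
    rw [← map_pow, hker]
    exact hΦ ⟨_, h1, rfl⟩
  have hcA : IsMulCommutative Ab := ⟨⟨fun a b => Subtype.ext (hAcomm a a.2 b b.2)⟩⟩
  have hnc : ¬ Ab ≤ centralizer (N : Set (M ⧸ Q)) := by
    intro h
    have h1 := h.trans (H11.centralizer_pPrimeCore_le (H76.isPSolvable_quotient Q hM) (Solv.pCore_quotient_pCore p))
    apply hnot
    intro a ha
    rw [← hker]
    exact hNA _ (h1 ⟨a, ha, rfl⟩) Ab hAbp ⟨a, ha, rfl⟩
  have hAN : Ab ≤ normalizer (N : Set (M ⧸ Q)) := by rw [normalizer_eq_top N]; exact le_top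
  have hcop : (Nat.card Ab).Coprime (Nat.card N) := by
    obtain ⟨k, hk⟩ := IsPGroup.iff_card.1 hAbp
    rw [hk]
    exact Nat.Coprime.pow_left k hNo.symm
  have hgen := Cop.le_genT hcA _ N rfl hAN hcop
  obtain ⟨B, hB, x0, hx0, hx0A⟩ : ∃ B ∈ Cop.cycQuot Ab, ∃ x0 ∈ N ⊓ centralizer (B : Set (M ⧸ Q)),
      x0 ∉ centralizer (Ab : Set (M ⧸ Q)) := by
    by_contra hcon
    push Not at hcon
    apply hnc
    rw [le_centralizer_iff]
    refine hgen.trans ?_
    unfold Cop.genT
    exact iSup₂_le fun B hB x hx => hcon B hB x hx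
  obtain ⟨hBA, a0, ha0, hBa⟩ := hB
  set C := N ⊓ centralizer (B : Set (M ⧸ Q)) with hC
  have hAC : Ab ≤ normalizer (C : Set (M ⧸ Q)) := by
    intro a ha
    refine H33.norm_inf (hAN ha) (H33.norm_le_norm_cent B ?_)
    apply H33.mem_norm_of_le
    rw [H33.cj_le_iff]
    intro b hb
    rw [hAcomm a ha b (hBA hb), mul_inv_cancel_right]; exact hb
  -- the index of `B`
  have hBi : B.relIndex Ab = p := by
    have hBn : zpowers a0 ≤ normalizer (B : Set (M ⧸ Q)) := by
      rw [zpowers_le]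
      apply H33.mem_norm_of_le
      rw [H33.cj_le_iff]
      intro b hb
      rw [hAcomm a0 ha0 b (hBA hb), mul_inv_cancel_right]; exact hb
    have h1 : B.relIndex Ab = B.relIndex (zpowers a0) := by
      rw [← hBa, sup_comm]
      exact Cop.relIndex_sup_eq hBn
    have h2 : B.relIndex Ab ∣ p := by
      rw [h1]
      refine (Subgroup.relIndex_dvd_card _ _).trans ?_
      rw [Nat.card_zpowers]
      exact orderOf_dvd_of_pow_eq_one (hApow a0 ha0)
    rcases (Nat.dvd_prime hpp).1 h2 with h | h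
    · exfalso
      apply hx0A
      have h3 := Subgroup.relIndex_eq_one.1 h
      exact centralizer_le h3 hx0.2
    · exact h
  have hBmax : ∀ a ∈ Ab, a ∉ B → ∀ x ∈ C, a * x = x * a → x ∈ centralizer (Ab : Set (M ⧸ Q)) := by
    intro a ha haB x hx hax
    have h1 : B ≤ Ab ⊓ centralizer {x} := by
      intro b hb
      refine ⟨hBA hb, ?_⟩
      change b ∈ centralizer {x}
      rw [mem_centralizer_singleton_iff]
      exact mem_centralizer_iff.1 hx.2 b hb
    have h2 := Subgroup.relIndex_mul_relIndex _ _ _ h1 inf_le_left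
    rw [hBi] at h2
    have h3 : (Ab ⊓ centralizer {x}).relIndex Ab = 1 := by
      rcases (Nat.dvd_prime hpp).1 (Dvd.intro_left _ h2) with h | h
      · exact h
      · exfalso
        rw [h] at h2
        have h4 : B.relIndex (Ab ⊓ centralizer {x}) = 1 := Nat.eq_of_mul_eq_mul_right hpp.pos (by rw [h2, one_mul])
        apply haB
        apply Subgroup.relIndex_eq_one.1 h4
        refine ⟨ha, ?_⟩
        change a ∈ centralizer {x}
        rw [mem_centralizer_singleton_iff]; exact hax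
    have h4 := Subgroup.relIndex_eq_one.1 h3
    rw [mem_centralizer_iff]
    intro b hb
    exact mem_centralizer_singleton_iff.1 (h4 hb).2
  -- minimal choice of `x`
  obtain ⟨x, ⟨hxC, hxA⟩, hmin⟩ := Set.exists_min_image {x : M | π x ∈ C ∧ π x ∉ centralizer (Ab : Set (M ⧸ Q))}
    (fun x : M => Nat.card (A ⊔ cj x A : Subgroup M)) (Set.toFinite _) (by
      obtain ⟨y, hy⟩ := QuotientGroup.mk'_surjective Q x0
      exact ⟨y, by rw [Set.mem_ofPred_eq, hy]; exact ⟨hx0, hx0A⟩⟩)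
  have hLb : ∀ x : M, π x ∈ C → (A ⊔ cj x A).map π ≤ C ⊔ Ab := by
    intro x hx
    rw [Subgroup.map_sup, sup_le_iff]
    refine ⟨le_sup_right, ?_⟩
    rintro _ ⟨z, hz, rfl⟩
    obtain ⟨a, ha, rfl⟩ : ∃ a ∈ A, x * a * x⁻¹ = z := ⟨x⁻¹ * z * x, mem_cj.1 hz, by group⟩
    have h1 : π a * (π x)⁻¹ * (π a)⁻¹ ∈ C := (mem_normalizer_iff.1 (hAC ⟨a, ha, rfl⟩) _).1 (C.inv_mem hx)
    have h2 : π (x * a * x⁻¹) = π x * (π a * (π x)⁻¹ * (π a)⁻¹) * π a := by
      rw [map_mul, map_mul, map_inv]; group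
    rw [h2]
    exact mul_mem (mul_mem (le_sup_left (b := Ab) hx) (le_sup_left (b := Ab) h1)) (le_sup_right (a := C) ⟨a, ha, rfl⟩)
  -- replacing `x` by an element of `O^p(L)`
  obtain ⟨y, hyC, hyA, hyL⟩ : ∃ y : M, π y ∈ C ∧ π y ∉ centralizer (Ab : Set (M ⧸ Q)) ∧ y ∈ opr p (A ⊔ cj y A) := by
    set L := A ⊔ cj x A with hL
    set Lb := L.map π with hLbd
    have hAL : Ab ≤ Lb := Subgroup.map_mono le_sup_left
    have hA'L : cj (π x) Ab ≤ Lb := by
      rw [hAb, ← map_cj']
      exact Subgroup.map_mono le_sup_right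
    have hsyl : IsSyl p Ab Lb := by
      refine ⟨hAL, hAbp, fun hd => ?_⟩
      have h1 : Ab.relIndex Lb ∣ Ab.relIndex (C ⊔ Ab) := by
        rw [← Subgroup.relIndex_mul_relIndex Ab Lb (C ⊔ Ab) hAL (hLb x hxC)]
        exact Dvd.intro _ rfl
      have h2 : Nat.card Ab * Ab.relIndex (C ⊔ Ab) = Nat.card (C ⊔ Ab : Subgroup (M ⧸ Q)) :=
        card_mul_relIndex' (le_sup_right : Ab ≤ C ⊔ Ab)
      have h3 : Nat.card C * C.relIndex (C ⊔ Ab) = Nat.card (C ⊔ Ab : Subgroup (M ⧸ Q)) :=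
        card_mul_relIndex' (le_sup_left : C ≤ C ⊔ Ab)
      have h4 : C.relIndex (C ⊔ Ab) = C.relIndex Ab := by
        rw [sup_comm]; exact Cop.relIndex_sup_eq hAC
      have h5 : C.relIndex Ab ∣ Nat.card Ab := Subgroup.relIndex_dvd_card _ _
      have h6 : Ab.relIndex (C ⊔ Ab) ∣ Nat.card C := by
        obtain ⟨t, ht⟩ := h5
        rw [h4] at h3
        rw [← h3, ht] at h2
        have hpos : 0 < C.relIndex Ab := Nat.pos_of_ne_zero (by
          intro h0
          rw [h0, zero_mul] at ht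
          exact Nat.card_pos.ne' ht)
        refine ⟨t, ?_⟩
        apply Nat.eq_of_mul_eq_mul_right hpos
        rw [← h2]; ring
      have h7 : p ∣ Nat.card N := (hd.trans h1).trans (h6.trans (Subgroup.card_dvd_of_le inf_le_left))
      have h8 : p ∣ Nat.gcd (Nat.card N) p := Nat.dvd_gcd h7 dvd_rfl
      rw [Nat.Coprime] at hNo
      rw [hNo] at h8
      exact hpp.one_lt.ne' (Nat.dvd_one.1 h8)
    have hsyl2 : IsSyl p (cj (π x) Ab) Lb := hsyl.of_card_le hA'L (H33.isPGroup_cj hAbp) (by rw [H33.card_cj])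
    obtain ⟨l, hl, hle⟩ := hsyl2.conj_eq hsyl
    obtain ⟨d, hd, a, ha, rfl⟩ := (H33.mem_sup_left_norm hAC).1 (hLb x hxC hl)
    have hda : cj d Ab = cj (π x) Ab := by
      rw [← hle, cj_mul, mem_norm_iff.1 (le_normalizer ha)]
    have hdL : d ∈ Lb := by
      have : d = (d * a) * a⁻¹ := by group
      rw [this]; exact mul_mem hl (inv_mem (hAL ha))
    obtain ⟨y, hyL, hyo, hyd⟩ := exists_lift_coprime (p := p) π hdL (hNe d hd.1)
    have hyC : π y ∈ C := by rw [hyd]; exact hd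
    have hyA : π y ∉ centralizer (Ab : Set (M ⧸ Q)) := by
      rw [hyd]
      intro hdc
      apply hxA
      have h1 : cj d Ab = Ab := mem_norm_iff.1 (H33.cent_le_norm' Ab hdc)
      rw [h1] at hda
      have h2 : π x ∈ normalizer (Ab : Set (M ⧸ Q)) := mem_norm_iff.2 hda.symm
      rw [mem_centralizer_iff]
      intro b hb
      have h3 : b * π x * b⁻¹ * (π x)⁻¹ = 1 := by
        apply hNA _ _ Ab hAbp
        · have h4 : b * π x * b⁻¹ * (π x)⁻¹ = b * (π x * b⁻¹ * (π x)⁻¹) := by group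
          rw [h4]
          exact mul_mem hb ((mem_normalizer_iff.1 h2 _).1 (inv_mem hb))
        · exact N.mul_mem (hNn.conj_mem _ hxC.1 b) (N.inv_mem hxC.1)
      rw [mul_inv_eq_one, mul_inv_eq_iff_eq_mul] at h3
      exact h3
    have hle2 : A ⊔ cj y A ≤ L := by
      refine sup_le le_sup_left ?_
      rintro _ hz
      rw [mem_cj] at hz
      have h1 := L.mul_mem (L.mul_mem hyL (le_sup_left (b := cj x A) hz)) (L.inv_mem hyL)
      have h2 : ∀ z : M, y * (y⁻¹ * z * y) * y⁻¹ = z := fun z => by group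
      rwa [h2] at h1
    have hc : Nat.card L ≤ Nat.card (A ⊔ cj y A : Subgroup M) := hmin y ⟨hyC, hyA⟩
    refine ⟨y, hyC, hyA, ?_⟩
    rw [Subgroup.eq_of_le_of_card_ge hle2 hc]
    exact mem_opr hyL hyo
  clear hmin hxC hxA x
  set L := A ⊔ cj y A with hL
  have hAL : A ≤ L := le_sup_left
  have hA'L : cj y A ≤ L := le_sup_right
  have hyL' : y ∈ L := opr_le _ hyL
  refine ⟨y, hyC.1, hyL, ?_, ?_, ?_, ?_⟩
  · -- `O^p(L) ≤ O_{p,p'}(M)`
    apply opr_le_of
    intro g hg ho
    have h1 : π g ∈ C ⊔ Ab := hLb y hyC ⟨g, hg, rfl⟩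
    exact (mem_of_coprime hAbp hAC h1 (Nat.Coprime.of_dvd_left (orderOf_map_dvd π g) ho)).1
  · -- `[O^p(L), A] = O^p(L)`
    have hAn : A ≤ normalizer (opr p L : Set M) := hAL.trans (norm_opr L)
    have hR1 : ⁅opr p L, A⁆ ≤ opr p L := by
      rw [Subgroup.commutator_le]
      intro g hg a ha
      rw [commutatorElement_def]
      have : g * a * g⁻¹ * a⁻¹ = g * (a * g⁻¹ * a⁻¹) := by group
      rw [this]
      exact mul_mem hg ((mem_normalizer_iff.1 (hAn ha) _).1 (inv_mem hg))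
    apply le_antisymm hR1
    apply opr_le_of
    intro g hg ho
    have hARn : A ≤ normalizer ((⁅opr p L, A⁆ : Subgroup M) : Set M) := by
      intro a ha
      rw [mem_norm_iff, H33.cj_comm, mem_norm_iff.1 (hAn ha), mem_norm_iff.1 (le_normalizer ha)]
    apply mem_of_coprime hA hARn _ ho
    have hLR : L ≤ ⁅opr p L, A⁆ ⊔ A := by
      refine sup_le le_sup_right ?_
      intro z hz
      obtain ⟨a, ha, rfl⟩ : ∃ a ∈ A, y * a * y⁻¹ = z := ⟨y⁻¹ * z * y, mem_cj.1 hz, by group⟩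
      have h1 : y * a * y⁻¹ = ⁅y, a⁆ * a := by rw [commutatorElement_def]; group
      rw [h1]
      exact mul_mem (le_sup_left (b := A) (Subgroup.commutator_mem_commutator hyL ha))
        (le_sup_right (a := ⁅opr p L, A⁆) ha)
    exact hLR hg
  all_goals
    have hLB : ∀ l ∈ L, ∀ b ∈ B, π l * b = b * π l := by
      have h1 : L.map π ≤ centralizer (B : Set (M ⧸ Q)) := by
        refine (hLb y hyC).trans (sup_le inf_le_right ?_)
        intro a ha
        rw [mem_centralizer_iff]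
        intro b hb
        exact hAcomm b (hBA hb) a ha
      intro l hl b hb
      exact (mem_centralizer_iff.1 (h1 ⟨l, hl, rfl⟩) b hb).symm
    have hopA : A ⊓ op p L = A ⊓ B.comap π := by
      apply le_antisymm
      · rintro a ⟨ha, hao⟩
        refine ⟨ha, ?_⟩
        change π a ∈ B
        by_contra haB
        apply hyA
        apply hBmax (π a) ⟨a, ha, rfl⟩ haB (π y) hyC
        have h1 : a * y * a⁻¹ * y⁻¹ ∈ op p L := by
          have h2 : a * y * a⁻¹ * y⁻¹ = a * (y * a⁻¹ * y⁻¹) := by group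
          rw [h2]
          exact mul_mem hao ((mem_normalizer_iff.1 (norm_op L hyL') _).1 (inv_mem hao))
        have h2 : π (a * y * a⁻¹ * y⁻¹) = 1 := by
          apply hNA _ _ ((op p L).map π) ((isPGroup_op L).map π) ⟨_, h1, rfl⟩
          rw [map_mul, map_mul, map_mul, map_inv, map_inv]
          exact N.mul_mem (hNn.conj_mem _ hyC.1 _) (N.inv_mem hyC.1)
        rw [map_mul, map_mul, map_mul, map_inv, map_inv, mul_inv_eq_one, mul_inv_eq_iff_eq_mul] at h2
        exact h2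
      · have h1 : L ⊓ B.comap π ≤ op p L := by
          apply le_op inf_le_left
          · have h2 : IsPGroup p (B.comap π) := by
              have h3 := (hAbp.to_le hBA).comap_of_ker_isPGroup π (by
                have : π.ker = Q := QuotientGroup.ker_mk' Q
                rw [this]; exact hQp)
              exact h3
            exact h2.to_le inf_le_right
          · intro l hl
            apply H33.norm_inf (le_normalizer hl)
            apply H33.mem_norm_of_le
            rw [H33.cj_le_iff]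
            intro b hb
            change π (l * b * l⁻¹) ∈ B
            rw [map_mul, map_mul, map_inv, hLB l hl (π b) hb, mul_inv_cancel_right]
            exact hb
        rintro a ⟨ha, hab⟩
        exact ⟨ha, h1 ⟨hAL ha, hab⟩⟩
  · change (A ⊓ op p L).relIndex A = p
    rw [hopA, Subgroup.inf_relIndex_left, Subgroup.relIndex_comap]
    exact hBi
  · change ⁅A ⊓ op p L, L⁆ ≤ Q
    rw [hopA, Subgroup.commutator_le]
    rintro a ⟨ha, hab⟩ l hl
    rw [← hker, commutatorElement_def, map_mul, map_mul, map_mul, map_inv, map_inv, mul_inv_eq_one,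
      mul_inv_eq_iff_eq_mul]
    exact (hLB l hl (π a) hab).symm

end Cfsg.Agent.H62
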