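import Cfsg.Agent.H33.Frattini
import Cfsg.Agent.Solv.Core
import Cfsg.Prelude.Def_SylowChains
import Cfsg.Prelude.Def_LocalEven

set_option autoImplicit false
set_option linter.style.haveILetI false
set_option linter.unusedSectionVars false
set_option linter.unusedVariables false

/-!
`p`-local subgroups and primitive pairs.
-/

namespace Cfsg.Agent.H62

open Subgroup Cfsg
open H33 (cj mem_cj conj_mem_cj cj_mul cj_mono IsSyl mem_norm_iff)

section

variable {G : Type*} [Group G] {p : ℕ}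

/-- `O_p(H)` inside the ambient group -/
def op (p : ℕ) (H : Subgroup G) : Subgroup G := (pCore p H).map H.subtype

theorem op_le (H : Subgroup G) : op p H ≤ H := map_subtype_le _

theorem isPGroup_op [Finite G] [Fact p.Prime] (H : Subgroup G) : IsPGroup p (op p H) :=
  (Solv.pCore_isPGroup p).map _

theorem le_op [Finite G] [Fact p.Prime] {H P : Subgroup G} (hPH : P ≤ H) (hP : IsPGroup p P)
    (hn : H ≤ normalizer (P : Set G)) : P ≤ op p H := by
  have hN : (P.subgroupOf H).Normal := by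
    constructor
    intro x hx y
    exact (mem_normalizer_iff.1 (hn y.2) (x : G)).1 hx
  have h1 : P.subgroupOf H ≤ pCore p H :=
    Solv.le_pCore hN (hP.comap_of_injective H.subtype H.subtype_injective)
  intro x hx
  exact ⟨⟨x, hPH hx⟩, h1 hx, rfl⟩

theorem norm_op (H : Subgroup G) : H ≤ normalizer (op p H : Set G) := by
  intro g hg
  have hn : (pCore p H).Normal := inferInstance
  rw [mem_normalizer_iff]
  intro y
  constructor
  · rintro ⟨z, hz, rfl⟩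
    exact ⟨(⟨g, hg⟩ : H) * z * (⟨g, hg⟩ : H)⁻¹, hn.conj_mem z hz _, rfl⟩
  · rintro ⟨z, hz, hzy⟩
    refine ⟨(⟨g, hg⟩ : H)⁻¹ * z * (⟨g, hg⟩ : H), ?_, ?_⟩
    · have := hn.conj_mem z hz (⟨g, hg⟩ : H)⁻¹
      simpa using this
    · change g⁻¹ * (z : G) * g = y
      have hzy' : (z : G) = g * y * g⁻¹ := hzy
      rw [hzy']; group

variable [Finite G] [Fact p.Prime]

theorem cj_op_le (g : G) (H : Subgroup G) : cj g (op p H) ≤ op p (cj g H) := by
  apply le_op (cj_mono (op_le H)) (H33.isPGroup_cj (isPGroup_op H))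
  rw [← H33.cj_normalizer]
  exact cj_mono (norm_op H)

theorem norm_le_norm_op (H : Subgroup G) : normalizer (H : Set G) ≤ normalizer (op p H : Set G) := by
  intro g hg
  apply H33.mem_norm_of_le
  have := cj_op_le (p := p) g H
  rwa [mem_norm_iff.1 hg] at this

theorem op_le_syl {S H : Subgroup G} (h : IsSyl p S H) : op p H ≤ S := by
  obtain ⟨x, hx, hxT⟩ := h.conj_le (op_le H) (isPGroup_op H)
  rwa [mem_norm_iff.1 (norm_op H hx)] at hxT

theorem self_le_op_norm {T : Subgroup G} (hT : IsPGroup p T) : T ≤ op p (normalizer (T : Set G)) :=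
  le_op le_normalizer hT le_rfl

theorem isPLocal_of {T : Subgroup G} (hT : IsPGroup p T) (h : T ≠ ⊥) : IsPLocal p (normalizer (T : Set G)) :=
  ⟨T, hT, h, rfl⟩

theorem exists_maxp {N : Subgroup G} (hN : IsPLocal p N) : ∃ M, IsMaximalPLocal p M ∧ N ≤ M := by
  have hfin : {M : Subgroup G | IsPLocal p M ∧ N ≤ M}.Finite := Set.toFinite _
  obtain ⟨M, ⟨hM, hNM⟩, hmax⟩ := Set.exists_max_image _ (fun X : Subgroup G => Nat.card X) hfin ⟨N, hN, le_rfl⟩
  exact ⟨M, ⟨hM, fun N' hN' h => (Subgroup.eq_of_le_of_card_ge h (hmax N' ⟨hN', hNM.trans h⟩)).symm⟩, hNM⟩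

theorem op_ne_bot {M : Subgroup G} (hM : IsPLocal p M) : op p M ≠ ⊥ := by
  obtain ⟨T, hT, hT1, rfl⟩ := hM
  intro h
  exact hT1 (eq_bot_iff.2 (h ▸ self_le_op_norm hT))

theorem norm_max {M : Subgroup G} (hM : IsMaximalPLocal p M) : normalizer (M : Set G) ≤ M := by
  have h1 := hM.2 _ (isPLocal_of (isPGroup_op M) (op_ne_bot hM.1)) (norm_op M)
  exact (norm_le_norm_op (p := p) M).trans h1.le

theorem IsPLocal_cj {M : Subgroup G} (hM : IsPLocal p M) (g : G) : IsPLocal p (cj g M) := by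
  obtain ⟨T, hT, hT1, rfl⟩ := hM
  exact ⟨cj g T, H33.isPGroup_cj hT, H33.cj_ne_bot.2 hT1, H33.cj_normalizer g T⟩

theorem IsMaximalPLocal_cj {M : Subgroup G} (hM : IsMaximalPLocal p M) (g : G) : IsMaximalPLocal p (cj g M) := by
  refine ⟨IsPLocal_cj hM.1 g, fun N hN h => ?_⟩
  have h1 := cj_mono (g := g⁻¹) h
  rw [← cj_mul, inv_mul_cancel, H33.cj_one] at h1
  have h2 := hM.2 _ (IsPLocal_cj hN g⁻¹) h1
  rw [← h2, ← cj_mul, mul_inv_cancel, H33.cj_one]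

variable (hloc : IsOfLocalCharacteristic p G)

include hloc

theorem cent_op_le {M : Subgroup G} (hM : IsPLocal p M) : M ⊓ centralizer (op p M : Set G) ≤ op p M := by
  obtain ⟨T, hT, hT1, rfl⟩ := hM
  rintro x ⟨hx, hxc⟩
  refine ⟨⟨x, hx⟩, hloc.2 T hT hT1 (mem_centralizer_iff.2 ?_), rfl⟩
  intro z hz
  exact Subtype.ext (mem_centralizer_iff.1 hxc (z : G) ⟨z, hz, rfl⟩)

/-- normalizers of nontrivial normal subgroups of a maximal `p`-local subgroup -/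
theorem norm_le_max {M A : Subgroup G} (hM : IsMaximalPLocal p M) (hA : A ≠ ⊥) (hAM : A ≤ M)
    (hMA : M ≤ normalizer (A : Set G)) : normalizer (A : Set G) ≤ M := by
  have hB : A ⊓ op p M ≠ ⊥ := by
    intro hB
    have h1 : A ≤ op p M := by
      intro a ha
      apply cent_op_le hloc hM.1
      refine ⟨hAM ha, mem_centralizer_iff.2 ?_⟩
      intro q hq
      have h2 : a * q * a⁻¹ * q⁻¹ ∈ A ⊓ op p M := by
        refine ⟨?_, ?_⟩
        · have : a * q * a⁻¹ * q⁻¹ = a * (q * a⁻¹ * q⁻¹) := by group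
          rw [this]
          exact A.mul_mem ha ((mem_normalizer_iff.1 (hMA (op_le M hq)) _).1 (A.inv_mem ha))
        · exact (op p M).mul_mem ((mem_normalizer_iff.1 (norm_op M (hAM ha)) _).1 hq) ((op p M).inv_mem hq)
      rw [hB, mem_bot, mul_inv_eq_one, mul_inv_eq_iff_eq_mul] at h2
      exact h2.symm
    rw [inf_eq_left.2 h1] at hB
    exact hA hB
  have h1 : A ⊓ op p M ≤ op p A := by
    apply le_op inf_le_left ((isPGroup_op M).to_le inf_le_right)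
    intro a ha
    exact H33.norm_inf (le_normalizer ha) (norm_op M (hAM ha))
  have h2 : op p A ≠ ⊥ := fun h => hB (eq_bot_iff.2 (h ▸ h1))
  have h3 := hM.2 _ (isPLocal_of (isPGroup_op A) h2) (hMA.trans (norm_le_norm_op A))
  exact (norm_le_norm_op (p := p) A).trans h3.le

/-- the conditions on a primitive pair of characteristic `p` -/
theorem prim_pair {M₁ M₂ : Subgroup G} (h1 : IsMaximalPLocal p M₁) (h2 : IsMaximalPLocal p M₂)
    (hO1 : op p M₁ ≤ M₂) (hO2 : op p M₂ ≤ M₁) :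
    (∀ A : Subgroup G, A ≠ ⊥ → A ≤ M₁ ⊓ M₂ →
      (M₁ ≤ Subgroup.normalizer (A : Set G) → M₂ ⊓ Subgroup.normalizer (A : Set G) = M₁ ⊓ M₂) ∧
      (M₂ ≤ Subgroup.normalizer (A : Set G) → M₁ ⊓ Subgroup.normalizer (A : Set G) = M₁ ⊓ M₂)) ∧
    Subgroup.centralizer (Cfsg.pCore p ↥M₁ : Set ↥M₁) ≤ Cfsg.pCore p ↥M₁ ∧
    Subgroup.centralizer (Cfsg.pCore p ↥M₂ : Set ↥M₂) ≤ Cfsg.pCore p ↥M₂ ∧
    (Cfsg.pCore p ↥M₁).map M₁.subtype ⊔ (Cfsg.pCore p ↥M₂).map M₂.subtype ≤ M₁ ⊓ M₂ := by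
  have hc : ∀ {M : Subgroup G}, IsMaximalPLocal p M →
      Subgroup.centralizer (Cfsg.pCore p ↥M : Set ↥M) ≤ Cfsg.pCore p ↥M := by
    rintro _ ⟨⟨T, hT, hT1, rfl⟩, -⟩
    exact hloc.2 T hT hT1
  refine ⟨fun A hA hA12 => ⟨fun hM => ?_, fun hM => ?_⟩, hc h1, hc h2, ?_⟩
  · have := norm_le_max hloc h1 hA (hA12.trans inf_le_left) hM
    apply le_antisymm
    · exact le_inf (inf_le_right.trans this) inf_le_left
    · exact le_inf inf_le_right (inf_le_left.trans hM)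
  · have := norm_le_max hloc h2 hA (hA12.trans inf_le_right) hM
    apply le_antisymm
    · exact le_inf inf_le_left (inf_le_right.trans this)
    · exact le_inf inf_le_left (inf_le_right.trans hM)
  · exact sup_le (le_inf (op_le M₁) hO1) (le_inf hO2 (op_le M₂))

theorem exists_pair {M₁ M₂ : Subgroup G} (h1 : IsMaximalPLocal p M₁) (h2 : IsMaximalPLocal p M₂)
    (hne : M₁ ≠ M₂) (hdvd : p ∣ Nat.card (M₁ ⊓ M₂ : Subgroup G)) :
    ∃ M₁ M₂ : Subgroup G, M₁ ≠ M₂ ∧ IsMaximalPLocal p M₁ ∧ IsMaximalPLocal p M₂ ∧ op p M₁ ≤ M₂ ∧ op p M₂ ≤ M₁ := by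
  have hp := Fact.out (p := p.Prime)
  obtain ⟨S0, hS0⟩ := IsSyl.exists (p := p) (M₁ ⊓ M₂)
  have hfin : {S : Subgroup G | ∃ M₁ M₂ : Subgroup G, IsMaximalPLocal p M₁ ∧ IsMaximalPLocal p M₂ ∧ M₁ ≠ M₂ ∧
    IsSyl p S (M₁ ⊓ M₂)}.Finite := Set.toFinite _
  obtain ⟨S, ⟨M₁', M₂', h1', h2', hne', hS⟩, hmax⟩ := Set.exists_max_image _ (fun X : Subgroup G => Nat.card X) hfin
    ⟨S0, M₁, M₂, h1, h2, hne, hS0⟩
  have hmax' : ∀ (N₁ N₂ U : Subgroup G), IsMaximalPLocal p N₁ → IsMaximalPLocal p N₂ → U ≤ N₁ → U ≤ N₂ →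
      IsPGroup p U → Nat.card S < Nat.card U → N₁ = N₂ := by
    intro N₁ N₂ U k1 k2 hU1 hU2 hU hc
    by_contra hne2
    obtain ⟨U', hUU', hU'⟩ := IsSyl.exists_of_le (le_inf hU1 hU2) hU
    have : Nat.card U' ≤ Nat.card S := hmax U' ⟨N₁, N₂, k1, k2, hne2, hU'⟩
    have := Subgroup.card_le_of_le hUU'
    omega
  have hS1 : S ≠ ⊥ := by
    have hS01 : S0 ≠ ⊥ := by
      intro h
      apply hS0.2.2
      rw [h, Subgroup.relIndex_bot_left]
      exact hdvd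
    have h3 : Nat.card S0 ≤ Nat.card S := hmax S0 ⟨M₁, M₂, h1, h2, hne, hS0⟩
    intro h
    rw [h, Subgroup.card_bot, Subgroup.card_le_one_iff_eq_bot] at h3
    exact hS01 h3
  obtain ⟨M₃, h3, hM3⟩ := exists_maxp (isPLocal_of hS.2.1 hS1)
  -- if `S` is not Sylow in `M` then `M = M₃`
  have key : ∀ M : Subgroup G, IsMaximalPLocal p M → S ≤ M → ¬ IsSyl p S M →
      M = M₃ ∧ ∃ g ∈ M, g ∈ normalizer (S : Set G) ∧ g ∉ S ∧ ∃ S' : Subgroup G, S ≤ S' ∧ g ∈ S' ∧ IsPGroup p S' := by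
    intro M hM hSM hnS
    obtain ⟨S1, hSS1, hS1'⟩ := IsSyl.exists_of_le hSM hS.2.1
    have hlt : S < S1 := lt_of_le_of_ne hSS1 (fun h => hnS (by rw [h]; exact hS1'))
    have h4 := H33.lt_inf_normalizer hS1'.2.1 hlt
    have h5 : Nat.card S < Nat.card (S1 ⊓ normalizer (S : Set G) : Subgroup G) := by
      refine lt_of_le_of_ne (Subgroup.card_le_of_le h4.le) ?_
      intro h6
      exact h4.ne (Subgroup.eq_of_le_of_card_ge h4.le h6.ge)
    refine ⟨hmax' M M₃ (S1 ⊓ normalizer (S : Set G)) hM h3 (inf_le_left.trans hS1'.1) (inf_le_right.trans hM3)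
      (hS1'.2.1.to_le inf_le_left) h5, ?_⟩
    obtain ⟨g, hg, hgS⟩ := SetLike.exists_of_lt h4
    exact ⟨g, hS1'.1 hg.1, hg.2, hgS, S1, hSS1, hg.1, hS1'.2.1⟩
  -- main step
  have step : ∀ N₁ N₂ : Subgroup G, IsMaximalPLocal p N₁ → IsMaximalPLocal p N₂ → N₁ ≠ N₂ → IsSyl p S (N₁ ⊓ N₂) →
      ¬ IsSyl p S N₁ → ∃ M₁ M₂ : Subgroup G, M₁ ≠ M₂ ∧ IsMaximalPLocal p M₁ ∧ IsMaximalPLocal p M₂ ∧
        op p M₁ ≤ M₂ ∧ op p M₂ ≤ M₁ := by
    intro N₁ N₂ k1 k2 kne kS kn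
    obtain ⟨e1, g, hg, hgn, hgS, S', hSS', hgS', hS'p⟩ := key N₁ k1 (kS.1.trans inf_le_left) kn
    have hS2 : IsSyl p S N₂ := by
      by_contra h
      exact kne (e1.trans (key N₂ k2 (kS.1.trans inf_le_right) h).1.symm)
    have hg2 : g ∉ N₂ := by
      intro hg2
      have h4 : S' ⊓ (N₁ ⊓ N₂) = S := kS.eq_inf hS'p hSS'
      exact hgS (h4 ▸ ⟨hgS', hg, hg2⟩)
    have hcS : cj g S = S := mem_norm_iff.1 hgn
    have hS3 : IsSyl p S (cj g N₂) := by
      have := hS2.conj g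
      rwa [hcS] at this
    refine ⟨N₂, cj g N₂, ?_, k2, IsMaximalPLocal_cj k2 g, (op_le_syl hS2).trans hS3.1, (op_le_syl hS3).trans hS2.1⟩
    intro h
    exact hg2 (norm_max k2 (mem_norm_iff.2 h.symm))
  by_cases hs1 : IsSyl p S M₁'
  · by_cases hs2 : IsSyl p S M₂'
    · exact ⟨M₁', M₂', hne', h1', h2', (op_le_syl hs1).trans hs2.1, (op_le_syl hs2).trans hs1.1⟩
    · exact step M₂' M₁' h2' h1' hne'.symm (by rw [inf_comm]; exact hS) hs2
  · exact step M₁' M₂' h1' h2' hne' hS hs1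

end

end Cfsg.Agent.H62
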