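import Cfsg.Agent.H62.PLoc
import Cfsg.Agent.FStar.Layer
import Cfsg.Agent.BG.FitNilp

set_option autoImplicit false
set_option linter.style.haveILetI false
set_option linter.unusedSectionVars false
set_option linter.unusedVariables false

/-!
Bender's theorem on primitive pairs.
-/

namespace Cfsg.Agent.H62

open Subgroup Cfsg
open H33 (cj mem_cj conj_mem_cj cj_mul cj_mono IsSyl mem_norm_iff)

section

variable {G : Type*} [Group G]

/-- `K` is a component of the subgroup `M` -/
def CompOf (K M : Subgroup G) : Prop := K ≤ M ∧ IsComponent (K.subgroupOf M)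

/-- `E(M)` in the ambient group -/
def EE (M : Subgroup G) : Subgroup G := (layer M).map M.subtype

theorem EE_eq (M : Subgroup G) : EE M = sSup {K | CompOf K M} := by
  unfold EE layer
  apply le_antisymm
  · rw [sSup_eq_iSup, Subgroup.map_iSup]
    apply iSup_le
    intro K
    rw [Subgroup.map_iSup]
    apply iSup_le
    intro hK
    apply le_sSup
    refine ⟨map_subtype_le _, ?_⟩
    have : (K.map M.subtype).subgroupOf M = K := comap_map_eq_self_of_injective M.subtype_injective K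
    rw [this]; exact hK
  · apply sSup_le
    rintro K ⟨hK, hKc⟩
    have h1 : K.subgroupOf M ≤ sSup {K | IsComponent K} := le_sSup hKc
    have h2 := Subgroup.map_mono (f := M.subtype) h1
    rwa [Subgroup.subgroupOf_map_subtype, inf_eq_left.2 hK] at h2

theorem norm_map_subtype (M : Subgroup G) (N : Subgroup M) [hN : N.Normal] : M ≤ normalizer (N.map M.subtype : Set G) := by
  intro g hg
  rw [mem_normalizer_iff]
  intro y
  constructor
  · rintro ⟨z, hz, rfl⟩
    exact ⟨(⟨g, hg⟩ : M) * z * (⟨g, hg⟩ : M)⁻¹, hN.conj_mem z hz _, rfl⟩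
  · rintro ⟨z, hz, hzy⟩
    refine ⟨(⟨g, hg⟩ : M)⁻¹ * z * (⟨g, hg⟩ : M), ?_, ?_⟩
    · have := hN.conj_mem z hz (⟨g, hg⟩ : M)⁻¹
      simpa using this
    · change g⁻¹ * (z : G) * g = y
      have hzy' : (z : G) = g * y * g⁻¹ := hzy
      rw [hzy']; group

variable [Finite G]

/-- components of `M` and of a subgroup containing `F*(M)` -/
theorem compOf_iff {M D : Subgroup G} (hDM : D ≤ M) (hF : (generalizedFittingSubgroup M).map M.subtype ≤ D)
    (K : Subgroup G) : CompOf K M ↔ CompOf K D := by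
  set F := generalizedFittingSubgroup M with hFdef
  have hFn : F.Normal := by rw [hFdef]; infer_instance
  have hFD : ∀ x : M, x ∈ F → (x : G) ∈ D := fun x hx => hF ⟨x, hx, rfl⟩
  constructor
  · rintro ⟨hKM, hK⟩
    have h1 : K.subgroupOf M ≤ F := (FStar.component_le_layer hK).trans FStar.layer_le_generalizedFitting
    have hKD : K ≤ D := fun x hx => hFD ⟨x, hKM hx⟩ (h1 (mem_subgroupOf.2 hx))
    refine ⟨hKD, ?_, ?_⟩
    · have := hK.1.comap (Subgroup.inclusion hDM)
      exact this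
    · rw [FStar.isQuasisimple_subgroupOf hKD]
      exact (FStar.isQuasisimple_subgroupOf hKM).1 hK.2
  · rintro ⟨hKD, hK⟩
    have hKM := hKD.trans hDM
    have hq : IsQuasisimple K := (FStar.isQuasisimple_subgroupOf hKD).1 hK.2
    refine ⟨hKM, ?_, (FStar.isQuasisimple_subgroupOf hKM).2 hq⟩
    set N : Subgroup D := F.comap (Subgroup.inclusion hDM) with hN
    have hNn : N.Normal := by rw [hN]; infer_instance
    have hKN : K.subgroupOf D ≤ N := by
      rcases FStar.component_le_or_commute hK (Subgroup.Normal.isSubnormal hNn) with h | h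
      · exact h
      · intro x hx
        have h1 : (⟨x, hKM (mem_subgroupOf.1 hx)⟩ : M) ∈ centralizer (F : Set M) := by
          rw [mem_centralizer_iff]
          intro y hy
          have h2 := FStar.commutator_eq_bot_iff_forall.1 h x hx ⟨y, hFD y hy⟩ (by
            change Subgroup.inclusion hDM ⟨y, hFD y hy⟩ ∈ F
            exact hy)
          have h3 := congrArg Subtype.val h2
          exact Subtype.ext h3.symm
        exact FStar.centralizer_generalizedFitting_le h1
    -- the map `F → D`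
    let j : F →* D :=
      { toFun := fun x => ⟨((x : M) : G), hFD x x.2⟩
        map_one' := rfl
        map_mul' := fun a b => rfl }
    have h1 : ((K.subgroupOf D).comap j).IsSubnormal := hK.1.comap j
    have h2 := h1.trans' (Subgroup.Normal.isSubnormal hFn)
    have h3 : ((K.subgroupOf D).comap j).map F.subtype = K.subgroupOf M := by
      ext x
      constructor
      · rintro ⟨y, hy, rfl⟩
        exact hy
      · intro hx
        have hx' : (x : G) ∈ K := hx
        have h4 : x ∈ F := hKN (show (⟨x, hKD hx'⟩ : D) ∈ K.subgroupOf D from hx')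
        exact ⟨⟨x, h4⟩, hx', rfl⟩
    rwa [h3] at h2

/-- `F(M)` in the ambient group -/
def FF (M : Subgroup G) : Subgroup G := (fittingSubgroup M).map M.subtype

theorem FF_le (M : Subgroup G) : FF M ≤ M := map_subtype_le _

theorem norm_FF (M : Subgroup G) : M ≤ normalizer (FF M : Set G) := norm_map_subtype M _

theorem op_le_FF {p : ℕ} [Fact p.Prime] (M : Subgroup G) : op p M ≤ FF M :=
  Subgroup.map_mono (Solv.pCore_le_fitting p)

theorem cent_FF {M : Subgroup G} {x : G} (h : ∀ p : ℕ, p.Prime → ∀ y ∈ op p M, y * x = x * y) :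
    x ∈ centralizer (FF M : Set G) := by
  have h1 : FF M ≤ centralizer {x} := by
    unfold FF
    rw [Solv.fitting_eq_iSup_pCore, Subgroup.map_iSup]
    apply iSup_le
    rintro ⟨p, hp⟩ y hy
    rw [mem_centralizer_singleton_iff]
    exact h p hp y hy
  rw [mem_centralizer_iff]
  intro y hy
  exact mem_centralizer_singleton_iff.1 (h1 hy)

theorem mem_op_of_FF {p : ℕ} [hp : Fact p.Prime] {M : Subgroup G} {x : G} (hx : x ∈ FF M) {k : ℕ} (hk : x ^ p ^ k = 1) :
    x ∈ op p M := by
  obtain ⟨y, hy, rfl⟩ := hx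
  exact ⟨y, BG.mem_pCore_of_mem_fitting hp.out hy (k := k) (Subtype.ext hk), rfl⟩

theorem cent_FF_le {M : Subgroup G} (hE : EE M = ⊥) : M ⊓ centralizer (FF M : Set G) ≤ FF M := by
  have hl : layer M = ⊥ := by
    unfold EE at hE
    rwa [Subgroup.map_eq_bot_iff_of_injective _ M.subtype_injective] at hE
  have hF : generalizedFittingSubgroup M = fittingSubgroup M := by
    unfold generalizedFittingSubgroup
    rw [hl, bot_sup_eq]
  rintro x ⟨hx, hxc⟩
  refine ⟨⟨x, hx⟩, ?_, rfl⟩
  rw [← hF]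
  apply FStar.centralizer_generalizedFitting_le
  rw [mem_centralizer_iff, hF]
  intro y hy
  exact Subtype.ext (mem_centralizer_iff.1 hxc (y : G) ⟨y, hy, rfl⟩)

theorem op_comm {p q : ℕ} [Fact p.Prime] [Fact q.Prime] (hpq : p ≠ q) {D : Subgroup G} {x y : G}
    (hx : x ∈ op p D) (hy : y ∈ op q D) : x * y = y * x := by
  have h1 : x * y * x⁻¹ * y⁻¹ ∈ op p D := by
    have : x * y * x⁻¹ * y⁻¹ = x * (y * x⁻¹ * y⁻¹) := by group
    rw [this]
    exact mul_mem hx ((mem_normalizer_iff.1 (norm_op D (op_le D hy)) _).1 (inv_mem hx))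
  have h2 : x * y * x⁻¹ * y⁻¹ ∈ op q D :=
    mul_mem ((mem_normalizer_iff.1 (norm_op D (op_le D hx)) _).1 hy) (inv_mem hy)
  have h3 : Disjoint (op p D) (op q D) := (isPGroup_op D).disjoint_of_ne p q hpq _ _ (isPGroup_op D)
  have h4 := Subgroup.disjoint_def.1 h3 h1 h2
  rw [mul_inv_eq_one, mul_inv_eq_iff_eq_mul] at h4
  exact h4

/-- the hypotheses of Bender's theorem -/
structure PP (M₁ M₂ : Subgroup G) : Prop where
  ne : M₁ ≠ M₂
  prim : ∀ A : Subgroup G, A ≠ ⊥ → A ≤ M₁ ⊓ M₂ →
    (M₁ ≤ normalizer (A : Set G) → M₂ ⊓ normalizer (A : Set G) = M₁ ⊓ M₂) ∧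
    (M₂ ≤ normalizer (A : Set G) → M₁ ⊓ normalizer (A : Set G) = M₁ ⊓ M₂)
  le₁ : (generalizedFittingSubgroup M₁).map M₁.subtype ≤ M₂
  le₂ : (generalizedFittingSubgroup M₂).map M₂.subtype ≤ M₁

theorem PP.symm {M₁ M₂ : Subgroup G} (h : PP M₁ M₂) : PP M₂ M₁ := by
  refine ⟨h.ne.symm, fun A hA hA' => ?_, h.le₂, h.le₁⟩
  rw [inf_comm] at hA'
  have := h.prim A hA hA'
  rw [inf_comm M₁ M₂] at this
  exact ⟨this.2, this.1⟩

/-- no nontrivial subgroup of the intersection is normal in both -/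
theorem PP.false_of {M₁ M₂ : Subgroup G} (h : PP M₁ M₂) {A : Subgroup G} (hA : A ≠ ⊥) (hA' : A ≤ M₁ ⊓ M₂)
    (h1 : M₁ ≤ normalizer (A : Set G)) (h2 : M₂ ≤ normalizer (A : Set G)) : False := by
  obtain ⟨k1, k2⟩ := h.prim A hA hA'
  have e1 := k1 h1
  have e2 := k2 h2
  rw [inf_eq_left.2 h2] at e1
  rw [inf_eq_left.2 h1] at e2
  exact h.ne (e2.trans e1.symm)

theorem PP.EE_bot {M₁ M₂ : Subgroup G} (h : PP M₁ M₂) : EE M₁ = ⊥ := by
  set D := M₁ ⊓ M₂ with hD
  have h1 : (generalizedFittingSubgroup M₁).map M₁.subtype ≤ D := le_inf (map_subtype_le _) h.le₁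
  have h2 : (generalizedFittingSubgroup M₂).map M₂.subtype ≤ D := le_inf h.le₂ (map_subtype_le _)
  have e1 : EE M₁ = EE D := by
    rw [EE_eq, EE_eq]
    congr 1
    ext K
    exact compOf_iff inf_le_left h1 K
  have e2 : EE M₂ = EE D := by
    rw [EE_eq, EE_eq]
    congr 1
    ext K
    exact compOf_iff inf_le_right h2 K
  by_contra hne
  apply h.false_of hne
  · rw [e1]; exact map_subtype_le _
  · exact norm_map_subtype M₁ _
  · rw [e1, ← e2]; exact norm_map_subtype M₂ _

theorem PP.op_le {M₁ M₂ : Subgroup G} (h : PP M₁ M₂) {p : ℕ} [Fact p.Prime] : op p M₁ ≤ M₂ :=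
  ((op_le_FF M₁).trans (Subgroup.map_mono (FStar.fitting_le_generalizedFitting (G := M₁)))).trans h.le₁

theorem PP.op_le_op {M₁ M₂ : Subgroup G} (h : PP M₁ M₂) {p : ℕ} [Fact p.Prime] : op p M₁ ≤ op p (M₁ ⊓ M₂) :=
  le_op (le_inf (H62.op_le M₁) h.op_le) (isPGroup_op M₁) (inf_le_left.trans (norm_op M₁))

/-- `O_p(M₁)` commutes with `O_q(M₂)` -/
theorem PP.comm {M₁ M₂ : Subgroup G} (h : PP M₁ M₂) {p q : ℕ} [Fact p.Prime] [Fact q.Prime] (hpq : p ≠ q)
    {x y : G} (hx : x ∈ op p M₁) (hy : y ∈ op q M₂) : x * y = y * x := by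
  have h2 := h.symm.op_le_op (p := q) hy
  rw [inf_comm] at h2
  exact op_comm hpq (h.op_le_op hx) h2

/-- the same primes divide the orders of the Fitting subgroups -/
theorem PP.op_bot {M₁ M₂ : Subgroup G} (h : PP M₁ M₂) {r : ℕ} [Fact r.Prime] (hr : op r M₂ = ⊥) : op r M₁ = ⊥ := by
  rw [eq_bot_iff]
  intro x hx
  have h1 : x ∈ centralizer (FF M₂ : Set G) := by
    apply cent_FF
    intro p hp y hy
    haveI : Fact p.Prime := ⟨hp⟩
    by_cases hpr : r = p
    · subst hpr
      rw [hr, mem_bot] at hy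
      rw [hy, one_mul, mul_one]
    · exact (h.comm hpr hx hy).symm
  have h2 := cent_FF_le h.symm.EE_bot ⟨h.op_le hx, h1⟩
  obtain ⟨k, hk⟩ := (isPGroup_op (p := r) M₁) ⟨x, hx⟩
  rw [← hr]
  exact mem_op_of_FF h2 (k := k) (congrArg Subtype.val hk)

/-- elements of order a power of `p` of `M` centralizing `O_q(M)` for all `q ≠ p`. -/
def Sp (p : ℕ) (M : Subgroup G) : Set G :=
  {x | x ∈ M ∧ (∃ k : ℕ, x ^ p ^ k = 1) ∧ ∀ q : ℕ, q.Prime → q ≠ p → ∀ y ∈ op q M, x * y = y * x}

theorem norm_Sp (p : ℕ) (M : Subgroup G) : M ≤ normalizer (closure (Sp p M) : Set G) := by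
  intro g hg
  apply H33.mem_norm_of_le
  rw [H33.cj_le_iff_le_cj, Subgroup.closure_le]
  intro x hx
  change x ∈ cj g⁻¹ (closure (Sp p M))
  rw [mem_cj]
  apply Subgroup.subset_closure
  obtain ⟨hxM, ⟨k, hk⟩, hc⟩ := hx
  have e : g⁻¹⁻¹ * x * g⁻¹ = g * x * g⁻¹ := by group
  rw [e]
  refine ⟨mul_mem (mul_mem hg hxM) (inv_mem hg), ⟨k, by rw [conj_pow, hk]; group⟩, ?_⟩
  intro q hq hqp y hy
  haveI : Fact q.Prime := ⟨hq⟩
  have hy' : g⁻¹ * y * g ∈ op q M := (mem_normalizer_iff''.1 (norm_op M hg) y).1 hy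
  have := hc q hq hqp _ hy'
  calc g * x * g⁻¹ * y = g * (x * (g⁻¹ * y * g)) * g⁻¹ := by group
    _ = g * ((g⁻¹ * y * g) * x) * g⁻¹ := by rw [this]
    _ = y * (g * x * g⁻¹) := by group

/-- the key step -/
theorem PP.key {M₁ M₂ : Subgroup G} (h : PP M₁ M₂) {p q : ℕ} [hp : Fact p.Prime] [hq : Fact q.Prime] (hqp : q ≠ p)
    {x y : G} (hx : x ∈ Sp p M₁) (hy : y ∈ op q M₂) : x * y = y * x := by
  obtain ⟨hxM, ⟨k, hk⟩, hxc⟩ := hx
  have hyM : y ∈ M₁ := h.symm.op_le hy
  have hyc : ∀ r : ℕ, r.Prime → r ≠ q → ∀ z ∈ op r M₁, y * z = z * y := by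
    intro r hr hrq z hz
    haveI : Fact r.Prime := ⟨hr⟩
    exact (h.comm hrq hz hy).symm
  set z := x * y * x⁻¹ * y⁻¹ with hz
  have hzM : z ∈ M₁ := mul_mem (mul_mem (mul_mem hxM hyM) (inv_mem hxM)) (inv_mem hyM)
  -- `z` centralizes all `O_r(M₁)`
  have hzc : ∀ r : ℕ, r.Prime → ∀ w ∈ op r M₁, w * z = z * w := by
    intro r hr w hw
    haveI : Fact r.Prime := ⟨hr⟩
    by_cases hrp : r = p
    · -- `y` centralizes `O_p(M₁)`
      subst hrp
      have hw' : x⁻¹ * w * x ∈ op r M₁ := (mem_normalizer_iff''.1 (norm_op M₁ hxM) w).1 hw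
      have c1 : Commute y w := hyc r hr hqp.symm w hw
      have c2 : Commute y (x⁻¹ * w * x) := hyc r hr hqp.symm _ hw'
      have c3 : Commute (x * y * x⁻¹) w := by
        have e1 : x * y * x⁻¹ * w = x * (y * (x⁻¹ * w * x)) * x⁻¹ := by group
        have e2 : w * (x * y * x⁻¹) = x * ((x⁻¹ * w * x) * y) * x⁻¹ := by group
        change x * y * x⁻¹ * w = w * (x * y * x⁻¹)
        rw [e1, e2, c2.eq]
      exact (c3.mul_left c1.inv_left).eq.symm
    · -- `x` centralizes `O_r(M₁)`
      have c1 : Commute x w := hxc r hr hrp w hw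
      have hw' : y⁻¹ * w * y ∈ op r M₁ := (mem_normalizer_iff''.1 (norm_op M₁ hyM) w).1 hw
      have c2 : Commute x⁻¹ (y⁻¹ * w * y) := (show Commute x (y⁻¹ * w * y) from hxc r hr hrp _ hw').inv_left
      have c3 : Commute (y * x⁻¹ * y⁻¹) w := by
        have e1 : y * x⁻¹ * y⁻¹ * w = y * (x⁻¹ * (y⁻¹ * w * y)) * y⁻¹ := by group
        have e2 : w * (y * x⁻¹ * y⁻¹) = y * ((y⁻¹ * w * y) * x⁻¹) * y⁻¹ := by group
        change y * x⁻¹ * y⁻¹ * w = w * (y * x⁻¹ * y⁻¹)
        rw [e1, e2, c2.eq]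
      have c4 := c1.mul_left c3
      have e : x * (y * x⁻¹ * y⁻¹) = z := by rw [hz]; group
      rw [e] at c4
      exact c4.eq.symm
  have hzF : z ∈ FF M₁ := cent_FF_le h.EE_bot ⟨hzM, cent_FF hzc⟩
  -- `z` is a `q`-element
  have hzq : z ∈ op q M₁ := by
    -- `z = u * v`, `u` a power of `z` of `q`-power order, `v` of order prime to `q`
    obtain ⟨a, m, hm, he⟩ := Nat.exists_eq_pow_mul_and_not_dvd (orderOf_pos z).ne' q hq.out.ne_one
    -- `v = z ^ q ^ a` has order `m` prime to `q`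
    set v := z ^ q ^ a with hv
    have hvo : orderOf v = m := by
      rw [hv, orderOf_pow, he, Nat.gcd_eq_right (Dvd.intro _ rfl), Nat.mul_div_cancel_left _ (pow_pos hq.out.pos a)]
    suffices hv1 : v = 1 from mem_op_of_FF hzF (k := a) hv1
    -- `⟨z⟩` centralizes...
    have hmq : m.Coprime q := ((Nat.Prime.coprime_iff_not_dvd hq.out).2 hm).symm
    -- the subgroup `Z = C_{M₁}(F(M₁))`
    have hzcom : ∀ n : ℕ, Commute (z ^ n) z := fun n => (Commute.refl z).pow_left n
    -- `y` commutes with `q'`-elements of `F(M₁)`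
    have hyv : Commute y v := by
      have h1 : v ∈ FF M₁ := pow_mem hzF _
      -- elements of order prime to `q` in `F(M₁)` commute with `y`
      have h2 : ∀ (n : ℕ) (w : G), orderOf w = n → w ∈ FF M₁ → n.Coprime q → Commute y w := by
        intro n
        induction n using Nat.strong_induction_on with
        | _ n ih =>
          intro w hwn hwF hnq
          by_cases hn1 : n = 1
          · rw [hn1, orderOf_eq_one_iff] at hwn
            rw [hwn]; exact Commute.one_right y
          · obtain ⟨r, hr, hrn⟩ := Nat.exists_prime_and_dvd hn1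
            haveI : Fact r.Prime := ⟨hr⟩
            have hrq : r ≠ q := by
              rintro rfl
              have := Nat.dvd_gcd hrn dvd_rfl
              rw [Nat.Coprime] at hnq
              rw [hnq] at this
              exact hr.one_lt.ne' (Nat.dvd_one.1 this)
            have hn0 : n ≠ 0 := by rw [← hwn]; exact (orderOf_pos w).ne'
            obtain ⟨b, m', hm', he'⟩ := Nat.exists_eq_pow_mul_and_not_dvd hn0 r hr.ne_one
            have hcop : (r ^ b).Coprime m' := Nat.Coprime.pow_left b ((Nat.Prime.coprime_iff_not_dvd hr).2 hm')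
            have hb0 : b ≠ 0 := by
              rintro rfl
              rw [pow_zero, one_mul] at he'
              rw [he'] at hrn
              exact hm' hrn
            have hm0 : 0 < m' := Nat.pos_of_ne_zero (by rintro rfl; exact hm' (dvd_zero r))
            have hrb : 1 < r ^ b := Nat.one_lt_pow hb0 hr.one_lt
            -- `w ^ m'` has order `r ^ b`, `w ^ r ^ b` has order `m'`
            have o1 : orderOf (w ^ m') = r ^ b := by
              rw [orderOf_pow, hwn, he', Nat.gcd_eq_right (Dvd.intro_left _ rfl), Nat.mul_div_cancel _ hm0]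
            have o2 : orderOf (w ^ r ^ b) = m' := by
              rw [orderOf_pow, hwn, he', Nat.gcd_eq_right (Dvd.intro _ rfl),
                Nat.mul_div_cancel_left _ (pow_pos hr.pos b)]
            have c1 : Commute y (w ^ m') := by
              have h3 : w ^ m' ∈ op r M₁ := mem_op_of_FF (pow_mem hwF _) (k := b) (by
                rw [← o1]; exact pow_orderOf_eq_one _)
              exact hyc r hr hrq _ h3
            have c2 : Commute y (w ^ r ^ b) := by
              refine ih m' ?_ _ o2 (pow_mem hwF _) (Nat.Coprime.of_dvd_left (by rw [he']; exact Dvd.intro_left _ rfl) hnq)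
              rw [he']
              exact lt_mul_of_one_lt_left hm0 hrb
            -- Bezout
            obtain ⟨i, hi⟩ := exists_pow_eq_self_of_coprime (x := w ^ m') (n := r ^ b * 0 + 1) (by simp)
            -- `w` is a product of powers of `w ^ m'` and `w ^ (r ^ b)`
            have hbez := Nat.gcd_eq_gcd_ab (r ^ b) m'
            rw [Nat.Coprime] at hcop
            rw [hcop] at hbez
            have hw2 : w = (w ^ r ^ b) ^ (Nat.gcdA (r ^ b) m') * (w ^ m') ^ (Nat.gcdB (r ^ b) m') := by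
              rw [← zpow_natCast, ← zpow_natCast, ← zpow_mul, ← zpow_mul, ← zpow_add, ← hbez]
              simp
            rw [hw2]
            exact (c2.zpow_right _).mul_right (c1.zpow_right _)
      exact h2 m v hvo h1 hmq
    -- the `q`-group `⟨O_q(M₁), y⟩`
    -- `z = z₁ * z₂` with `z₂` a power of `v`, `z₁` a `q`-element
    have hcop : (q ^ a).Coprime m := Nat.Coprime.pow_left a hmq.symm
    have hbez := Nat.gcd_eq_gcd_ab (q ^ a) m
    rw [Nat.Coprime] at hcop
    rw [hcop] at hbez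
    set z2 := v ^ (Nat.gcdA (q ^ a) m) with hz2
    set z1 := (z ^ m) ^ (Nat.gcdB (q ^ a) m) with hz1
    have hz12 : z = z2 * z1 := by
      rw [hz2, hz1, hv, ← zpow_natCast, ← zpow_natCast, ← zpow_mul, ← zpow_mul, ← zpow_add, ← hbez]
      simp
    have hz1q : z1 ∈ op q M₁ := by
      have h3 : z ^ m ∈ op q M₁ := mem_op_of_FF (pow_mem hzF _) (k := a) (by
        rw [← pow_mul, mul_comm, ← he, pow_orderOf_eq_one])
      exact zpow_mem h3 _
    -- the element `z1 * y` is a `q`-element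
    have hQ : IsPGroup q (op q M₁ ⊔ op q M₂ : Subgroup G) := by
      apply IsPGroup.to_sup_of_normal_left' (isPGroup_op M₁) (isPGroup_op M₂)
      exact h.symm.op_le.trans (norm_op M₁)
    obtain ⟨j, hj⟩ := hQ ⟨z1 * y, mul_mem (le_sup_left (b := op q M₂) hz1q) (le_sup_right (a := op q M₁) hy)⟩
    obtain ⟨l, hl⟩ := (isPGroup_op (p := q) M₂) ⟨y, hy⟩
    have hj' : (z1 * y) ^ q ^ j = 1 := congrArg Subtype.val hj
    have hl' : y ^ q ^ l = 1 := congrArg Subtype.val hl
    -- `x y x⁻¹ = z2 * (z1 * y)`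
    have hxy : x * y * x⁻¹ = z2 * (z1 * y) := by
      rw [← mul_assoc, ← hz12, hz]; group
    have c12 : Commute z2 (z1 * y) := by
      have d1 : Commute v z1 := by
        rw [hv, hz1]
        exact ((Commute.refl z).pow_left _).pow_right m |>.zpow_right _
      have d2 : Commute v (z1 * y) := d1.mul_right hyv.symm
      exact d2.zpow_left _
    have hz2q : z2 ^ q ^ (j + l) = 1 := by
      have e1 : (x * y * x⁻¹) ^ q ^ (j + l) = 1 := by
        rw [conj_pow, pow_add, mul_comm, pow_mul, hl', one_pow]; group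
      rw [hxy, c12.mul_pow] at e1
      have e2 : (z1 * y) ^ q ^ (j + l) = 1 := by
        rw [pow_add, pow_mul, hj', one_pow]
      rwa [e2, mul_one] at e1
    -- `z2` has order prime to `q`
    have hz21 : z2 = 1 := by
      have o1 : orderOf z2 ∣ q ^ (j + l) := orderOf_dvd_of_pow_eq_one hz2q
      have o2 : orderOf z2 ∣ m := by
        apply orderOf_dvd_of_pow_eq_one
        have : z2 ^ (m : ℤ) = 1 := by
          rw [hz2, ← zpow_mul, mul_comm, zpow_mul, zpow_natCast, ← hvo, pow_orderOf_eq_one, one_zpow]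
        rwa [zpow_natCast] at this
      have o3 := Nat.eq_one_of_dvd_coprimes (Nat.Coprime.pow_right (j + l) hmq) o2 o1
      exact orderOf_eq_one_iff.1 o3
    rw [hz21, one_mul] at hz12
    rw [← hz12] at hz1q
    -- then `v = 1`
    obtain ⟨i, hi⟩ := (isPGroup_op (p := q) M₁) ⟨z, hz1q⟩
    have hi' : z ^ q ^ i = 1 := congrArg Subtype.val hi
    have o1 : orderOf z ∣ q ^ i := orderOf_dvd_of_pow_eq_one hi'
    have o2 : m ∣ q ^ i := (Dvd.intro_left _ he.symm).trans o1
    have o3 := Nat.eq_one_of_dvd_coprimes (Nat.Coprime.pow_right i hmq) dvd_rfl o2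
    rw [o3, orderOf_eq_one_iff] at hvo
    exact hvo
  -- coprime action
  have hxz : Commute x z := hxc q hq.out hqp z hzq
  have hpow : ∀ n : ℕ, x ^ n * y = z ^ n * y * x ^ n := by
    intro n
    induction n with
    | zero => simp
    | succ n ih =>
      have e1 : x * y = z * y * x := by rw [hz]; group
      calc x ^ (n + 1) * y = x * (x ^ n * y) := by rw [pow_succ']; group
        _ = x * (z ^ n * y * x ^ n) := by rw [ih]
        _ = (x * z ^ n) * (y * x ^ n) := by group
        _ = (z ^ n * x) * (y * x ^ n) := by rw [(hxz.pow_right n).eq]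
        _ = z ^ n * (x * y) * x ^ n := by group
        _ = z ^ n * (z * y * x) * x ^ n := by rw [e1]
        _ = z ^ (n + 1) * y * x ^ (n + 1) := by rw [pow_succ, pow_succ']; group
  have h1 := hpow (p ^ k)
  rw [hk, one_mul, mul_one] at h1
  have h2 : z ^ p ^ k = 1 := (mul_eq_right.1 h1.symm)
  obtain ⟨i, hi⟩ := (isPGroup_op (p := q) M₁) ⟨z, hzq⟩
  have hi' : z ^ q ^ i = 1 := congrArg Subtype.val hi
  have hz1 : z = 1 := by
    have o3 := Nat.eq_one_of_dvd_coprimes (Nat.Coprime.pow k i ((Nat.coprime_primes hp.out hq.out).2 hqp.symm))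
      (orderOf_dvd_of_pow_eq_one h2) (orderOf_dvd_of_pow_eq_one hi')
    exact orderOf_eq_one_iff.1 o3
  rw [hz, mul_inv_eq_one, mul_inv_eq_iff_eq_mul] at hz1
  exact hz1

theorem PP.Sp_subset {M₁ M₂ : Subgroup G} (h : PP M₁ M₂) {p q : ℕ} [hp : Fact p.Prime] [hq : Fact q.Prime] (hqp : q ≠ p)
    (hq1 : op q M₂ ≠ ⊥) : Sp p M₁ ⊆ Sp p M₂ := by
  intro x hx
  have h1 : ∀ r : ℕ, r.Prime → r ≠ p → ∀ y ∈ op r M₂, x * y = y * x := by
    intro r hr hrp y hy
    haveI : Fact r.Prime := ⟨hr⟩
    exact h.key hrp hx hy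
  refine ⟨?_, hx.2.1, h1⟩
  have h2 : x ∈ M₁ ⊓ normalizer (op q M₂ : Set G) := by
    refine ⟨hx.1, H33.cent_le_norm' _ ?_⟩
    rw [mem_centralizer_iff]
    intro y hy
    exact (h1 q hq.out hqp y hy).symm
  rw [(h.prim (op q M₂) hq1 (le_inf h.symm.op_le (H62.op_le M₂))).2 (norm_op M₂)] at h2
  exact h2.2

/-- Bender's theorem -/
theorem PP.main {M₁ M₂ : Subgroup G} (h : PP M₁ M₂) : ∃ p : ℕ, p.Prime ∧
    M₁ ⊓ centralizer (op p M₁ : Set G) ≤ op p M₁ ∧ M₂ ⊓ centralizer (op p M₂ : Set G) ≤ op p M₂ ∧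
    op p M₁ ⊔ op p M₂ ≤ M₁ ⊓ M₂ := by
  have hsame : ∀ {r : ℕ} [Fact r.Prime], op r M₁ = ⊥ ↔ op r M₂ = ⊥ := fun {r} _ => ⟨h.symm.op_bot, h.op_bot⟩
  have huniq : ∀ {p q : ℕ} [Fact p.Prime] [Fact q.Prime], op p M₁ ≠ ⊥ → op q M₁ ≠ ⊥ → q = p := by
    intro p q hp hq h1 h2
    by_contra hqp
    have e : Sp p M₁ = Sp p M₂ :=
      Set.Subset.antisymm (h.Sp_subset hqp (fun h3 => h2 (hsame.2 h3))) (h.symm.Sp_subset hqp h2)
    have hne : closure (Sp p M₁) ≠ ⊥ := by
      intro hb
      apply h1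
      rw [eq_bot_iff, ← hb]
      intro x hx
      apply Subgroup.subset_closure
      obtain ⟨k, hk⟩ := (isPGroup_op (p := p) M₁) ⟨x, hx⟩
      refine ⟨H62.op_le M₁ hx, ⟨k, congrArg Subtype.val hk⟩, fun r hr hrp y hy => ?_⟩
      haveI : Fact r.Prime := ⟨hr⟩
      exact op_comm hrp.symm hx hy
    apply h.false_of hne
    · rw [Subgroup.closure_le]
      intro x hx
      exact ⟨hx.1, (e ▸ hx : x ∈ Sp p M₂).1⟩
    · exact norm_Sp p M₁
    · rw [e]; exact norm_Sp p M₂
  by_cases hex : ∃ p : ℕ, p.Prime ∧ op p M₁ ≠ ⊥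
  · obtain ⟨p, hp, hp1⟩ := hex
    haveI : Fact p.Prime := ⟨hp⟩
    have hother : ∀ q : ℕ, q.Prime → q ≠ p → op q M₁ = ⊥ := by
      intro q hq hqp
      haveI : Fact q.Prime := ⟨hq⟩
      by_contra h2
      exact hqp (huniq hp1 h2)
    have key : ∀ M : Subgroup G, EE M = ⊥ → (∀ q : ℕ, q.Prime → q ≠ p → op q M = ⊥) →
        M ⊓ centralizer (op p M : Set G) ≤ op p M := by
      intro M hE hM x hx
      have hcent : x ∈ centralizer (FF M : Set G) := by
        apply cent_FF
        intro q hq y hy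
        by_cases hqp : q = p
        · subst hqp
          exact mem_centralizer_iff.1 hx.2 y hy
        · rw [hM q hq hqp, mem_bot] at hy
          rw [hy, one_mul, mul_one]
      have h1 := cent_FF_le hE ⟨hx.1, hcent⟩
      have h2 : FF M ≤ op p M := by
        unfold FF
        rw [Solv.fitting_eq_iSup_pCore, Subgroup.map_iSup]
        apply iSup_le
        rintro ⟨q, hq⟩
        by_cases hqp : q = p
        · subst hqp; exact le_rfl
        · have := hM q hq hqp
          unfold op at this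
          rw [this]; exact bot_le
      exact h2 h1
    exact ⟨p, hp, key M₁ h.EE_bot hother, key M₂ h.symm.EE_bot (fun q hq hqp => by
        haveI : Fact q.Prime := ⟨hq⟩
        exact hsame.1 (hother q hq hqp)),
      sup_le (le_inf (H62.op_le M₁) h.op_le) (le_inf h.symm.op_le (H62.op_le M₂))⟩
  · exfalso
    push Not at hex
    have key : ∀ M : Subgroup G, EE M = ⊥ → (∀ q : ℕ, q.Prime → op q M = ⊥) → M = ⊥ := by
      intro M hE hM
      have hFF : FF M = ⊥ := by
        unfold FF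
        rw [Solv.fitting_eq_iSup_pCore, Subgroup.map_iSup, eq_bot_iff]
        apply iSup_le
        rintro ⟨q, hq⟩
        have := hM q hq
        unfold op at this
        rw [this]
      rw [eq_bot_iff, ← hFF]
      intro x hx
      apply cent_FF_le hE
      refine ⟨hx, ?_⟩
      change x ∈ centralizer (FF M : Set G)
      rw [mem_centralizer_iff, hFF]
      intro y hy
      have : y = 1 := hy
      rw [this, one_mul, mul_one]
    apply h.ne
    rw [key M₁ h.EE_bot hex, key M₂ h.symm.EE_bot (fun q hq => by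
      haveI : Fact q.Prime := ⟨hq⟩
      exact hsame.1 (hex q hq))]

end

end Cfsg.Agent.H62
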