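import Mathlib
import Cfsg.Agent.H62.Pyr3

set_option autoImplicit false
set_option linter.unusedSectionVars false
set_option linter.style.haveILetI false

universe u

open Subgroup

namespace Cfsg.Agent.H62.Pyr

/-- Burnside -/
theorem solvable_of_nc {G : Type u} [Group G] [Finite G] (P : Sylow 2 G)
    (hP : normalizer P ≤ centralizer (P : Set G)) : Group.IsSolvable G := by
  have hc := MonoidHom.ker_transferSylow_isComplement' P hP
  set K := (MonoidHom.transferSylow P hP).ker with hK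
  have hKo : Odd (Nat.card K) := by
    rw [← Nat.not_even_iff_odd, even_iff_two_dvd]
    exact MonoidHom.not_dvd_card_ker_transferSylow P hP
  refine solvable_ext K (FT.solvable_of_odd hKo) ?_
  haveI : Group.IsNilpotent P := P.2.isNilpotent
  haveI : Group.IsSolvable (P : Subgroup G) := inferInstance
  refine Group.isSolvable_of_surjective (f := (QuotientGroup.mk' K).comp (P : Subgroup G).subtype) ?_
  intro y
  obtain ⟨g, rfl⟩ := QuotientGroup.mk'_surjective K y
  obtain ⟨⟨⟨k, hk⟩, ⟨q, hq⟩⟩, hkq⟩ := hc.2 g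
  have hkq' : k * q = g := hkq
  rw [← hkq']
  refine ⟨⟨q, hq⟩, ?_⟩
  simp only [MonoidHom.comp_apply, map_mul]
  have : QuotientGroup.mk' K k = 1 := by rw [← MonoidHom.mem_ker, QuotientGroup.ker_mk']; exact hk
  rw [this, one_mul]; rfl

theorem p1 {C : Type u} [Group C] [Finite C] (Z : Subgroup C) (hZc : Z ≤ Subgroup.center C) (Q : Sylow 2 C)
    (hZQ : Z ≤ (Q : Subgroup C)) (hab : ∀ x ∈ Q, ∀ y ∈ Q, x * y * x⁻¹ * y⁻¹ ∈ Z)
    (hn : ∀ n ∈ Subgroup.normalizer ((Q : Subgroup C) : Set C), ∀ x ∈ Q, n * x * n⁻¹ * x⁻¹ ∈ Z) :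
    Group.IsSolvable C := by
  haveI : Z.Normal := by
    constructor
    intro z hz g
    have := (Subgroup.mem_center_iff.1 (hZc hz)) g
    rw [this, mul_inv_cancel_right]; exact hz
  haveI hZs : Group.IsSolvable Z := by
    haveI : IsMulCommutative Z := by
      refine ⟨⟨fun a b => Subtype.ext ?_⟩⟩
      exact ((Subgroup.mem_center_iff.1 (hZc a.2)) b).symm
    haveI := (IsMulCommutative.instCommGroup : CommGroup Z)
    exact Group.isSolvable_of_comm (fun a b => mul_comm' a b)
  refine solvable_ext Z hZs ?_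
  have hsurj := QuotientGroup.mk'_surjective Z
  have hmem : ∀ x : C, QuotientGroup.mk' Z x ∈ Q.mapSurjective hsurj ↔ x ∈ Q := by
    intro x
    show QuotientGroup.mk' Z x ∈ (Q.mapSurjective hsurj : Subgroup (C ⧸ Z)) ↔ _
    rw [Sylow.coe_mapSurjective]
    constructor
    · rintro ⟨y, hy, hxy⟩
      have h1 : y⁻¹ * x ∈ Z := by
        rw [← QuotientGroup.ker_mk' Z, MonoidHom.mem_ker, map_mul, map_inv, hxy, inv_mul_cancel]
      have := mul_mem hy (hZQ h1)
      rwa [mul_inv_cancel_left] at this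
    · intro hx
      exact ⟨x, hx, rfl⟩
  apply solvable_of_nc (Q.mapSurjective hsurj)
  intro n hnn
  obtain ⟨c, rfl⟩ := hsurj n
  rw [Subgroup.mem_centralizer_iff]
  intro v hv
  obtain ⟨x, rfl⟩ := hsurj v
  have hxQ : x ∈ Q := (hmem x).1 hv
  have hc : c ∈ Subgroup.normalizer ((Q : Subgroup C) : Set C) := by
    rw [Subgroup.mem_normalizer_iff]
    intro y
    have h1 := (Subgroup.mem_normalizer_iff.1 hnn) (QuotientGroup.mk' Z y)
    rw [← map_inv, ← map_mul, ← map_mul] at h1
    exact ((hmem y).symm.trans h1).trans (hmem _)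
  have h2 := hn c hc x hxQ
  rw [← QuotientGroup.ker_mk' Z, MonoidHom.mem_ker, map_mul, map_mul, map_mul, map_inv, map_inv] at h2
  have h3 : QuotientGroup.mk' Z c * QuotientGroup.mk' Z x * (QuotientGroup.mk' Z c)⁻¹ =
      QuotientGroup.mk' Z x := mul_inv_eq_one.1 h2
  exact (mul_inv_eq_iff_eq_mul.1 h3).symm

theorem exists_odd_pow {C : Type u} [Group C] [Finite C] (Q : Sylow 2 C) {n : C}
    (hn : n ∈ Subgroup.normalizer ((Q : Subgroup C) : Set C)) : ∃ r, Odd r ∧ n ^ r ∈ Q := by
  set N := Subgroup.normalizer ((Q : Subgroup C) : Set C) with hN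
  have hle : (Q : Subgroup C) ≤ N := Subgroup.le_normalizer
  haveI : ((Q : Subgroup C).subgroupOf N).Normal := Subgroup.normal_in_normalizer
  refine ⟨((Q : Subgroup C).subgroupOf N).index, ?_, ?_⟩
  · rw [← Nat.not_even_iff_odd, even_iff_two_dvd]
    intro h
    apply Q.not_dvd_index
    rw [← Subgroup.relIndex_mul_index hle]
    exact Dvd.dvd.mul_right h _
  · have := Subgroup.pow_index_mem ((Q : Subgroup C).subgroupOf N) ⟨n, hn⟩
    rw [Subgroup.mem_subgroupOf] at this
    exact this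

theorem p1b {C : Type u} [Group C] [Finite C] (E : Subgroup C) (hE : ∀ x : C, x ∈ E ↔ x * x = 1)
    (hEc : E ≤ Subgroup.center C) (Q : Sylow 2 C) (hab : ∀ x ∈ Q, ∀ y ∈ Q, x * y = y * x) :
    Group.IsSolvable C := by
  apply solvable_of_nc Q
  intro n hn
  obtain ⟨r, hr, hrQ⟩ := exists_odd_pow Q hn
  have key : ∀ j : ℕ, ∀ x ∈ Q, x ^ (2 ^ j) = 1 → x * n = n * x := by
    intro j
    induction j with
    | zero =>
      intro x _ h
      rw [pow_zero, pow_one] at h
      rw [h, one_mul, mul_one]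
    | succ j ih =>
      intro x hx h
      have hx2 : x ^ 2 ∈ Q := pow_mem hx 2
      have h2 := ih (x ^ 2) hx2 (by rw [← pow_mul, ← pow_succ']; exact h)
      have hc : n * x * n⁻¹ ∈ Q := ((Subgroup.mem_normalizer_iff.1 hn) x).1 hx
      set e := n * x * n⁻¹ * x⁻¹ with he
      have hee : e * e = 1 := by
        have h3 : e * e = (n * x * n⁻¹) * (n * x * n⁻¹) * (x⁻¹ * x⁻¹) := by
          have h4 := hab _ (inv_mem hx) _ hc
          rw [he]
          calc n * x * n⁻¹ * x⁻¹ * (n * x * n⁻¹ * x⁻¹) =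
              n * x * n⁻¹ * (x⁻¹ * (n * x * n⁻¹)) * x⁻¹ := by group
            _ = n * x * n⁻¹ * ((n * x * n⁻¹) * x⁻¹) * x⁻¹ := by rw [h4]
            _ = _ := by group
        rw [h3]
        calc (n * x * n⁻¹) * (n * x * n⁻¹) * (x⁻¹ * x⁻¹) = n * x ^ 2 * n⁻¹ * (x ^ 2)⁻¹ := by
              rw [pow_two]; group
          _ = x ^ 2 * n * n⁻¹ * (x ^ 2)⁻¹ := by rw [h2]
          _ = 1 := by group
      have hec : ∀ g, g * e = e * g := Subgroup.mem_center_iff.1 (hEc ((hE e).2 hee))
      have hnx : n * x * n⁻¹ = e * x := by rw [he]; group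
      have hpow : ∀ k : ℕ, n ^ k * x * (n ^ k)⁻¹ = e ^ k * x := by
        intro k
        induction k with
        | zero => simp
        | succ k ihk =>
          calc n ^ (k + 1) * x * (n ^ (k + 1))⁻¹ = n * (n ^ k * x * (n ^ k)⁻¹) * n⁻¹ := by
                rw [pow_succ']; group
            _ = n * (e ^ k * x) * n⁻¹ := by rw [ihk]
            _ = (n * e ^ k) * x * n⁻¹ := by group
            _ = (e ^ k * n) * x * n⁻¹ := by rw [((Commute.pow_right (hec n) k)).eq]
            _ = e ^ k * (n * x * n⁻¹) := by group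
            _ = e ^ k * (e * x) := by rw [hnx]
            _ = e ^ (k + 1) * x := by rw [pow_succ]; simp only [mul_assoc]
      have h5 := hpow r
      rw [hab _ hrQ x hx, mul_inv_cancel_right] at h5
      have h6 : e ^ r = 1 := (mul_eq_right.1 h5.symm)
      obtain ⟨s, hs⟩ := hr
      have h7 : e = 1 := by
        rw [hs, pow_succ, pow_mul, pow_two, hee, one_pow, one_mul] at h6
        exact h6
      rw [h7, one_mul] at hnx
      exact (mul_inv_eq_iff_eq_mul.1 hnx).symm
  rw [Subgroup.mem_centralizer_iff]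
  intro x hx
  obtain ⟨j, hj⟩ := Q.2 ⟨x, hx⟩
  refine key j x hx ?_
  have := congrArg Subtype.val hj
  simpa using this

end Cfsg.Agent.H62.Pyr
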