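import Cfsg.Agent.H62.GaussTwo
import Cfsg.Agent.Cop.MinAct

set_option autoImplicit false
set_option linter.style.haveILetI false
set_option linter.unusedSectionVars false

/-!
Actions of 3-elements on 2-groups without elementary abelian subgroups of order 8.
-/

namespace Cfsg.Agent.H62

open Subgroup
open scoped Pointwise commutatorElement

theorem special_center_pow {R : Type*} [Group R] [Finite R] {p : ℕ} [Fact p.Prime]
    (h : Cfsg.IsSpecial p R) : ∀ z ∈ center R, z ^ p = 1 := by
  have hcl : ∀ x y z : R, Commute ⁅x, y⁆ z := by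
    intro x y z
    have h6 : ⁅x, y⁆ ∈ center R := by
      rw [← h.2.2, _root_.commutator_def]
      exact commutator_mem_commutator (mem_top _) (mem_top _)
    exact (mem_center_iff.1 h6 z).symm
  have hcomm : ∀ x y : R, ⁅x, y⁆ ^ p = 1 := by
    intro x y
    rw [← H91.commutator_pow_left (fun z => hcl x y z) p, commutatorElement_eq_one_iff_mul_comm]
    have h1 : x ^ p ∈ center R := by
      rw [← h.2.1]; exact Solv.pow_mem_frattini_of_pGroup h.1 x
    exact (mem_center_iff.1 h1 y).symm
  intro z hz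
  rw [← h.2.2, _root_.commutator_def, Subgroup.commutator_def] at hz
  induction hz using Subgroup.closure_induction with
  | mem x hx =>
    obtain ⟨a, _, b, _, rfl⟩ := hx
    exact hcomm a b
  | one => exact one_pow p
  | mul x y hx hy ihx ihy =>
    have h1 : Commute x y := by
      have h2 : x ∈ center R := by
        rw [← h.2.2, _root_.commutator_def, Subgroup.commutator_def]; exact hx
      exact (mem_center_iff.1 h2 y).symm
    rw [h1.mul_pow, ihx, ihy, one_mul]
  | inv x _ ih => rw [inv_pow, ih, inv_one]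

/-- all elementary abelian subgroups have order at most 4, centre of order 4: then `|P| < 2^8`. -/
theorem not_dvd_of_special {R : Type*} [Group R] [Finite R] (h : Cfsg.IsSpecial 2 R)
    (hc : Nat.card (center R) = 4)
    (hrank : ∀ V : Subgroup R, IsMulCommutative V → (∀ v ∈ V, v ^ 2 = 1) → Nat.card V ≤ 4) :
    ¬ 2 ^ 8 ∣ Nat.card R := by
  intro hdvd
  cases nonempty_fintype R
  haveI : Fact (Nat.Prime 2) := ⟨Nat.prime_two⟩
  have hexp := special_center_pow h
  have hsq : ∀ x : R, x ^ 2 ∈ center R := fun x => by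
    rw [← h.2.1]; exact Solv.pow_mem_frattini_of_pGroup h.1 x
  have hK : IsKleinFour (center R) := by
    refine ⟨hc, ?_⟩
    apply Nat.dvd_antisymm
    · apply Monoid.exponent_dvd_of_forall_pow_eq_one
      intro z
      exact Subtype.ext (hexp z z.2)
    · obtain ⟨z, hz⟩ := exists_prime_orderOf_dvd_card' (G := center R) 2 (by rw [hc]; norm_num)
      rw [← hz]
      exact Monoid.order_dvd_exponent z
  obtain ⟨x, hx, hx2⟩ := exists_sq_one_not_mem (center R) le_rfl hsq hK hdvd
  set V := center R ⊔ zpowers x with hV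
  have hmem : ∀ v ∈ V, ∃ z ∈ center R, ∃ k : ℤ, v = z * x ^ k := by
    intro v hv
    obtain ⟨z, hz, y, hy, rfl⟩ := Subgroup.mem_sup_of_normal_left.mp hv
    obtain ⟨k, rfl⟩ := hy
    exact ⟨z, hz, k, rfl⟩
  have hcz : ∀ z ∈ center R, ∀ y : R, Commute z y := fun z hz y => (mem_center_iff.1 hz y).symm
  have hVc : IsMulCommutative V := by
    refine ⟨⟨?_⟩⟩
    rintro ⟨v, hv⟩ ⟨w, hw⟩
    apply Subtype.ext
    change v * w = w * v
    obtain ⟨z, hz, k, rfl⟩ := hmem v hv
    obtain ⟨y, hy, l, rfl⟩ := hmem w hw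
    have h1 : Commute (x ^ k) (x ^ l) := (Commute.refl x).zpow_zpow k l
    have h2 : Commute (z * x ^ k) (y * x ^ l) :=
      ((hcz z hz _).mul_left (((hcz y hy (x ^ k)).symm).mul_right h1))
    exact h2.eq
  have hVe : ∀ v ∈ V, v ^ 2 = 1 := by
    intro v hv
    obtain ⟨z, hz, k, rfl⟩ := hmem v hv
    rw [(hcz z hz _).mul_pow, hexp z hz, one_mul, ← zpow_natCast, ← zpow_mul, mul_comm, zpow_mul,
      zpow_natCast, hx2, one_zpow]
  have h1 := hrank V hVc hVe
  have h2 : center R < V := by
    refine lt_of_le_of_ne le_sup_left ?_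
    intro h
    apply hx
    rw [h]
    exact mem_sup_right (mem_zpowers x)
  have h3 : Nat.card (center R) < Nat.card V :=
    Set.Finite.card_lt_card (Set.toFinite _) (show ((center R : Subgroup R) : Set R) ⊂ V from h2)
  omega

/-- free conjugation action -/
theorem card_dvd_of_free {X : Type*} [Group X] [Finite X] (A : Subgroup X) (S : Set X)
    (hS : ∀ a ∈ A, ∀ x ∈ S, a * x * a⁻¹ ∈ S) (hfree : ∀ a ∈ A, ∀ x ∈ S, a * x * a⁻¹ = x → a = 1) :
    Nat.card A ∣ Nat.card S := by
  let act : MulAction A S :=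
    { smul := fun a x => ⟨(a : X) * x * (a : X)⁻¹, hS a a.2 x x.2⟩
      one_smul := fun x => Subtype.ext (by change (1 : X) * x * (1 : X)⁻¹ = x; simp)
      mul_smul := fun a b x => Subtype.ext (by
        change ((a : X) * b) * x * ((a : X) * b)⁻¹ = a * (b * x * (b : X)⁻¹) * (a : X)⁻¹
        group) }
  have hst : ∀ x : S, MulAction.stabilizer A x = ⊥ := by
    intro x
    rw [eq_bot_iff]
    intro a ha
    rw [MulAction.mem_stabilizer_iff] at ha
    have h1 : (a : X) * x * (a : X)⁻¹ = x := congrArg Subtype.val ha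
    rw [mem_bot]
    exact Subtype.ext (hfree a a.2 x x.2 h1)
  have e := MulAction.selfEquivOrbitsQuotientProd hst
  rw [Nat.card_congr e, Nat.card_prod]
  exact dvd_mul_left _ _

/-- the subgroup of order `p` of a cyclic `p`-group lies in every nontrivial subgroup -/
theorem pow_mem_zpowers_of_ne_one {X : Type*} [Group X] {p n : ℕ} [hp : Fact p.Prime] {d g : X}
    (hd : orderOf d = p ^ n) (hg : g ∈ zpowers d) (hg1 : g ≠ 1) : d ^ p ^ (n - 1) ∈ zpowers g := by
  have hfin : IsOfFinOrder d := by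
    rw [← orderOf_pos_iff, hd]; exact pow_pos hp.out.pos n
  obtain ⟨m, rfl⟩ : ∃ m : ℕ, d ^ m = g := by
    rw [← hfin.mem_powers_iff_mem_zpowers] at hg
    obtain ⟨m, hm⟩ := hg
    exact ⟨m, hm⟩
  have hm0 : m ≠ 0 := by rintro rfl; exact hg1 (pow_zero d)
  obtain ⟨s, u, hu, rfl⟩ := Nat.exists_eq_pow_mul_and_not_dvd hm0 p hp.out.ne_one
  have hs : s < n := by
    by_contra hcon
    push Not at hcon
    apply hg1
    rw [← orderOf_dvd_iff_pow_eq_one, hd]
    exact Dvd.dvd.mul_right (pow_dvd_pow p hcon) u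
  have hcop : (orderOf (d ^ p ^ s)).Coprime u := by
    apply Nat.Coprime.coprime_dvd_left (orderOf_pow_dvd (p ^ s))
    rw [hd]
    exact Nat.Coprime.pow_left _ ((Nat.Prime.coprime_iff_not_dvd hp.out).2 hu)
  obtain ⟨v, hv⟩ := exists_pow_eq_self_of_coprime (x := d ^ p ^ s) hcop.symm
  have h1 : d ^ p ^ s ∈ zpowers (d ^ (p ^ s * u)) := by
    refine ⟨(v : ℤ), ?_⟩
    change (d ^ (p ^ s * u)) ^ (v : ℤ) = d ^ p ^ s
    rw [zpow_natCast, pow_mul]
    exact hv
  have h2 : d ^ p ^ (n - 1) = (d ^ p ^ s) ^ p ^ (n - 1 - s) := by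
    rw [← pow_mul, ← pow_add]
    congr 2
    omega
  rw [h2]
  exact pow_mem h1 _

/-- conjugation action of a `p`-group on a set: the number of elements is congruent to the number of fixed ones. -/
theorem card_modEq_fixed {X : Type*} [Group X] [Finite X] {p : ℕ} [Fact p.Prime] (A : Subgroup X)
    (hA : IsPGroup p A) (S : Set X) (hS : ∀ a ∈ A, ∀ x ∈ S, a * x * a⁻¹ ∈ S) :
    Nat.card S ≡ Nat.card ({x | x ∈ S ∧ ∀ a ∈ A, a * x = x * a} : Set X) [MOD p] := by
  let act : MulAction A S :=
    { smul := fun a x => ⟨(a : X) * x * (a : X)⁻¹, hS a a.2 x x.2⟩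
      one_smul := fun x => Subtype.ext (by change (1 : X) * x * (1 : X)⁻¹ = x; simp)
      mul_smul := fun a b x => Subtype.ext (by
        change ((a : X) * b) * x * ((a : X) * b)⁻¹ = a * (b * x * (b : X)⁻¹) * (a : X)⁻¹
        group) }
  have h1 := hA.card_modEq_card_fixedPoints S
  have h2 : Nat.card (MulAction.fixedPoints A S) =
      Nat.card ({x | x ∈ S ∧ ∀ a ∈ A, a * x = x * a} : Set X) := by
    refine Nat.card_congr ⟨fun x => ⟨x.1.1, x.1.2, fun a ha => ?_⟩, fun x => ⟨⟨x.1, x.2.1⟩, fun a => ?_⟩,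
      fun x => rfl, fun x => rfl⟩
    · have h3 := congrArg Subtype.val (x.2 ⟨a, ha⟩)
      exact mul_inv_eq_iff_eq_mul.1 h3
    · apply Subtype.ext
      exact mul_inv_eq_iff_eq_mul.2 (x.2.2 a a.2)
  rwa [h2] at h1

theorem card_mod_of_fpf {X : Type*} [Group X] [Finite X] {p : ℕ} [Fact p.Prime] {d : X}
    (hd : IsPGroup p (zpowers d)) {V : Subgroup X} (hdV : d ∈ normalizer (V : Set X))
    (hfix : ∀ x ∈ V, d * x = x * d → x = 1) : Nat.card V ≡ 1 [MOD p] := by
  have h1 := card_modEq_fixed (zpowers d) hd (V : Set X) (by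
    intro a ha x hx
    exact (mem_normalizer_iff.1 ((zpowers_le.2 hdV) ha) x).1 hx)
  have h2 : ({x | x ∈ (V : Set X) ∧ ∀ a ∈ zpowers d, a * x = x * a} : Set X) = {1} := by
    ext x
    constructor
    · rintro ⟨h3, h4⟩
      exact hfix x h3 (h4 d (mem_zpowers d))
    · rintro rfl
      exact ⟨V.one_mem, fun a _ => by simp⟩
  rw [h2] at h1
  simpa using h1

theorem four_cases {X : Type*} [Group X] [Finite X] {W : Subgroup X} (hW : Nat.card W = 4)
    {a b c : X} (ha : a ∈ W) (hb : b ∈ W) (hc : c ∈ W) (ha1 : a ≠ 1) (hb1 : b ≠ 1) (hc1 : c ≠ 1)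
    (hab : a ≠ b) (hac : a ≠ c) (hbc : b ≠ c) : ∀ w ∈ W, w = 1 ∨ w = a ∨ w = b ∨ w = c := by
  classical
  have h1 : ({1, a, b, c} : Finset X).card = 4 := by
    rw [Finset.card_insert_of_notMem, Finset.card_insert_of_notMem, Finset.card_insert_of_notMem,
      Finset.card_singleton]
    · simpa using hbc
    · simp [hab, hac]
    · simp [Ne.symm ha1, Ne.symm hb1, Ne.symm hc1]
  have h2 : (({1, a, b, c} : Finset X) : Set X) = (W : Set X) := by
    apply Set.eq_of_subset_of_ncard_le
    · intro x hx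
      simp at hx
      rcases hx with rfl | rfl | rfl | rfl
      · exact W.one_mem
      · exact ha
      · exact hb
      · exact hc
    · rw [Set.ncard_coe_finset, h1]
      exact hW.le
    · exact Set.toFinite _
  intro w hw
  have h3 : w ∈ (({1, a, b, c} : Finset X) : Set X) := by rw [h2]; exact hw
  simpa using h3

/-- an element of odd order normalizing a group of order 4 and fixing a nonidentity element centralizes it -/
theorem centralizes_of_fix_one {X : Type*} [Group X] [Finite X] {W : Subgroup X} (hW : Nat.card W = 4)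
    {c v : X} (hcW : ∀ w ∈ W, c * w * c⁻¹ ∈ W) (hc : Odd (orderOf c)) (hv : v ∈ W) (hv1 : v ≠ 1)
    (hcv : c * v = v * c) : ∀ w ∈ W, c * w = w * c := by
  intro w hw
  by_contra hne
  have hw1 : w ≠ 1 := by rintro rfl; simp at hne
  have hwv : w ≠ v := by rintro rfl; exact hne hcv
  set w' := c * w * c⁻¹ with hw'
  have hw'W : w' ∈ W := hcW w hw
  have hw'1 : w' ≠ 1 := by
    intro h
    apply hw1
    have : w = c⁻¹ * w' * c := by rw [hw']; group
    rw [this, h]; simp
  have hw'w : w' ≠ w := fun h => hne (mul_inv_eq_iff_eq_mul.1 h)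
  have hw'v : w' ≠ v := by
    intro h
    apply hwv
    have h1 : w = c⁻¹ * w' * c := by rw [hw']; group
    rw [h1, h, mul_assoc, ← hcv]; group
  have hall := four_cases hW hv hw hw'W hv1 hw1 hw'1 (Ne.symm hwv) (Ne.symm hw'v) (Ne.symm hw'w)
  have h2 : c * w' * c⁻¹ = w := by
    have h3 := hcW w' hw'W
    rcases hall _ h3 with h | h | h | h
    · exfalso; apply hw'1
      have : w' = c⁻¹ * (c * w' * c⁻¹) * c := by group
      rw [this, h]; simp
    · exfalso; apply hw'v
      have h1 : w' = c⁻¹ * (c * w' * c⁻¹) * c := by group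
      rw [h1, h, mul_assoc, ← hcv]; group
    · exact h
    · exfalso
      apply hw'w
      have h4 : c * w' * c⁻¹ = c * w * c⁻¹ := by rw [h, ← hw']
      have h5 := mul_right_cancel h4
      exact mul_left_cancel h5
  have h3 : Commute (c ^ 2) w := by
    have h4 : c ^ 2 * w * (c ^ 2)⁻¹ = w := by
      have : c ^ 2 * w * (c ^ 2)⁻¹ = c * (c * w * c⁻¹) * c⁻¹ := by rw [sq]; group
      rw [this, ← hw', h2]
    exact mul_inv_eq_iff_eq_mul.1 h4
  have h4 : (orderOf c).Coprime 2 := (Nat.coprime_two_right.2 hc)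
  obtain ⟨m, hm⟩ := exists_pow_eq_self_of_coprime (x := c) h4.symm
  apply hne
  have : Commute c w := by
    rw [← hm]; exact h3.pow_left m
  exact this

/-- adjoining a commuting involution to an elementary abelian 2-group of order 4 -/
theorem mem_of_commute_of_rank {X : Type*} [Group X] [Finite X]
    (hrank4 : ∀ V : Subgroup X, IsMulCommutative V → (∀ v ∈ V, v ^ 2 = 1) → Nat.card V ≤ 4)
    {W : Subgroup X} (hWc : IsMulCommutative W) (hWe : ∀ w ∈ W, w ^ 2 = 1) (hW : Nat.card W = 4)
    {x : X} (hx : x ^ 2 = 1) (hxW : ∀ w ∈ W, x * w = w * x) : x ∈ W := by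
  by_contra hcon
  set V := closure ((W : Set X) ∪ {x}) with hV
  have hWcomm : ∀ a ∈ W, ∀ b ∈ W, a * b = b * a := fun a ha b hb =>
    congrArg Subtype.val (hWc.1.1 ⟨a, ha⟩ ⟨b, hb⟩)
  have hcomm : ∀ a ∈ (W : Set X) ∪ {x}, ∀ b ∈ (W : Set X) ∪ {x}, a * b = b * a := by
    rintro a (ha | rfl) b (hb | rfl)
    · exact hWcomm a ha b hb
    · exact (hxW a ha).symm
    · exact hxW b hb
    · rfl
  have hVc : IsMulCommutative V := Subgroup.isMulCommutative_closure hcomm
  have hVe : ∀ v ∈ V, v ^ 2 = 1 := by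
    intro v hv
    have hv' := hv
    rw [hV] at hv
    induction hv using Subgroup.closure_induction with
    | mem a ha =>
      rcases ha with ha | rfl
      · exact hWe a ha
      · exact hx
    | one => simp
    | mul a b ha hb iha ihb =>
      have h1 : Commute a b := congrArg Subtype.val (hVc.1.1 ⟨a, ha⟩ ⟨b, hb⟩)
      rw [h1.mul_pow, iha ha, ihb hb, one_mul]
    | inv a ha iha => rw [inv_pow, iha ha, inv_one]
  have hlt : W < V := by
    refine lt_of_le_of_ne ?_ ?_
    · intro w hw; exact subset_closure (Or.inl hw)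
    · intro h
      apply hcon
      rw [h]
      exact subset_closure (Or.inr rfl)
  have h3 : Nat.card W < Nat.card V :=
    Set.Finite.card_lt_card (Set.toFinite _) (show ((W : Subgroup X) : Set X) ⊂ V from hlt)
  have h4 := hrank4 V hVc hVe
  omega

end Cfsg.Agent.H62
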