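import Cfsg.Agent.H72.ClassSize
import Cfsg.Agent.H67.ConjCover
import Cfsg.Agent.Cop.Basic

set_option autoImplicit false
set_option linter.style.haveILetI false
set_option linter.unusedSectionVars false

/-!
# Class sizes of `p`-singular elements (helper62)
-/

namespace Cfsg.Agent.H62.SG

open Subgroup
open Cfsg.Agent.H72 (Cx mem_Cx Cl card_Cl mem_Cl_self conj_mem_Cl mem_Cl_conj Cx_index_eq_one_iff
  relIndex_eq_index_of_coprime inf_index_of_coprime exists_mul_of_coprime_index)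

universe u

variable {G : Type u} [Group G] [Finite G] {p : ℕ} [Fact p.Prime]

/-- A `p`-subgroup is conjugate into a subgroup of index prime to `p`. -/
theorem exists_conj_le {P : Subgroup G} (hP : IsPGroup p P) {H : Subgroup G} (hH : ¬ p ∣ H.index) :
    ∃ g : G, ∀ x ∈ P, g⁻¹ * x * g ∈ H := by
  have h1 : ¬ p ∣ Nat.card (G ⧸ H) := hH
  obtain ⟨q, hq⟩ := hP.nonempty_fixed_point_of_prime_not_dvd_card (G ⧸ H) h1
  induction q using QuotientGroup.induction_on with
  | H g =>
    refine ⟨g, fun x hx => ?_⟩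
    have h2 := hq ⟨x, hx⟩
    have h3 : ((x * g : G) : G ⧸ H) = (g : G ⧸ H) := h2
    have h4 := QuotientGroup.eq.1 h3.symm
    rwa [← mul_assoc] at h4

theorem cs_conj (b g : G) : (Cx (g * b * g⁻¹)).index = (Cx b).index := by
  rw [← card_Cl, ← card_Cl]
  congr 2
  ext u
  constructor
  · rintro ⟨h, rfl⟩
    exact ⟨h * g, by group⟩
  · rintro ⟨h, rfl⟩
    exact ⟨h * g⁻¹, by group⟩

theorem comm_all_aux {a b : G} {k : ℕ} (hb : orderOf b = p ^ k) (hm : ¬ p ∣ (Cx a).index)
    (hc : ((Cx a).index).Coprime (Cx b).index) (g : G) :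
    a * (g * b * g⁻¹) = (g * b * g⁻¹) * a := by
  have hP : IsPGroup p (zpowers b) := by
    apply IsPGroup.of_card (n := k)
    rw [Nat.card_zpowers, hb]
  obtain ⟨h, hh⟩ := exists_conj_le hP hm
  have h1 := hh b (mem_zpowers b)
  have h2 := mem_Cx.1 h1
  -- `b' = h⁻¹ b h` commutes with `a`
  have hc' : ((Cx a).index).Coprime (Cx (h⁻¹ * b * h)).index := by
    have := cs_conj b h⁻¹
    rw [inv_inv] at this
    rw [this]; exact hc
  obtain ⟨c, hca, d, hd, hcd⟩ := exists_mul_of_coprime_index hc' (g * h)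
  rw [mem_Cx] at hca hd
  have e : g * b * g⁻¹ = c * (h⁻¹ * b * h) * c⁻¹ := by
    have e1 : g = c * d * h⁻¹ := by rw [← hcd]; group
    calc g * b * g⁻¹ = c * (d * (h⁻¹ * b * h)) * d⁻¹ * c⁻¹ := by rw [e1]; group
      _ = c * ((h⁻¹ * b * h) * d) * d⁻¹ * c⁻¹ := by rw [hd]
      _ = _ := by group
  rw [e]
  have hca' : a * c = c * a := hca.symm
  have hca2 : c⁻¹ * a = a * c⁻¹ := by
    calc c⁻¹ * a = c⁻¹ * (a * c) * c⁻¹ := by group
      _ = c⁻¹ * (c * a) * c⁻¹ := by rw [hca']
      _ = _ := by group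
  calc a * (c * (h⁻¹ * b * h) * c⁻¹) = (a * c) * (h⁻¹ * b * h) * c⁻¹ := by group
    _ = c * (a * (h⁻¹ * b * h)) * c⁻¹ := by rw [hca']; group
    _ = c * ((h⁻¹ * b * h) * a) * c⁻¹ := by rw [← h2]
    _ = c * (h⁻¹ * b * h) * (a * c⁻¹) := by group
    _ = c * (h⁻¹ * b * h) * (c⁻¹ * a) := by rw [hca2]
    _ = _ := by group

/-- `p`-elements with coprime class sizes: all conjugates commute. -/
theorem comm_all {a b : G} {j k : ℕ} (ha : orderOf a = p ^ j) (hb : orderOf b = p ^ k)
    (hc : ((Cx a).index).Coprime (Cx b).index) (g : G) :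
    a * (g * b * g⁻¹) = (g * b * g⁻¹) * a := by
  by_cases hm : p ∣ (Cx a).index
  · have hn : ¬ p ∣ (Cx b).index := fun h =>
      (Fact.out : p.Prime).one_lt.ne' (Nat.dvd_one.1 (hc.gcd_eq_one ▸ Nat.dvd_gcd hm h))
    have h1 := comm_all_aux ha hn hc.symm g⁻¹
    rw [inv_inv] at h1
    calc a * (g * b * g⁻¹) = g * ((g⁻¹ * a * g) * b) * g⁻¹ := by group
      _ = g * (b * (g⁻¹ * a * g)) * g⁻¹ := by rw [h1]
      _ = _ := by group
  · exact comm_all_aux hb hm hc g

/-- The situation to be excluded. -/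
structure Ctx (p : ℕ) (a b : G) : Prop where
  ha : orderOf a = p
  hb : orderOf b = p
  hc : ((Cx a).index).Coprime (Cx b).index
  hlt : (Cx a).index < (Cx b).index
  ha1 : (Cx a).index ≠ 1
  U : ∀ w : G, p ∣ orderOf w → ((Cx w).index).Coprime (Cx a).index ∨ ((Cx w).index).Coprime (Cx b).index

variable {a b : G}

theorem Ctx.conj (h : Ctx p a b) (g k : G) : Ctx p (g * a * g⁻¹) (k * b * k⁻¹) := by
  refine ⟨?_, ?_, ?_, ?_, ?_, ?_⟩
  · rw [H67.orderOf_conj_eq]; exact h.ha
  · rw [H67.orderOf_conj_eq]; exact h.hb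
  · rw [cs_conj, cs_conj]; exact h.hc
  · rw [cs_conj, cs_conj]; exact h.hlt
  · rw [cs_conj]; exact h.ha1
  · intro w hw
    rw [cs_conj, cs_conj]; exact h.U w hw

theorem Ctx.comm (h : Ctx p a b) (g : G) : a * (g * b * g⁻¹) = (g * b * g⁻¹) * a :=
  comm_all (p := p) (j := 1) (k := 1) (by rw [pow_one]; exact h.ha) (by rw [pow_one]; exact h.hb) h.hc g

theorem Ctx.comm1 (h : Ctx p a b) : a * b = b * a := by
  have := h.comm 1
  simpa using this

theorem Ctx.order_mul (h : Ctx p a b) : orderOf (a * b) = p := by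
  apply orderOf_eq_prime
  · have hc : Commute a b := h.comm1
    rw [hc.mul_pow, ← h.ha, pow_orderOf_eq_one, h.ha, ← h.hb, pow_orderOf_eq_one, mul_one]
  · intro he
    have h1 : b = a⁻¹ := (inv_eq_of_mul_eq_one_right he).symm
    have h2 : Cx b = Cx a := by
      ext g
      rw [mem_Cx, mem_Cx, h1]
      constructor
      · intro hh
        calc g * a = a * (a⁻¹ * g) * a := by group
          _ = a * (g * a⁻¹) * a := by rw [hh]
          _ = _ := by group
      · intro hh
        calc g * a⁻¹ = a⁻¹ * (a * g) * a⁻¹ := by group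
          _ = a⁻¹ * (g * a) * a⁻¹ := by rw [hh]
          _ = _ := by group
    have := h.hlt
    rw [h2] at this
    exact lt_irrefl _ this

theorem Cx_mul_inf_left (a b : G) : Cx (a * b) ⊓ Cx a = Cx a ⊓ Cx b := by
  ext g
  rw [mem_inf, mem_inf, mem_Cx, mem_Cx, mem_Cx]
  constructor
  · rintro ⟨h1, h2⟩
    refine ⟨h2, ?_⟩
    calc g * b = a⁻¹ * (a * g) * b := by group
      _ = a⁻¹ * (g * a) * b := by rw [h2]
      _ = a⁻¹ * (g * (a * b)) := by group
      _ = a⁻¹ * (a * b * g) := by rw [h1]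
      _ = _ := by group
  · rintro ⟨h1, h2⟩
    refine ⟨?_, h1⟩
    calc g * (a * b) = (g * a) * b := by group
      _ = a * (g * b) := by rw [h1]; group
      _ = _ := by rw [h2]; group

theorem Ctx.cs_mul (h : Ctx p a b) : (Cx (a * b)).index = (Cx b).index := by
  have hab := h.comm1
  have e1 := Cx_mul_inf_left a b
  have e2 : Cx (a * b) ⊓ Cx b = Cx a ⊓ Cx b := by
    have := Cx_mul_inf_left b a
    rw [← hab] at this
    rw [this, inf_comm]
  have hmn := inf_index_of_coprime h.hc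
  have h1 : (Cx a).index * (Cx b).index ≤ (Cx (a * b)).index * (Cx a).index := by
    rw [← hmn, ← e1]; exact index_inf_le
  have h2 : (Cx a).index * (Cx b).index ≤ (Cx (a * b)).index * (Cx b).index := by
    rw [← hmn, ← e2]; exact index_inf_le
  have hm0 : 0 < (Cx a).index := Nat.pos_of_ne_zero index_ne_zero_of_finite
  have hn0 : 0 < (Cx b).index := Nat.pos_of_ne_zero index_ne_zero_of_finite
  have h3 : (Cx b).index ≤ (Cx (a * b)).index := by
    rw [mul_comm] at h1
    exact Nat.le_of_mul_le_mul_right h1 hm0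
  rcases h.U (a * b) (by rw [h.order_mul]) with hU | hU
  · have := inf_index_of_coprime hU
    rw [e1, hmn, mul_comm] at this
    exact (Nat.eq_of_mul_eq_mul_right hm0 this).symm
  · have := inf_index_of_coprime hU
    rw [e2, hmn] at this
    have h4 := Nat.eq_of_mul_eq_mul_right hn0 this
    have := h.hlt
    omega

/-- conjugates of `a` commute with each other -/
theorem Ctx.comm_aa (h : Ctx p a b) (g : G) : a * (g * a * g⁻¹) = (g * a * g⁻¹) * a := by
  have h1 : ∀ g, a * (g * (a * b) * g⁻¹) = (g * (a * b) * g⁻¹) * a := by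
    intro g
    apply comm_all (p := p) (j := 1) (k := 1)
    · rw [pow_one]; exact h.ha
    · rw [pow_one]; exact h.order_mul
    · rw [h.cs_mul]; exact h.hc
  have h2 := h1 g
  have h3 := h.comm g
  have e : g * a * g⁻¹ = (g * (a * b) * g⁻¹) * (g * b * g⁻¹)⁻¹ := by group
  have c1 : Commute a (g * (a * b) * g⁻¹) := h2
  have c2 : Commute a (g * b * g⁻¹) := h3
  have c3 : Commute a (g * a * g⁻¹) := by
    rw [e]; exact c1.mul_right c2.inv_right
  exact c3

/-- Step 3. -/
theorem Ctx.mul_mem_Cl (h : Ctx p a b) (g k : G) :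
    ∃ c : G, (g * a * g⁻¹)⁻¹ * a * (k * b * k⁻¹) = c * b * c⁻¹ := by
  have h' : Ctx p a (k * b * k⁻¹) := by
    have := h.conj 1 k
    simpa using this
  have hcs := h'.cs_mul
  have hc : ((Cx (a * (k * b * k⁻¹))).index).Coprime (Cx a).index := by
    rw [hcs]; exact h'.hc.symm
  obtain ⟨c, hc1, d, hd, e⟩ := exists_mul_of_coprime_index hc g
  rw [mem_Cx] at hc1 hd
  -- `g a g⁻¹ = c a c⁻¹`
  have e1 : g * a * g⁻¹ = c * a * c⁻¹ := by
    rw [e]
    calc c * d * a * (c * d)⁻¹ = c * (d * a) * d⁻¹ * c⁻¹ := by group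
      _ = c * (a * d) * d⁻¹ * c⁻¹ := by rw [hd]
      _ = _ := by group
  refine ⟨c * k, ?_⟩
  rw [e1]
  have e2 : a * (k * b * k⁻¹) = c * (a * (k * b * k⁻¹)) * c⁻¹ := by
    rw [hc1]; group
  calc (c * a * c⁻¹)⁻¹ * a * (k * b * k⁻¹) = (c * a * c⁻¹)⁻¹ * (a * (k * b * k⁻¹)) := by group
    _ = (c * a * c⁻¹)⁻¹ * (c * (a * (k * b * k⁻¹)) * c⁻¹) := by rw [← e2]
    _ = _ := by group

theorem Ctx.p_dvd (h : Ctx p a b) : p ∣ (Cx b).index := by
  classical
  -- some conjugate of `a` differs from `a`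
  have hne : ∃ g : G, g * a * g⁻¹ ≠ a := by
    by_contra hcon
    push Not at hcon
    apply h.ha1
    rw [Cx_index_eq_one_iff, mem_center_iff]
    intro g
    have := hcon g
    calc g * a = (g * a * g⁻¹) * g := by group
      _ = a * g := by rw [this]
  obtain ⟨g, hg⟩ := hne
  set y := (g * a * g⁻¹)⁻¹ * a with hy
  have hy1 : y ≠ 1 := by
    intro he
    apply hg
    rw [hy, inv_mul_eq_one] at he
    exact he
  have hyp : y ^ p = 1 := by
    have hcom : Commute (g * a * g⁻¹)⁻¹ a := by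
      have : Commute a (g * a * g⁻¹) := h.comm_aa g
      exact this.symm.inv_left
    rw [hy, hcom.mul_pow, inv_pow, conj_pow, ← h.ha, pow_orderOf_eq_one]
    group
  rw [← card_Cl]
  have := Fintype.ofFinite (Cl b)
  let f : Function.End (Cl b) := fun u => ⟨y * u.1, by
    obtain ⟨k, hk⟩ := u.2
    obtain ⟨c, hc⟩ := h.mul_mem_Cl g k
    refine ⟨c, ?_⟩
    have hk' : k * b * k⁻¹ = u.1 := hk
    show c * b * c⁻¹ = y * u.1
    rw [← hk', ← hc]⟩
  have hfn : ∀ (n : ℕ) (u : Cl b), ((f ^ n) u).1 = y ^ n * u.1 := by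
    intro n
    induction n with
    | zero => intro u; simp only [pow_zero, one_mul]; rfl
    | succ n ih =>
      intro u
      rw [pow_succ']
      show (f ((f ^ n) u)).1 = _
      have : (f ((f ^ n) u)).1 = y * ((f ^ n) u).1 := rfl
      rw [this, ih, pow_succ']
      group
  have hf : f ^ p ^ 1 = 1 := by
    rw [pow_one]
    funext u
    apply Subtype.ext
    rw [hfn, hyp, one_mul]
    rfl
  have h1 := Equiv.Perm.card_fixedPoints_modEq hf
  have h2 : Fintype.card f.fixedPoints = 0 := by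
    rw [Fintype.card_eq_zero_iff]
    constructor
    rintro ⟨u, hu⟩
    have hu' : f u = u := hu
    have : (f u).1 = u.1 := congrArg Subtype.val hu'
    have h3 : y * u.1 = u.1 := this
    exact hy1 (mul_eq_right.1 h3)
  rw [h2] at h1
  rw [Nat.card_eq_fintype_card]
  exact (Nat.modEq_zero_iff_dvd).1 h1

end Cfsg.Agent.H62.SG
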