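import Cfsg.Agent.H62.SG1

set_option autoImplicit false
set_option linter.style.haveILetI false
set_option linter.unusedSectionVars false

/-!
# Class sizes of `p`-singular elements, II (helper62)
-/

namespace Cfsg.Agent.H62.SG

open Subgroup
open Cfsg.Agent.H72 (Cx mem_Cx Cl card_Cl mem_Cl_self conj_mem_Cl mem_Cl_conj Cx_index_eq_one_iff
  relIndex_eq_index_of_coprime inf_index_of_coprime exists_mul_of_coprime_index)

universe u

variable {G : Type u} [Group G] [Finite G] {p : ℕ} [Fact p.Prime] {a b : G}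

theorem not_dvd_of_coprime {m n : ℕ} (h : m.Coprime n) (hn : p ∣ n) : ¬ p ∣ m := fun hm =>
  (Fact.out : p.Prime).one_lt.ne' (Nat.dvd_one.1 (h.gcd_eq_one ▸ Nat.dvd_gcd hm hn))

theorem Ctx.not_dvd (h : Ctx p a b) : ¬ p ∣ (Cx a).index := not_dvd_of_coprime h.hc h.p_dvd

theorem Ctx.comm_gen (h : Ctx p a b) (g k : G) : Commute (g * a * g⁻¹) (k * a * k⁻¹) := by
  have h1 : a * ((g⁻¹ * k) * a * (g⁻¹ * k)⁻¹) = ((g⁻¹ * k) * a * (g⁻¹ * k)⁻¹) * a := h.comm_aa _
  show g * a * g⁻¹ * (k * a * k⁻¹) = k * a * k⁻¹ * (g * a * g⁻¹)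
  calc g * a * g⁻¹ * (k * a * k⁻¹) = g * (a * ((g⁻¹ * k) * a * (g⁻¹ * k)⁻¹)) * g⁻¹ := by group
    _ = g * (((g⁻¹ * k) * a * (g⁻¹ * k)⁻¹) * a) * g⁻¹ := by rw [h1]
    _ = _ := by group

/-- The normal closure of `a`. -/
def NA (a : G) : Subgroup G := closure (Set.range (fun g : G => g * a * g⁻¹))

theorem mem_NA (a g : G) : g * a * g⁻¹ ∈ NA a := subset_closure ⟨g, rfl⟩

theorem conj_mem_NA {a x : G} (hx : x ∈ NA a) (g : G) : g * x * g⁻¹ ∈ NA a := by
  induction hx using closure_induction with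
  | mem y hy =>
    obtain ⟨k, rfl⟩ := hy
    have : g * (k * a * k⁻¹) * g⁻¹ = (g * k) * a * (g * k)⁻¹ := by group
    show g * (k * a * k⁻¹) * g⁻¹ ∈ NA a
    rw [this]
    exact mem_NA a _
  | one => simp
  | mul y z _ _ h1 h2 =>
    have : g * (y * z) * g⁻¹ = (g * y * g⁻¹) * (g * z * g⁻¹) := by group
    rw [this]; exact mul_mem h1 h2
  | inv y _ h1 =>
    have : g * y⁻¹ * g⁻¹ = (g * y * g⁻¹)⁻¹ := by group
    rw [this]; exact inv_mem h1

theorem Ctx.NA_comm (h : Ctx p a b) {x y : G} (hx : x ∈ NA a) (hy : y ∈ NA a) : Commute x y := by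
  have h1 : ∀ k : G, Commute x (k * a * k⁻¹) := by
    intro k
    induction hx using closure_induction with
    | mem z hz =>
      obtain ⟨g, rfl⟩ := hz
      exact h.comm_gen g k
    | one => exact Commute.one_left _
    | mul z w _ _ h1 h2 => exact h1.mul_left h2
    | inv z _ h1 => exact h1.inv_left
  induction hy using closure_induction with
  | mem z hz =>
    obtain ⟨g, rfl⟩ := hz
    exact h1 g
  | one => exact Commute.one_right _
  | mul z w _ _ h1 h2 => exact h1.mul_right h2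
  | inv z _ h1 => exact h1.inv_right

theorem Ctx.NA_pow (h : Ctx p a b) {x : G} (hx : x ∈ NA a) : x ^ p = 1 := by
  induction hx using closure_induction with
  | mem z hz =>
    obtain ⟨g, rfl⟩ := hz
    show (g * a * g⁻¹) ^ p = 1
    rw [conj_pow, ← h.ha, pow_orderOf_eq_one]; group
  | one => exact one_pow _
  | mul z w hz hw h1 h2 =>
    rw [(h.NA_comm hz hw).mul_pow, h1, h2, one_mul]
  | inv z _ h1 => rw [inv_pow, h1, inv_one]

theorem Ctx.NA_pgroup (h : Ctx p a b) : IsPGroup p (NA a) := by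
  intro x
  refine ⟨1, ?_⟩
  apply Subtype.ext
  rw [pow_one]
  exact h.NA_pow x.2

theorem Ctx.cent_of_not_dvd (h : Ctx p a b) {u : G} (hu : ¬ p ∣ (Cx u).index) (g : G) :
    Commute u (g * a * g⁻¹) := by
  obtain ⟨k, hk⟩ := exists_conj_le h.NA_pgroup hu
  have h1 := hk (k * (g * a * g⁻¹) * k⁻¹) (conj_mem_NA (mem_NA a g) k)
  have e : k⁻¹ * (k * (g * a * g⁻¹) * k⁻¹) * k = g * a * g⁻¹ := by group
  rw [e, mem_Cx] at h1
  exact h1.symm

/-- Every `p`-element centralizes the conjugates of `a`. -/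
theorem Ctx.cent_of_pElement (h : Ctx p a b) {u : G} {k : ℕ} (hu : orderOf u = p ^ k) (g : G) :
    Commute u (g * a * g⁻¹) := by
  rcases Nat.eq_zero_or_pos k with hk | hk
  · rw [hk, pow_zero, orderOf_eq_one_iff] at hu
    rw [hu]; exact Commute.one_left _
  rcases h.U u (by rw [hu]; exact dvd_pow_self p hk.ne') with hU | hU
  · have h1 := comm_all (p := p) (j := 1) (k := k) (by rw [pow_one]; exact h.ha) hu hU.symm g⁻¹
    rw [inv_inv] at h1
    show u * (g * a * g⁻¹) = (g * a * g⁻¹) * u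
    calc u * (g * a * g⁻¹) = g * ((g⁻¹ * u * g) * a) * g⁻¹ := by group
      _ = g * (a * (g⁻¹ * u * g)) * g⁻¹ := by rw [h1]
      _ = _ := by group
  · exact h.cent_of_not_dvd (not_dvd_of_coprime hU h.p_dvd) g

theorem Cx_le_of_mem_zpowers {w z : G} (h : z ∈ zpowers w) : Cx w ≤ Cx z := by
  intro g hg
  rw [mem_Cx] at hg ⊢
  obtain ⟨n, rfl⟩ := h
  exact ((show Commute g w from hg).zpow_right n)

theorem Ctx.not_dvd_of_coprime_order (h : Ctx p a b) {x : G} (hx : x ∈ Cx a)
    (hcop : (orderOf x).Coprime p) : ¬ p ∣ (Cx x).index := by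
  have hax : Commute a x := ((mem_Cx.1 hx : x * a = a * x)).symm
  have hco : (orderOf a).Coprime (orderOf x) := by rw [h.ha]; exact hcop.symm
  have hord := hax.orderOf_mul_eq_mul_orderOf_of_coprime hco
  have ha' : a ∈ zpowers (a * x) := by
    have h1 := H67.mem_zpowers_pow_of_coprime hco
    have h2 : (a * x) ^ orderOf x = a ^ orderOf x := by
      rw [hax.mul_pow, pow_orderOf_eq_one, mul_one]
    rw [← h2] at h1
    exact (zpowers_le.2 (pow_mem (mem_zpowers (a * x)) _)) h1
  have hx' : x ∈ zpowers (a * x) := by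
    have h1 := H67.mem_zpowers_pow_of_coprime hco.symm
    have h2 : (a * x) ^ orderOf a = x ^ orderOf a := by
      rw [hax.mul_pow, pow_orderOf_eq_one, one_mul]
    rw [← h2] at h1
    exact (zpowers_le.2 (pow_mem (mem_zpowers (a * x)) _)) h1
  have hd1 : (Cx a).index ∣ (Cx (a * x)).index := index_dvd_of_le (Cx_le_of_mem_zpowers ha')
  have hd2 : (Cx x).index ∣ (Cx (a * x)).index := index_dvd_of_le (Cx_le_of_mem_zpowers hx')
  rcases h.U (a * x) (by rw [hord, h.ha]; exact dvd_mul_right _ _) with hU | hU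
  · exfalso
    apply h.ha1
    exact Nat.eq_one_of_dvd_coprimes hU hd1 dvd_rfl
  · exact fun hp => not_dvd_of_coprime hU h.p_dvd (hp.trans hd2)

/-- Elements of `C(a)` centralize all the conjugates of `a`. -/
theorem Ctx.cent_all (h : Ctx p a b) {x : G} (hx : x ∈ Cx a) (g : G) : Commute x (g * a * g⁻¹) := by
  have hp : p.Prime := Fact.out
  obtain ⟨k, m, hm, hkm⟩ := Nat.exists_eq_pow_mul_and_not_dvd (orderOf_pos x).ne' p hp.one_lt.ne'
  have hcop : (p ^ k).Coprime m := Nat.Coprime.pow_left k ((Nat.Prime.coprime_iff_not_dvd hp).mpr hm)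
  obtain ⟨i, j, hg, hi, hj⟩ := H67.exists_decomp x (p ^ k) m hkm hcop
  have h1 : Commute (x ^ i) (g * a * g⁻¹) := h.cent_of_pElement hi g
  have h2 : Commute (x ^ j) (g * a * g⁻¹) := by
    apply h.cent_of_not_dvd
    apply h.not_dvd_of_coprime_order (pow_mem hx _)
    rw [hj]; exact ((Nat.Prime.coprime_iff_not_dvd hp).mpr hm).symm
  rw [hg]
  exact h1.mul_left h2

theorem Ctx.normal (h : Ctx p a b) : (Cx a).Normal := by
  constructor
  intro x hx g
  rw [mem_Cx]
  have h1 := h.cent_all hx g⁻¹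
  rw [inv_inv] at h1
  have h2 : x * (g⁻¹ * a * g) = (g⁻¹ * a * g) * x := h1
  calc g * x * g⁻¹ * a = g * (x * (g⁻¹ * a * g)) * g⁻¹ := by group
    _ = g * ((g⁻¹ * a * g) * x) * g⁻¹ := by rw [h2]
    _ = _ := by group

/-- Every `p`-element lies in `C(a)`. -/
theorem Ctx.mem_of_pElement (h : Ctx p a b) {u : G} {k : ℕ} (hu : orderOf u = p ^ k) : u ∈ Cx a := by
  rw [mem_Cx]
  have := h.cent_of_pElement hu 1
  simpa using this.eq

/-- Step 5: a normal Sylow `p`-subgroup `S` with `C(a) = S C(S)`. -/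
theorem Ctx.exists_sylow (h : Ctx p a b) : ∃ S : Subgroup G, S.Normal ∧ IsPGroup p S ∧ ¬ p ∣ S.index ∧
    S ≤ Cx a ∧ Cx a ≤ S ⊔ (Cx a ⊓ centralizer (S : Set G)) := by
  have hKn := h.normal
  let P : Sylow p (Cx a) := default
  have hcov := H67.sylow_sup_centralizer_eq_top (p := p) (G := Cx a) (by
    intro x hx
    rw [H67.ncard_carrier_eq_index]
    have hx' : ¬ p ∣ (Cx (x : G)).index := by
      apply h.not_dvd_of_coprime_order x.2
      rw [orderOf_coe]; exact hx
    -- the index of `C(x)` in `C(a)`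
    have e : centralizer ({x} : Set (Cx a)) = (Cx (x : G)).subgroupOf (Cx a) := by
      ext y
      rw [mem_centralizer_singleton_iff, mem_subgroupOf, mem_Cx]
      constructor
      · intro hh; exact congrArg Subtype.val hh
      · intro hh; exact Subtype.ext hh
    rw [e]
    intro hd
    have hd' : p ∣ (Cx (x : G)).relIndex (Cx a) := hd
    have h1 : (Cx (x : G) ⊓ Cx a).relIndex (Cx a) * (Cx a).index = (Cx (x : G) ⊓ Cx a).index :=
      relIndex_mul_index inf_le_right
    have h2 : (Cx (x : G) ⊓ Cx a).relIndex (Cx (x : G)) * (Cx (x : G)).index =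
        (Cx (x : G) ⊓ Cx a).index := relIndex_mul_index inf_le_left
    rw [inf_relIndex_right] at h1
    rw [inf_relIndex_left] at h2
    have h3 : (Cx a).relIndex (Cx (x : G)) ∣ (Cx a).index := relIndex_dvd_index_of_normal _ _
    have h4 : p ∣ (Cx a).relIndex (Cx (x : G)) * (Cx (x : G)).index := by
      rw [h2, ← h1]; exact hd'.mul_right _
    rcases (Fact.out : p.Prime).dvd_mul.1 h4 with h5 | h5
    · exact h.not_dvd (h5.trans h3)
    · exact hx' h5) P
  have hPn : (P : Subgroup (Cx a)).Normal := by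
    rw [← normalizer_eq_top_iff, eq_top_iff, ← hcov]
    apply sup_le le_normalizer
    intro x hx
    rw [mem_normalizer_iff]
    intro y
    rw [mem_centralizer_iff] at hx
    constructor
    · intro hy
      have : x * y * x⁻¹ = y := by rw [← hx y hy]; group
      rw [this]; exact hy
    · intro hy
      have h1 := hx _ hy
      have : x * y * x⁻¹ = y := by
        have h2 : x * y * x⁻¹ * x = x * (x * y * x⁻¹) := h1
        calc x * y * x⁻¹ = x⁻¹ * (x * (x * y * x⁻¹)) := by group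
          _ = x⁻¹ * (x * y * x⁻¹ * x) := by rw [h2]
          _ = y := by group
      rw [← this]; exact hy
  have hPc : (P : Subgroup (Cx a)).Characteristic := P.characteristic_of_normal hPn
  refine ⟨(P : Subgroup (Cx a)).map (Cx a).subtype, inferInstance, P.2.map _, ?_, ?_, ?_⟩
  · rw [index_map_subtype, (Fact.out : p.Prime).dvd_mul, not_or]
    exact ⟨P.not_dvd_index, h.not_dvd⟩
  · exact map_subtype_le _
  · intro x hx
    have h1 : (⟨x, hx⟩ : Cx a) ∈ (P : Subgroup (Cx a)) ⊔ centralizer ((P : Subgroup (Cx a)) : Set (Cx a)) := by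
      rw [hcov]; exact mem_top _
    have h2 : x ∈ ((P : Subgroup (Cx a)) ⊔ centralizer ((P : Subgroup (Cx a)) : Set (Cx a))).map
        (Cx a).subtype := ⟨⟨x, hx⟩, h1, rfl⟩
    rw [Subgroup.map_sup] at h2
    have h3 : (centralizer ((P : Subgroup (Cx a)) : Set (Cx a))).map (Cx a).subtype ≤
        Cx a ⊓ centralizer (((P : Subgroup (Cx a)).map (Cx a).subtype : Subgroup G) : Set G) := by
      rintro _ ⟨y, hy, rfl⟩
      refine mem_inf.2 ⟨y.2, ?_⟩
      rw [mem_centralizer_iff]
      rintro _ ⟨z, hz, rfl⟩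
      have h3 := (mem_centralizer_iff.1 hy) z hz
      exact congrArg Subtype.val h3
    have h4 := sup_le_sup_left h3 ((P : Subgroup (Cx a)).map (Cx a).subtype)
    exact h4 h2

end Cfsg.Agent.H62.SG
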