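import Cfsg.Agent.H62.SG2

set_option autoImplicit false
set_option linter.style.haveILetI false
set_option linter.unusedSectionVars false

/-!
# Class sizes of `p`-singular elements, III (helper62)
-/

namespace Cfsg.Agent.H62.SG

open Subgroup
open scoped Pointwise
open Cfsg.Agent.H72 (Cx mem_Cx Cl card_Cl mem_Cl_self conj_mem_Cl mem_Cl_conj Cx_index_eq_one_iff
  relIndex_eq_index_of_coprime inf_index_of_coprime exists_mul_of_coprime_index)

universe u

variable {G : Type u} [Group G] [Finite G] {p : ℕ} [Fact p.Prime] {a b : G}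

/-- A noncentral element of the normal Sylow `p`-subgroup has class size a power of `p`. -/
theorem Ctx.cs_pow (h : Ctx p a b) {S : Subgroup G} (hSn : S.Normal) (hSp : IsPGroup p S)
    (hK : Cx a ≤ S ⊔ (Cx a ⊓ centralizer (S : Set G))) {u : G} (huS : u ∈ S)
    (hu : u ∉ centralizer (S : Set G)) : ∃ k, (Cx u).index = p ^ k := by
  have hp : p.Prime := Fact.out
  have hKn := h.normal
  obtain ⟨s, hs⟩ := IsPGroup.iff_card.1 hSp
  -- `p` divides the class size
  have h1 : p ∣ (Cx u).index := by
    by_contra hcon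
    obtain ⟨g, hg⟩ := exists_conj_le hSp hcon
    apply hu
    rw [mem_centralizer_iff]
    intro x hx
    have h2 := hg (g * x * g⁻¹) (hSn.conj_mem x hx g)
    have e : g⁻¹ * (g * x * g⁻¹) * g = x := by group
    rw [e, mem_Cx] at h2
    exact h2
  have hpu : p ∣ orderOf u := by
    obtain ⟨k, hk⟩ := (IsPGroup.iff_orderOf.1 hSp) ⟨u, huS⟩
    rw [← orderOf_coe] at hk
    have hk' : orderOf u = p ^ k := hk
    rcases Nat.eq_zero_or_pos k with h0 | h0
    · exfalso
      apply hu
      rw [h0, pow_zero, orderOf_eq_one_iff] at hk'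
      rw [hk']; exact one_mem _
    · rw [hk']; exact dvd_pow_self p h0.ne'
  have hcop : ((Cx u).index).Coprime (Cx a).index := by
    rcases h.U u hpu with hU | hU
    · exact hU
    · exact absurd h1 (not_dvd_of_coprime hU h.p_dvd)
  -- the index of `D = C(a) ⊓ C(S)`
  set D := Cx a ⊓ centralizer (S : Set G) with hD
  have hDn : D.Normal := inferInstance
  have hDu : D ≤ Cx u := by
    intro x hx
    have h2 := (mem_inf.1 hx).2
    rw [mem_centralizer_iff] at h2
    rw [mem_Cx]
    exact (h2 u huS).symm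
  have h3 : (Cx u).index ∣ D.index := index_dvd_of_le hDu
  have h4 : D.relIndex (S ⊔ D) * (S ⊔ D).index = D.index := relIndex_mul_index le_sup_right
  rw [relIndex_sup_right] at h4
  have h5 : (S ⊔ D).index ∣ (Cx a).index := index_dvd_of_le hK
  have h6 : D.relIndex S ∣ p ^ s := by
    rw [← hs]; exact relIndex_dvd_card D S
  have h7 : (Cx u).index ∣ p ^ s * (Cx a).index := h3.trans (h4 ▸ mul_dvd_mul h6 h5)
  have h8 : (Cx u).index ∣ p ^ s := hcop.dvd_of_dvd_mul_right h7
  obtain ⟨k, _, hk⟩ := (Nat.dvd_prime_pow hp).1 h8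
  exact ⟨k, hk⟩

/-- If `S` is a normal Sylow `p`-subgroup with complement `H` and the class size of `u ∈ S` is a
power of `p`, then a conjugate of `u` in `S` centralizes `H`. -/
theorem exists_conj_cent {S H : Subgroup G} (hSn : S.Normal) (hSp : IsPGroup p S) (hSi : ¬ p ∣ S.index)
    (hH : S.IsComplement' H) {u : G} {k : ℕ} (hu : (Cx u).index = p ^ k) :
    ∃ n ∈ S, n⁻¹ * u * n ∈ centralizer (H : Set G) := by
  have hp : p.Prime := Fact.out
  obtain ⟨s, hs⟩ := IsPGroup.iff_card.1 hSp
  set C := Cx u with hC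
  have hn : (S.subgroupOf C).Normal := inferInstance
  have hSC : Nat.card (S.subgroupOf C) ∣ p ^ s := by
    rw [← hs]
    have := Subgroup.card_dvd_of_injective ((Subgroup.inclusion (inf_le_left : S ⊓ C ≤ S)))
      (Subgroup.inclusion_injective _)
    have e : Nat.card (S.subgroupOf C) = Nat.card (S ⊓ C : Subgroup G) := by
      rw [← inf_subgroupOf_right]
      exact Nat.card_congr (Subgroup.subgroupOfEquivOfLe inf_le_right).toEquiv
    rw [e]; exact this
  obtain ⟨t, _, ht⟩ := (Nat.dvd_prime_pow hp).1 hSC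
  have hidx : (S.subgroupOf C).index ∣ S.index := relIndex_dvd_index_of_normal _ _
  have hpi : ¬ p ∣ (S.subgroupOf C).index := fun hd => hSi (hd.trans hidx)
  have hcop1 : (Nat.card (S.subgroupOf C)).Coprime (S.subgroupOf C).index := by
    rw [ht]; exact Nat.Coprime.pow_left _ ((Nat.Prime.coprime_iff_not_dvd hp).2 hpi)
  obtain ⟨H₁, hH₁⟩ := exists_right_complement'_of_coprime hcop1
  have c1 : Nat.card H₁ = (S.subgroupOf C).index := (hH₁.symm.index_eq_card).symm
  have c2 : Nat.card H = S.index := (hH.symm.index_eq_card).symm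
  have e1 : Nat.card (S.subgroupOf C) * (S.subgroupOf C).index = Nat.card C := card_mul_index _
  have e2 : Nat.card C * C.index = Nat.card G := card_mul_index _
  have e3 : Nat.card S * S.index = Nat.card G := card_mul_index _
  have hcard : Nat.card H₁ = Nat.card H := by
    rw [c1, c2]
    apply Nat.dvd_antisymm hidx
    have : S.index ∣ (p ^ t * p ^ k) * (S.subgroupOf C).index := by
      refine ⟨p ^ s, ?_⟩
      rw [← hs, mul_comm S.index, e3, ← e2, ← e1, ht, hu]; ring
    refine Nat.Coprime.dvd_of_dvd_mul_left ?_ this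
    rw [← pow_add]
    exact Nat.Coprime.pow_right _ ((Nat.Prime.coprime_iff_not_dvd hp).2 hSi).symm
  have hcard' : Nat.card (H₁.map C.subtype) = Nat.card H := by
    rw [Cop.card_map_subtype]; exact hcard
  have hsol : Group.IsSolvable S := by
    have : Group.IsNilpotent S := hSp.isNilpotent
    infer_instance
  have hcop2 : (Nat.card S).Coprime (Nat.card H) := by
    rw [hs, c2]
    exact Nat.Coprime.pow_left _ ((Nat.Prime.coprime_iff_not_dvd hp).2 hSi)
  obtain ⟨n, hnS, hnH⟩ := Cop.sz_rel (N := S) (A := H) (B := H₁.map C.subtype)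
    (by rw [normalizer_eq_top]; exact le_top)
    (by rw [hH.sup_eq_top]; exact le_top) hcard' hcop2 (Or.inl hsol)
  refine ⟨n, hnS, ?_⟩
  rw [mem_centralizer_iff]
  intro x hx
  have h1 : n * x * n⁻¹ ∈ H₁.map C.subtype := by
    rw [← hnH]
    exact smul_mem_pointwise_smul x (MulAut.conj n) H hx
  have h2 : n * x * n⁻¹ ∈ C := map_subtype_le _ h1
  rw [hC, mem_Cx] at h2
  calc x * (n⁻¹ * u * n) = n⁻¹ * (n * x * n⁻¹ * u) * n := by group
    _ = n⁻¹ * (u * (n * x * n⁻¹)) * n := by rw [h2]
    _ = _ := by group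

/-- The situation `Ctx` is impossible if `p` does not divide `|Z(G)|`. -/
theorem Ctx.false (h : Ctx p a b) (hZ : ¬ p ∣ Nat.card (center G)) : False := by
  have hp : p.Prime := Fact.out
  obtain ⟨S, hSn, hSp, hSi, _, hK⟩ := h.exists_sylow
  obtain ⟨s, hs⟩ := IsPGroup.iff_card.1 hSp
  have hcop1 : (Nat.card S).Coprime S.index := by
    rw [hs]; exact Nat.Coprime.pow_left _ ((Nat.Prime.coprime_iff_not_dvd hp).2 hSi)
  obtain ⟨H, hH⟩ := exists_right_complement'_of_coprime hcop1
  set R := S ⊓ centralizer (H : Set G) with hR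
  set Z := S ⊓ centralizer (S : Set G) with hZd
  -- `S = R Z`
  have hSRZ : S ≤ R ⊔ Z := by
    have h1 : (R ⊔ Z).subgroupOf S = ⊤ := by
      apply H67.eq_top_of_conj_cover
      rintro ⟨u, hu⟩
      by_cases huZ : u ∈ centralizer (S : Set G)
      · refine ⟨1, ?_⟩
        rw [mem_subgroupOf]
        have e : ((1 * ⟨u, hu⟩ * 1⁻¹ : S) : G) = u := by simp
        rw [e]
        exact (le_sup_right : Z ≤ R ⊔ Z) ⟨hu, huZ⟩
      · obtain ⟨k, hk⟩ := h.cs_pow hSn hSp hK hu huZ
        obtain ⟨n, hn, hn2⟩ := exists_conj_cent hSn hSp hSi hH hk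
        refine ⟨⟨n⁻¹, inv_mem hn⟩, ?_⟩
        rw [mem_subgroupOf]
        have e : ((⟨n⁻¹, inv_mem hn⟩ * ⟨u, hu⟩ * (⟨n⁻¹, inv_mem hn⟩ : S)⁻¹ : S) : G) = n⁻¹ * u * n := by
          show n⁻¹ * u * (n⁻¹)⁻¹ = _
          rw [inv_inv]
        rw [e]
        exact (le_sup_left : R ≤ R ⊔ Z) (mem_inf.2 ⟨mul_mem (mul_mem (inv_mem hn) hu) hn, hn2⟩)
    exact subgroupOf_eq_top.1 h1
  -- `R ∩ Z = 1`
  have hRZ : ∀ x ∈ R, x ∈ centralizer (S : Set G) → x = 1 := by
    intro x hx hxS
    by_contra hne
    apply hZ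
    have hc : x ∈ center G := by
      rw [← centralizer_univ, ← coe_top, ← hH.sup_eq_top]
      have h1 : S ⊔ H ≤ centralizer ({x} : Set G) := by
        apply sup_le
        · intro y hy
          rw [mem_centralizer_singleton_iff]
          exact (mem_centralizer_iff.1 hxS) y hy
        · intro y hy
          rw [mem_centralizer_singleton_iff]
          exact (mem_centralizer_iff.1 hx.2) y hy
      rw [mem_centralizer_iff]
      intro y hy
      exact mem_centralizer_singleton_iff.1 (h1 hy)
    obtain ⟨k, hk⟩ := (IsPGroup.iff_orderOf.1 hSp) ⟨x, hx.1⟩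
    rw [← orderOf_coe] at hk
    have hk' : orderOf x = p ^ k := hk
    have hk0 : k ≠ 0 := by
      rintro rfl
      rw [pow_zero, orderOf_eq_one_iff] at hk'
      exact hne hk'
    have h2 : orderOf (⟨x, hc⟩ : center G) ∣ Nat.card (center G) := orderOf_dvd_natCard _
    rw [← orderOf_coe] at h2
    have h3 : orderOf x ∣ Nat.card (center G) := h2
    rw [hk'] at h3
    exact (dvd_pow_self p hk0).trans h3
  -- `Z(R) = 1`, hence `R = 1`
  have hRbot : R = ⊥ := by
    by_contra hne
    have hnt : Nontrivial R := (nontrivial_iff_ne_bot R).2 hne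
    have hRp : IsPGroup p R := hSp.to_le inf_le_left
    have := hRp.center_nontrivial
    obtain ⟨⟨x, hxc⟩, hx1⟩ := exists_ne (1 : center R)
    apply hx1
    apply Subtype.ext
    apply Subtype.ext
    apply hRZ (x : G) x.2
    have h1 : R ⊔ Z ≤ centralizer ({(x : G)} : Set G) := by
      apply sup_le
      · intro y hy
        rw [mem_centralizer_singleton_iff]
        have := mem_center_iff.1 hxc ⟨y, hy⟩
        exact congrArg Subtype.val this
      · intro y hy
        rw [mem_centralizer_singleton_iff]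
        exact ((mem_centralizer_iff.1 hy.2) x x.2.1).symm
    rw [mem_centralizer_iff]
    intro y hy
    exact mem_centralizer_singleton_iff.1 (h1 (hSRZ hy))
  -- `S` is abelian: contradiction
  rw [hRbot, bot_sup_eq] at hSRZ
  have hbS : b ∈ S := by
    have hP : IsPGroup p (zpowers b) := by
      apply IsPGroup.of_card (n := 1)
      rw [Nat.card_zpowers, h.hb, pow_one]
    obtain ⟨g, hg⟩ := exists_conj_le hP hSi
    have h1 := hg b (mem_zpowers b)
    have h2 := hSn.conj_mem _ h1 g
    have e : g * (g⁻¹ * b * g) * g⁻¹ = b := by group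
    rwa [e] at h2
  have h1 : S ≤ Cx b := by
    intro x hx
    rw [mem_Cx]
    exact ((mem_centralizer_iff.1 (hSRZ hx).2) b hbS).symm
  exact hSi (h.p_dvd.trans (index_dvd_of_le h1))

/-- Lemma E. -/
theorem exists_link (hZ : ¬ p ∣ Nat.card (center G)) {a b : G} (ha : orderOf a = p) (hb : orderOf b = p)
    (hc : ((Cx a).index).Coprime (Cx b).index) :
    ∃ w : G, p ∣ orderOf w ∧ ¬ ((Cx w).index).Coprime (Cx a).index ∧
      ¬ ((Cx w).index).Coprime (Cx b).index := by
  by_contra hcon
  have U : ∀ w : G, p ∣ orderOf w →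
      ((Cx w).index).Coprime (Cx a).index ∨ ((Cx w).index).Coprime (Cx b).index := by
    intro w hw
    by_contra h
    rw [not_or] at h
    exact hcon ⟨w, hw, h.1, h.2⟩
  have hnc : ∀ x : G, orderOf x = p → (Cx x).index ≠ 1 := by
    intro x hx h1
    rw [Cx_index_eq_one_iff] at h1
    apply hZ
    have h2 : orderOf (⟨x, h1⟩ : center G) ∣ Nat.card (center G) := orderOf_dvd_natCard _
    rw [← orderOf_coe] at h2
    have h3 : orderOf x ∣ Nat.card (center G) := h2
    rwa [hx] at h3
  rcases lt_trichotomy (Cx a).index (Cx b).index with hlt | heq | hlt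
  · exact (Ctx.mk ha hb hc hlt (hnc a ha) U).false hZ
  · rw [heq, Nat.coprime_self] at hc
    exact hnc b hb hc
  · exact (Ctx.mk hb ha hc.symm hlt (hnc b hb) (fun w hw => (U w hw).symm)).false hZ

end Cfsg.Agent.H62.SG
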