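import Cfsg.Agent.H62.SL2Elem
import Cfsg.Agent.H62.SL23Rec
import Cfsg.Agent.Cop.MinAct

set_option autoImplicit false
set_option linter.style.haveILetI false
set_option linter.unusedSectionVars false

/-!
`p`-elements of `SL₂(F)` normalizing `p'`-subgroups.
-/

namespace Cfsg.Agent.H62

open Subgroup
open scoped Pointwise commutatorElement

variable {F : Type} [Field F] [Fintype F] {p : ℕ} [hp : Fact p.Prime] [CharP F p]

theorem two_ne_zero_of_char (hp2 : p ≠ 2) : (2 : F) ≠ 0 := by
  intro h
  have h1 : ((2 : ℕ) : F) = 0 := by exact_mod_cast h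
  have h2 : p ∣ 2 := (CharP.cast_eq_zero_iff F p 2).1 h1
  exact hp2 ((Nat.prime_dvd_prime_iff_eq hp.out Nat.prime_two).1 h2)

theorem neg_one_mem_center (x : SL2 F) : (-1 : SL2 F) * x = x * (-1) := by simp

theorem sl2_one_ne_neg_one (h2 : (2 : F) ≠ 0) : (1 : SL2 F) ≠ -1 := by
  intro h
  have := congrArg (fun z : SL2 F => z.1 0 0) h
  simp at this
  exact h2 (by linear_combination this)

/-- the set-up: `a` is a nontrivial `p`-element -/
theorem pm_one_of_mem (hp2 : p ≠ 2) {a : SL2 F} {k : ℕ} (ha : a ^ p ^ k = 1) (ha1 : a ≠ 1)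
    {x : SL2 F} (hx : (orderOf x).Coprime p) (hc : x ∈ centralizer (zpowers a : Set (SL2 F))) :
    x = 1 ∨ x = -1 :=
  eq_pm_one_of_commute (p := p) (two_ne_zero_of_char hp2) hx ha ha1
    (mem_centralizer_iff.1 hc a (mem_zpowers a)).symm

theorem odd_orderOf (hp2 : p ≠ 2) {a : SL2 F} {k : ℕ} (ha : a ^ p ^ k = 1) : Odd (orderOf a) := by
  have h1 : orderOf a ∣ p ^ k := orderOf_dvd_of_pow_eq_one ha
  exact ((hp.out.odd_of_ne_two hp2).pow).of_dvd_nat h1

theorem special_of_commutator_eq (hp2 : p ≠ 2) {a : SL2 F} {k : ℕ} (ha : a ^ p ^ k = 1)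
    {q : ℕ} [hq : Fact q.Prime] (hqp : q ≠ p) {S : Subgroup (SL2 F)} (hS : IsPGroup q S)
    (haS : zpowers a ≤ normalizer (S : Set (SL2 F))) (hSa : ⁅S, zpowers a⁆ = S) :
    Cfsg.IsSpecial q S ∧ (center S).map S.subtype = S ⊓ centralizer (zpowers a : Set (SL2 F)) := by
  have hord : ∀ x ∈ S, (orderOf x).Coprime p := by
    intro x hx
    obtain ⟨m, hm⟩ := IsPGroup.iff_orderOf.1 hS ⟨x, hx⟩
    rw [Subgroup.orderOf_mk] at hm
    rw [hm]
    exact Nat.Coprime.pow_left _ ((Nat.coprime_primes hq.out hp.out).2 hqp)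
  apply Cop.special_of_invariant_abelian hS haS _ hSa
  · intro U hUS hUc hUN
    rw [zpowers_le]
    rw [mem_centralizer_iff]
    intro x hx
    have hx' : a * x * a⁻¹ ∈ U := (mem_normalizer_iff.1 (hUN (haS (mem_zpowers a))) x).1 hx
    have h1 : x * (a * x * a⁻¹) = (a * x * a⁻¹) * x :=
      congrArg Subtype.val (hUc.1.1 ⟨x, hx⟩ ⟨_, hx'⟩)
    exact (commute_of_commute_conj (p := p) (two_ne_zero_of_char hp2) (hord x (hUS hx))
      (odd_orderOf hp2 ha) h1).symm
  · rw [Nat.card_zpowers]
    exact Nat.Coprime.coprime_dvd_left (orderOf_dvd_of_pow_eq_one ha)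
      (Nat.Coprime.pow_left _ ((Nat.coprime_primes hp.out hq.out).2 hqp.symm))

theorem exists_center_of_commutator_eq (hp2 : p ≠ 2) {a : SL2 F} {k : ℕ} (ha : a ^ p ^ k = 1)
    (ha1 : a ≠ 1) {q : ℕ} [hq : Fact q.Prime] (hqp : q ≠ p) {S : Subgroup (SL2 F)} (hS : IsPGroup q S)
    (haS : zpowers a ≤ normalizer (S : Set (SL2 F))) (hSa : ⁅S, zpowers a⁆ = S) (hSbot : S ≠ ⊥) :
    (-1 : SL2 F) ∈ S ∧ q = 2 := by
  have hord : ∀ x ∈ S, (orderOf x).Coprime p := by
    intro x hx
    obtain ⟨m, hm⟩ := IsPGroup.iff_orderOf.1 hS ⟨x, hx⟩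
    rw [Subgroup.orderOf_mk] at hm
    rw [hm]
    exact Nat.Coprime.pow_left _ ((Nat.coprime_primes hq.out hp.out).2 hqp)
  have hsp := special_of_commutator_eq hp2 ha hqp hS haS hSa
  haveI : Nontrivial S := (Subgroup.nontrivial_iff_ne_bot S).2 hSbot
  haveI := hS.center_nontrivial
  obtain ⟨z, hz⟩ := exists_ne (1 : center S)
  have h1 : ((z : S) : SL2 F) ∈ S ⊓ centralizer (zpowers a : Set (SL2 F)) := by
    rw [← hsp.2]
    exact ⟨z, z.2, rfl⟩
  have h2 := pm_one_of_mem hp2 ha ha1 (hord _ h1.1) h1.2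
  have h3 : ((z : S) : SL2 F) ≠ 1 := by
    intro h
    apply hz
    apply Subtype.ext
    apply Subtype.ext
    exact h
  have h4 : ((z : S) : SL2 F) = -1 := h2.resolve_left h3
  have h5 : (-1 : SL2 F) ∈ S := by rw [← h4]; exact (z : S).2
  refine ⟨h5, ?_⟩
  obtain ⟨m, hm⟩ := IsPGroup.iff_orderOf.1 hS ⟨-1, h5⟩
  rw [Subgroup.orderOf_mk] at hm
  have h6 : orderOf (-1 : SL2 F) = 2 := by
    apply orderOf_eq_prime
    · simp
    · exact (sl2_one_ne_neg_one (two_ne_zero_of_char hp2)).symm
  rw [h6] at hm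
  have h7 : q ∣ 2 := by
    rw [hm]
    apply dvd_pow_self
    rintro rfl
    simp at hm
  exact (Nat.prime_dvd_prime_iff_eq hq.out Nat.prime_two).1 h7

/-- `R` is a special 2-group with `R = [R, a]` and `C_R(a) ≤ ±1`. -/
theorem R_structure (hp2 : p ≠ 2) {a : SL2 F} {k : ℕ} (ha : a ^ p ^ k = 1) (ha1 : a ≠ 1)
    {R : Subgroup (SL2 F)} (hR : (Nat.card R).Coprime p) (haR : zpowers a ≤ normalizer (R : Set (SL2 F)))
    (hnt : ⁅R, zpowers a⁆ ≠ ⊥) :
    IsPGroup 2 R ∧ ⁅R, zpowers a⁆ = R ∧ (-1 : SL2 F) ∈ R := by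
  have hord : ∀ x ∈ R, (orderOf x).Coprime p := by
    intro x hx
    refine Nat.Coprime.coprime_dvd_left ?_ hR
    rw [← Subgroup.orderOf_mk x hx]
    exact orderOf_dvd_natCard _
  have hsolvA : Group.IsSolvable (zpowers a) := by
    have : IsCyclic (zpowers a) := inferInstance
    letI := IsCyclic.commGroup (α := zpowers a)
    infer_instance
  have hAcard : Nat.card (zpowers a) ∣ p ^ k := by
    rw [Nat.card_zpowers]; exact orderOf_dvd_of_pow_eq_one ha
  have hcopR : (Nat.card (zpowers a)).Coprime (Nat.card R) :=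
    Nat.Coprime.coprime_dvd_left hAcard (Nat.Coprime.pow_left _ hR.symm)
  have hR2 : IsPGroup 2 R := by
    have key : ∀ {q : ℕ}, q.Prime → q ∣ Nat.card R → q = 2 := by
      intro q hq hqR
      haveI : Fact q.Prime := ⟨hq⟩
      by_contra hq2
      have hqp : q ≠ p := by
        rintro rfl
        have h1 : q ∣ 1 := by
          rw [← hR.gcd_eq_one]
          exact Nat.dvd_gcd hqR dvd_rfl
        exact hq.one_lt.ne' (Nat.dvd_one.1 h1)
      obtain ⟨P, hP⟩ := Cop.exists_invariant_sylow haR hcopR (Or.inl hsolvA) q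
      set T := (P : Subgroup R).map R.subtype with hT
      have hTR : T ≤ R := Subgroup.map_subtype_le _
      have hTq : IsPGroup q T := P.isPGroup'.map _
      have hcopT : (Nat.card (zpowers a)).Coprime (Nat.card T) :=
        Nat.Coprime.coprime_dvd_right (Subgroup.card_dvd_of_le hTR) hcopR
      have hTbot : T ≠ ⊥ := by
        intro h
        have h1 : (P : Subgroup R) = ⊥ := by
          rwa [hT, Subgroup.map_eq_bot_iff_of_injective _ R.subtype_injective] at h
        exact P.ne_bot_of_dvd_card hqR h1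
      by_cases hS : ⁅T, zpowers a⁆ = ⊥
      · rw [commutator_eq_bot_iff_le_centralizer] at hS
        obtain ⟨x, hxT, hx1⟩ := T.bot_or_exists_ne_one.resolve_left hTbot
        rcases pm_one_of_mem hp2 ha ha1 (hord x (hTR hxT)) (hS hxT) with h | h
        · exact hx1 h
        · obtain ⟨m, hm⟩ := IsPGroup.iff_orderOf.1 hTq ⟨x, hxT⟩
          rw [Subgroup.orderOf_mk, h] at hm
          have h6 : orderOf (-1 : SL2 F) = 2 := by
            apply orderOf_eq_prime
            · simp
            · exact (sl2_one_ne_neg_one (two_ne_zero_of_char hp2)).symm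
          rw [h6] at hm
          have h7 : q ∣ 2 := by
            rw [hm]
            apply dvd_pow_self
            rintro rfl
            simp at hm
          exact hq2 ((Nat.prime_dvd_prime_iff_eq hq Nat.prime_two).1 h7)
      · have hSle : ⁅T, zpowers a⁆ ≤ T := le_normalizer_iff_commutator_le_left.1 hP
        exact hq2 (exists_center_of_commutator_eq hp2 ha ha1 hqp (hTq.to_le hSle)
          (normalizer_commutator_ge_right T (zpowers a))
          (Cop.commutator_commutator_eq hP hcopT (Or.inl hsolvA)) hS).2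
    exact IsPGroup.of_card (Nat.eq_prime_pow_of_unique_prime_dvd Nat.card_pos.ne' key)
  have hSle : ⁅R, zpowers a⁆ ≤ R := le_normalizer_iff_commutator_le_left.1 haR
  have h1 := exists_center_of_commutator_eq hp2 ha ha1 (q := 2) hp2.symm (hR2.to_le hSle)
          (normalizer_commutator_ge_right R (zpowers a))
          (Cop.commutator_commutator_eq haR hcopR (Or.inl hsolvA)) hnt
  refine ⟨hR2, ?_, hSle h1.1⟩
  apply le_antisymm hSle
  conv_lhs => rw [← Cop.commutator_sup_centralizer haR hcopR (Or.inl hsolvA)]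
  refine sup_le le_rfl ?_
  intro x hx
  rcases pm_one_of_mem hp2 ha ha1 (hord x hx.1) hx.2 with h | h
  · rw [h]; exact one_mem _
  · rw [h]; exact h1.1

/-- The final computation. -/
theorem exists_quat_elements (hp2 : p ≠ 2) {a : SL2 F} {k : ℕ} (ha : a ^ p ^ k = 1) (ha1 : a ≠ 1)
    {R : Subgroup (SL2 F)} (hR : (Nat.card R).Coprime p) (haR : zpowers a ≤ normalizer (R : Set (SL2 F)))
    (hnt : ⁅R, zpowers a⁆ ≠ ⊥) :
    ∃ s t : SL2 F, s * s = -1 ∧ t * t = -1 ∧ t * s = -(s * t) ∧ a * s * a⁻¹ = t ∧ a * t * a⁻¹ = s * t ∧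
      R = closure {s, t} := by
  obtain ⟨hR2, hRa, hm1⟩ := R_structure hp2 ha ha1 hR haR hnt
  have h20 := two_ne_zero_of_char (F := F) hp2
  have hord : ∀ x ∈ R, (orderOf x).Coprime p := by
    intro x hx
    refine Nat.Coprime.coprime_dvd_left ?_ hR
    rw [← Subgroup.orderOf_mk x hx]
    exact orderOf_dvd_natCard _
  haveI : Fact (Nat.Prime 2) := ⟨Nat.prime_two⟩
  obtain ⟨hsp, hcen⟩ := special_of_commutator_eq hp2 ha (q := 2) hp2.symm hR2 haR hRa
  have hpm : ∀ x : R, x ∈ center R → (x : SL2 F) = 1 ∨ (x : SL2 F) = -1 := by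
    intro x hx
    have h1 : (x : SL2 F) ∈ R ⊓ centralizer (zpowers a : Set (SL2 F)) := by
      rw [← hcen]; exact ⟨x, hx, rfl⟩
    exact pm_one_of_mem hp2 ha ha1 (hord _ x.2) h1.2
  have hsq : ∀ x ∈ R, x * x = 1 ∨ x * x = -1 := by
    intro x hx
    have h1 : (⟨x, hx⟩ : R) ^ 2 ∈ center R := by
      rw [← hsp.2.1]
      exact Solv.pow_mem_frattini_of_pGroup hR2 _
    have := hpm _ h1
    simpa [sq] using this
  have hsq' : ∀ x ∈ R, x ≠ 1 → x ≠ -1 → x * x = -1 := by
    intro x hx h1 h2
    rcases hsq x hx with h | h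
    · exfalso
      rcases eq_one_or_neg_one_of_sq h20 h with h3 | h3
      · exact h1 h3
      · exact h2 h3
    · exact h
  have hcomm : ∀ x ∈ R, ∀ y ∈ R, x * y = y * x ∨ x * y = -(y * x) := by
    intro x hx y hy
    have h1 : ⁅(⟨x, hx⟩ : R), ⟨y, hy⟩⁆ ∈ center R := by
      rw [← hsp.2.2, _root_.commutator_def]
      exact commutator_mem_commutator (mem_top _) (mem_top _)
    have h2 := hpm _ h1
    have h3 : ((⁅(⟨x, hx⟩ : R), ⟨y, hy⟩⁆ : R) : SL2 F) = x * y * x⁻¹ * y⁻¹ := rfl
    rw [h3] at h2
    rcases h2 with h | h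
    · left
      calc x * y = x * y * x⁻¹ * y⁻¹ * (y * x) := by group
        _ = y * x := by rw [h, one_mul]
    · right
      calc x * y = x * y * x⁻¹ * y⁻¹ * (y * x) := by group
        _ = -(y * x) := by rw [h]; simp
  have hK2 : ∀ s ∈ R, ∀ j ∈ R, s ≠ 1 → s ≠ -1 → j ≠ 1 → j ≠ -1 → s * j = j * s → j = s ∨ j = -s := by
    intro s hs j hj h1 h2 h3 h4 h5
    have h6 : s * s = -1 := hsq' s hs h1 h2
    have h7 : j * j = -1 := hsq' j hj h3 h4
    have h8 : (s * j) * (s * j) = 1 := by
      calc (s * j) * (s * j) = s * (j * s) * j := by group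
        _ = (s * s) * (j * j) := by rw [← h5]; group
        _ = 1 := by rw [h6, h7]; simp
    rcases eq_one_or_neg_one_of_sq h20 h8 with h9 | h9
    · right
      have : (s * s) * j = s := by rw [mul_assoc, h9, mul_one]
      rw [h6] at this
      rw [← this]; simp
    · left
      have : (s * s) * j = -s := by rw [mul_assoc, h9]; simp
      rw [h6] at this
      simpa using this
  have hodd := odd_orderOf hp2 ha
  -- powers of two of `a`
  have hpow2 : ∀ (x : SL2 F) (n : ℕ), a ^ 2 ^ n * x = x * a ^ 2 ^ n → a * x = x * a := by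
    intro x n hx
    have h1 : (orderOf a).Coprime (2 ^ n) := Nat.Coprime.pow_right n (Nat.coprime_two_right.2 hodd)
    obtain ⟨m, hm⟩ := exists_pow_eq_self_of_coprime (x := a) h1.symm
    have h2 : Commute (a ^ 2 ^ n) x := hx
    rw [← hm]
    exact h2.pow_left m
  have hcen' : ∀ x ∈ R, a * x = x * a → x = 1 ∨ x = -1 := by
    intro x hx hxa
    apply eq_pm_one_of_commute (p := p) h20 (hord x hx) ha ha1 hxa.symm
  obtain ⟨s, hsR, hs⟩ : ∃ s ∈ R, a * s ≠ s * a := by
    by_contra hcon
    push Not at hcon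
    apply hnt
    rw [commutator_eq_bot_iff_le_centralizer]
    intro x hx
    rw [mem_centralizer_iff]
    rintro _ ⟨n, rfl⟩
    have : Commute a x := hcon x hx
    exact (this.zpow_left n).eq
  have hs1 : s ≠ 1 := by rintro rfl; simp at hs
  have hs2 : s ≠ -1 := by rintro rfl; simp at hs
  have haR' : ∀ x ∈ R, a * x * a⁻¹ ∈ R := fun x hx =>
    (mem_normalizer_iff.1 (haR (mem_zpowers a)) x).1 hx
  have step : ∀ s ∈ R, a * s ≠ s * a → (a * s * a⁻¹) * s = -(s * (a * s * a⁻¹)) := by
    intro s hsR hs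
    have hs1 : s ≠ 1 := by rintro rfl; simp at hs
    have hs2 : s ≠ -1 := by rintro rfl; simp at hs
    have ht1 : a * s * a⁻¹ ≠ 1 := by
      intro h; apply hs1; rw [mul_inv_eq_one] at h; exact mul_eq_left.1 h
    have ht2 : a * s * a⁻¹ ≠ -1 := by
      intro h; apply hs2
      have : s = a⁻¹ * (a * s * a⁻¹) * a := by group
      rw [this, h]; simp
    rcases hcomm _ (haR' s hsR) s hsR with h | h
    · exfalso
      rcases hK2 s hsR _ (haR' s hsR) hs1 hs2 ht1 ht2 h.symm with h1 | h1
      · exact hs (mul_inv_eq_iff_eq_mul.1 h1)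
      · apply hs
        apply hpow2 s 1
        rw [pow_one, sq]
        have h2 : a * a * s * (a * a)⁻¹ = s := by
          have : a * a * s * (a * a)⁻¹ = a * (a * s * a⁻¹) * a⁻¹ := by group
          rw [this, h1]
          have : a * -s * a⁻¹ = -(a * s * a⁻¹) := by simp
          rw [this, h1, neg_neg]
        exact mul_inv_eq_iff_eq_mul.1 h2
    · exact h
  set t := a * s * a⁻¹ with ht
  have htR : t ∈ R := haR' s hsR
  have hts : t * s = -(s * t) := step s hsR hs
  have hta : a * t ≠ t * a := by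
    intro h
    apply hs
    have : t = s := by
      have h1 : s = a⁻¹ * t * a := by rw [ht]; group
      rw [h1, mul_assoc, ← h]; group
    rw [this] at h
    exact h
  set u := a * t * a⁻¹ with hu
  have huR : u ∈ R := haR' t htR
  have hut : u * t = -(t * u) := step t htR hta
  have ht1 : t ≠ 1 := by
    intro h; apply hta; rw [h]; simp
  have ht2 : t ≠ -1 := by
    intro h; apply hta; rw [h]; simp
  have hua : a * u ≠ u * a := by
    intro h
    apply hta
    have : u = t := by
      have h1 : t = a⁻¹ * u * a := by rw [hu]; group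
      rw [h1, mul_assoc, ← h]; group
    rw [this] at h
    exact h
  have hu1 : u ≠ 1 := by
    intro h; apply hua; rw [h]; simp
  have hu2 : u ≠ -1 := by
    intro h; apply hua; rw [h]; simp
  have hss : s * s = -1 := hsq' s hsR hs1 hs2
  have htt : t * t = -1 := hsq' t htR ht1 ht2
  have hus : u * s = -(s * u) := by
    rcases hcomm u huR s hsR with h | h
    · exfalso
      have h1 : a ^ 2 * s * (a ^ 2)⁻¹ = u := by rw [hu, ht, sq]; group
      rcases hK2 s hsR u huR hs1 hs2 hu1 hu2 h.symm with h2 | h2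
      · apply hs
        apply hpow2 s 1
        rw [pow_one]
        rw [h2] at h1
        exact mul_inv_eq_iff_eq_mul.1 h1
      · apply hs
        apply hpow2 s 2
        rw [h2] at h1
        have h3 : a ^ 2 ^ 2 * s * (a ^ 2 ^ 2)⁻¹ = s := by
          have : a ^ 2 ^ 2 * s * (a ^ 2 ^ 2)⁻¹ = a ^ 2 * (a ^ 2 * s * (a ^ 2)⁻¹) * (a ^ 2)⁻¹ := by group
          rw [this, h1]
          have : a ^ 2 * -s * (a ^ 2)⁻¹ = -(a ^ 2 * s * (a ^ 2)⁻¹) := by simp
          rw [this, h1, neg_neg]
        exact mul_inv_eq_iff_eq_mul.1 h3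
    · exact h
  have hst_ne : s * t ≠ t * s := by
    intro h
    rw [hts] at h
    have h1 : (1 : SL2 F) = -1 := by
      have h2 : (s * t) * (s * t)⁻¹ = -(s * t) * (s * t)⁻¹ := by rw [← h]
      rw [neg_mul, mul_inv_cancel] at h2
      exact h2
    exact sl2_one_ne_neg_one h20 h1
  -- elements of `R` anticommuting with both `s` and `t`
  have key : ∀ r ∈ R, r * s = -(s * r) → r * t = -(t * r) → r = s * t ∨ r = -(s * t) := by
    intro r hr h1 h2
    have hw : r * (s * t) ∈ R := R.mul_mem hr (R.mul_mem hsR htR)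
    have h3 : s * (r * (s * t)) = (r * (s * t)) * s := by
      have e1 : s * r = -(r * s) := by rw [h1, neg_neg]
      have e2 : t * s = -(s * t) := hts
      calc s * (r * (s * t)) = (s * r) * (s * t) := by group
        _ = -(r * (s * (s * t))) := by rw [e1]; simp [mul_assoc]
        _ = r * (s * (t * s)) := by rw [e2]; simp
        _ = (r * (s * t)) * s := by group
    have h4 : t * (r * (s * t)) = (r * (s * t)) * t := by
      have e1 : t * r = -(r * t) := by rw [h2, neg_neg]
      calc t * (r * (s * t)) = (t * r) * (s * t) := by group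
        _ = -(r * ((t * s) * t)) := by rw [e1]; simp [mul_assoc]
        _ = (r * (s * t)) * t := by rw [hts]; simp [mul_assoc]
    have h5 : r * (s * t) = 1 ∨ r * (s * t) = -1 := by
      by_contra hcon
      push Not at hcon
      have h6 := hK2 s hsR _ hw hs1 hs2 hcon.1 hcon.2 h3
      have h7 := hK2 t htR _ hw ht1 ht2 hcon.1 hcon.2 h4
      apply hst_ne
      have h8 : s = r * (s * t) ∨ s = -(r * (s * t)) := by
        rcases h6 with h | h
        · exact Or.inl h.symm
        · right; rw [h, neg_neg]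
      rcases h8 with h | h
      · rw [h]; rw [h] at h4 ⊢
        exact h4.symm
      · have : s * t = -((r * (s * t)) * t) := by conv_lhs => rw [h]; simp
        have h9 : t * s = -(t * (r * (s * t))) := by conv_lhs => rw [h]; simp
        rw [this, h9, h4]
    have hst2 : (s * t) * (s * t) = -1 := by
      calc (s * t) * (s * t) = s * (t * s) * t := by group
        _ = -((s * s) * (t * t)) := by rw [hts]; simp [mul_assoc]
        _ = -1 := by rw [hss, htt]; simp
    rcases h5 with h | h
    · right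
      calc r = -(r * ((s * t) * (s * t))) := by rw [hst2]; simp
        _ = -((r * (s * t)) * (s * t)) := by simp [mul_assoc]
        _ = -(s * t) := by rw [h, one_mul]
    · left
      calc r = -(r * ((s * t) * (s * t))) := by rw [hst2]; simp
        _ = -((r * (s * t)) * (s * t)) := by simp [mul_assoc]
        _ = s * t := by rw [h]; simp
  -- all elements
  have hall : ∀ r ∈ R, r ∈ closure {s, t} := by
    intro r hr
    have hsc : s ∈ closure {s, t} := subset_closure (by simp)
    have htc : t ∈ closure {s, t} := subset_closure (by simp)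
    have hm : (-1 : SL2 F) ∈ closure {s, t} := by rw [← hss]; exact mul_mem hsc hsc
    have hneg : ∀ x ∈ closure {s, t}, -x ∈ closure {s, t} := by
      intro x hx
      have : -x = (-1) * x := by simp
      rw [this]; exact mul_mem hm hx
    by_cases hr1 : r = 1
    · rw [hr1]; exact one_mem _
    by_cases hr2 : r = -1
    · rw [hr2]; exact hm
    rcases hcomm r hr s hsR with h | h
    · rcases hK2 s hsR r hr hs1 hs2 hr1 hr2 h.symm with h1 | h1
      · rw [h1]; exact hsc
      · rw [h1]; exact hneg _ hsc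
    · rcases hcomm r hr t htR with h' | h'
      · rcases hK2 t htR r hr ht1 ht2 hr1 hr2 h'.symm with h1 | h1
        · rw [h1]; exact htc
        · rw [h1]; exact hneg _ htc
      · rcases key r hr h h' with h1 | h1
        · rw [h1]; exact mul_mem hsc htc
        · rw [h1]; exact hneg _ (mul_mem hsc htc)
  have hRcl : R = closure {s, t} := by
    apply le_antisymm hall
    rw [closure_le]
    rintro x (rfl | rfl)
    · exact hsR
    · exact htR
  rcases key u huR hus hut with h | h
  · exact ⟨s, t, hss, htt, hts, rfl, h, hRcl⟩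
  · refine ⟨-s, -t, by simpa using hss, by simpa using htt, by simpa using hts, ?_, ?_, ?_⟩
    · rw [ht]; simp
    · have : a * -t * a⁻¹ = -u := by rw [hu]; simp
      rw [this, h]; simp
    · rw [hRcl]
      apply le_antisymm
      · rw [closure_le]
        have h1 : (-s) * (-s) = -1 := by simpa using hss
        have hsc : -s ∈ closure {-s, -t} := subset_closure (by simp)
        have htc : -t ∈ closure {-s, -t} := subset_closure (by simp)
        have hm : (-1 : SL2 F) ∈ closure {-s, -t} := by rw [← h1]; exact mul_mem hsc hsc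
        rintro x (rfl | rfl)
        · have h := mul_mem hm hsc
          rwa [neg_mul_neg, one_mul] at h
        · have h := mul_mem hm htc
          rwa [neg_mul_neg, one_mul] at h
      · rw [closure_le]
        have hsc : s ∈ closure {s, t} := subset_closure (by simp)
        have htc : t ∈ closure {s, t} := subset_closure (by simp)
        have hm : (-1 : SL2 F) ∈ closure {s, t} := by rw [← hss]; exact mul_mem hsc hsc
        rintro x (rfl | rfl)
        · have : -s = (-1) * s := by simp
          rw [SetLike.mem_coe, this]; exact mul_mem hm hsc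
        · have : -t = (-1) * t := by simp
          rw [SetLike.mem_coe, this]; exact mul_mem hm htc

end Cfsg.Agent.H62
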