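import Mathlib

set_option autoImplicit false

/-!
Elementary facts on elements of `SL₂(F)` in odd characteristic.
-/

namespace Cfsg.Agent.H62

open Matrix

variable {F : Type*} [Field F]

abbrev SL2 (F : Type*) [Field F] := Matrix.SpecialLinearGroup (Fin 2) F

/-- trace -/
def tr (x : SL2 F) : F := x.1 0 0 + x.1 1 1

theorem det_eq (x : SL2 F) : x.1 0 0 * x.1 1 1 - x.1 0 1 * x.1 1 0 = 1 := by
  have := x.2
  rwa [Matrix.det_fin_two] at this

theorem sl2_ext {x y : SL2 F} (h1 : x.1 0 0 = y.1 0 0) (h2 : x.1 0 1 = y.1 0 1)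
    (h3 : x.1 1 0 = y.1 1 0) (h4 : x.1 1 1 = y.1 1 1) : x = y := by
  apply Subtype.ext
  ext i j
  fin_cases i <;> fin_cases j <;> assumption

theorem mul_00 (x y : SL2 F) : (x * y).1 0 0 = x.1 0 0 * y.1 0 0 + x.1 0 1 * y.1 1 0 := by
  change (x.1 * y.1) 0 0 = _
  rw [Matrix.mul_apply, Fin.sum_univ_two]
theorem mul_01 (x y : SL2 F) : (x * y).1 0 1 = x.1 0 0 * y.1 0 1 + x.1 0 1 * y.1 1 1 := by
  change (x.1 * y.1) 0 1 = _
  rw [Matrix.mul_apply, Fin.sum_univ_two]
theorem mul_10 (x y : SL2 F) : (x * y).1 1 0 = x.1 1 0 * y.1 0 0 + x.1 1 1 * y.1 1 0 := by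
  change (x.1 * y.1) 1 0 = _
  rw [Matrix.mul_apply, Fin.sum_univ_two]
theorem mul_11 (x y : SL2 F) : (x * y).1 1 1 = x.1 1 0 * y.1 0 1 + x.1 1 1 * y.1 1 1 := by
  change (x.1 * y.1) 1 1 = _
  rw [Matrix.mul_apply, Fin.sum_univ_two]

theorem inv_00 (x : SL2 F) : (x⁻¹).1 0 0 = x.1 1 1 := by
  rw [Matrix.SpecialLinearGroup.coe_inv, Matrix.adjugate_fin_two]; rfl
theorem inv_01 (x : SL2 F) : (x⁻¹).1 0 1 = - x.1 0 1 := by
  rw [Matrix.SpecialLinearGroup.coe_inv, Matrix.adjugate_fin_two]; rfl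
theorem inv_10 (x : SL2 F) : (x⁻¹).1 1 0 = - x.1 1 0 := by
  rw [Matrix.SpecialLinearGroup.coe_inv, Matrix.adjugate_fin_two]; rfl
theorem inv_11 (x : SL2 F) : (x⁻¹).1 1 1 = x.1 0 0 := by
  rw [Matrix.SpecialLinearGroup.coe_inv, Matrix.adjugate_fin_two]; rfl

theorem one_00 : (1 : SL2 F).1 0 0 = 1 := by simp
theorem one_01 : (1 : SL2 F).1 0 1 = 0 := by simp
theorem one_10 : (1 : SL2 F).1 1 0 = 0 := by simp
theorem one_11 : (1 : SL2 F).1 1 1 = 1 := by simp

theorem tr_conj (a x : SL2 F) : tr (a * x * a⁻¹) = tr x := by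
  have ha := det_eq a
  simp only [tr, mul_00, mul_01, mul_10, mul_11, inv_00, inv_01, inv_10, inv_11]
  linear_combination (x.1 0 0 + x.1 1 1) * ha

/-- Cayley–Hamilton -/
theorem tr_two_sq (x : SL2 F) (h : tr x = 2) : (x.1 - 1) * (x.1 - 1) = 0 := by
  have hd := det_eq x
  unfold tr at h
  ext i j
  fin_cases i <;> fin_cases j <;> simp [Matrix.mul_apply, Fin.sum_univ_two] <;>
    [linear_combination (x.1 0 0) * h - hd; linear_combination (x.1 0 1) * h;
      linear_combination (x.1 1 0) * h; linear_combination (x.1 1 1) * h - hd]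

theorem commute_eqs {x y : SL2 F} (h : x * y = y * x) :
    x.1 0 1 * y.1 1 0 = x.1 1 0 * y.1 0 1 ∧
    y.1 0 1 * (x.1 0 0 - x.1 1 1) = x.1 0 1 * (y.1 0 0 - y.1 1 1) ∧
    y.1 1 0 * (x.1 0 0 - x.1 1 1) = x.1 1 0 * (y.1 0 0 - y.1 1 1) := by
  have h00 := congrArg (fun z : SL2 F => z.1 0 0) h
  have h01 := congrArg (fun z : SL2 F => z.1 0 1) h
  have h10 := congrArg (fun z : SL2 F => z.1 1 0) h
  simp only [mul_00, mul_01, mul_10] at h00 h01 h10
  refine ⟨by linear_combination h00, by linear_combination h01, by linear_combination -h10⟩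

/-- commuting elements of the same trace -/
theorem eq_or_inv_of_commute (h2 : (2 : F) ≠ 0) {x y : SL2 F} (h : x * y = y * x) (ht : tr x = tr y) :
    y = x ∨ y = x⁻¹ ∨ tr x ^ 2 = 4 := by
  obtain ⟨e1, e2, e3⟩ := commute_eqs h
  have hx := det_eq x
  have hy := det_eq y
  unfold tr at ht
  by_cases hD : tr x ^ 2 = 4
  · exact Or.inr (Or.inr hD)
  set a := x.1 0 0
  set b := x.1 0 1
  set c := x.1 1 0
  set d := x.1 1 1
  set e := y.1 0 0
  set f := y.1 0 1
  set g := y.1 1 0
  set k := y.1 1 1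
  have hD' : (a + d) ^ 2 - 4 ≠ 0 := sub_ne_zero.2 hD
  set D := (a + d) ^ 2 - 4 with hDdef
  have hDu : (a - d) ^ 2 + 4 * b * c = D := by rw [hDdef]; linear_combination -4 * hx
  have hDv : (e - k) ^ 2 + 4 * f * g = D := by
    rw [hDdef, ht]; linear_combination -4 * hy
  set l := ((e - k) * (a - d) + 4 * f * c) / D with hl
  have hlD : l * D = (e - k) * (a - d) + 4 * f * c := div_mul_cancel₀ _ hD'
  have hf : f = l * b := by
    apply mul_right_cancel₀ hD'
    rw [← hDu]
    have : l * b * ((a - d) ^ 2 + 4 * b * c) = b * (l * D) := by rw [hDu]; ring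
    rw [this, hlD]
    linear_combination (a - d) * e2
  have hg : g = l * c := by
    apply mul_right_cancel₀ hD'
    rw [← hDu]
    have : l * c * ((a - d) ^ 2 + 4 * b * c) = c * (l * D) := by rw [hDu]; ring
    rw [this, hlD]
    linear_combination (a - d) * e3 + 4 * c * e1
  have hv : (e - k) = l * (a - d) := by
    apply mul_right_cancel₀ hD'
    rw [← hDu]
    have : l * (a - d) * ((a - d) ^ 2 + 4 * b * c) = (a - d) * (l * D) := by rw [hDu]; ring
    rw [this, hlD]
    linear_combination -4 * c * e2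
  have hl2 : l ^ 2 = 1 := by
    apply mul_right_cancel₀ hD'
    rw [one_mul]
    conv_rhs => rw [← hDv, hv, hf, hg]
    rw [← hDu]; ring
  rcases (mul_self_eq_one_iff (a := l)).1 (by rw [← sq]; exact hl2) with h1 | h1
  · left
    rw [h1, one_mul] at hf hg hv
    have hek : e = a := by
      apply mul_left_cancel₀ h2
      linear_combination hv - ht
    apply sl2_ext hek hf hg
    linear_combination -ht - hek
  · right; left
    rw [h1] at hf hg hv
    have hek : e = d := by
      apply mul_left_cancel₀ h2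
      linear_combination hv - ht
    apply sl2_ext
    · rw [inv_00]; exact hek
    · rw [inv_01]; linear_combination hf
    · rw [inv_10]; linear_combination hg
    · rw [inv_11]; linear_combination -ht - hek

/-- an element commuting with a nontrivial unipotent has trace `±2` -/
theorem tr_sq_of_commute_unipotent {x a : SL2 F} (h : x * a = a * x) (ha : tr a = 2) (ha1 : a ≠ 1)
    (h2 : (2 : F) ≠ 0) : tr x ^ 2 = 4 := by
  obtain ⟨e1, e2, e3⟩ := commute_eqs h
  have hx := det_eq x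
  have hy := det_eq a
  unfold tr at ha ⊢
  have hDv : (a.1 0 0 - a.1 1 1) ^ 2 + 4 * a.1 0 1 * a.1 1 0 = 0 := by
    linear_combination -4 * hy + (a.1 0 0 + a.1 1 1 + 2) * ha
  have hgoal : (x.1 0 0 - x.1 1 1) ^ 2 + 4 * x.1 0 1 * x.1 1 0 = 0 := by
    by_cases hf : a.1 0 1 = 0
    · by_cases hg : a.1 1 0 = 0
      · exfalso
        apply ha1
        have hv : a.1 0 0 - a.1 1 1 = 0 := by
          have : (a.1 0 0 - a.1 1 1) ^ 2 = 0 := by rw [hf] at hDv; linear_combination hDv
          exact pow_eq_zero_iff (two_ne_zero) |>.1 this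
        have h00 : a.1 0 0 = 1 := by
          apply mul_left_cancel₀ h2
          linear_combination hv + ha
        apply sl2_ext
        · rw [one_00]; exact h00
        · rw [one_01]; exact hf
        · rw [one_10]; exact hg
        · rw [one_11]; linear_combination ha - h00
      · have hg2 : a.1 1 0 ^ 2 ≠ 0 := pow_ne_zero 2 hg
        apply mul_left_cancel₀ hg2
        rw [mul_zero]
        linear_combination (a.1 1 0 * (x.1 0 0 - x.1 1 1) + x.1 1 0 * (a.1 0 0 - a.1 1 1)) * e3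
          + 4 * x.1 1 0 * a.1 1 0 * e1 + x.1 1 0 ^ 2 * hDv
    · have hf2 : a.1 0 1 ^ 2 ≠ 0 := pow_ne_zero 2 hf
      apply mul_left_cancel₀ hf2
      rw [mul_zero]
      linear_combination (a.1 0 1 * (x.1 0 0 - x.1 1 1) + x.1 0 1 * (a.1 0 0 - a.1 1 1)) * e2
          - 4 * x.1 0 1 * a.1 0 1 * e1 + x.1 0 1 ^ 2 * hDv
  linear_combination hgoal + 4 * hx

theorem eq_one_or_neg_one_of_sq (h2 : (2 : F) ≠ 0) {x : SL2 F} (h : x * x = 1) : x = 1 ∨ x = -1 := by
  have hinv : x = x⁻¹ := eq_inv_of_mul_eq_one_left h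
  have hd := det_eq x
  have e1 : x.1 0 0 = x.1 1 1 := by conv_lhs => rw [hinv, inv_00]
  have e2 : x.1 0 1 = 0 := by
    have : x.1 0 1 = - x.1 0 1 := by conv_lhs => rw [hinv, inv_01]
    apply mul_left_cancel₀ h2
    linear_combination this
  have e3 : x.1 1 0 = 0 := by
    have : x.1 1 0 = - x.1 1 0 := by conv_lhs => rw [hinv, inv_10]
    apply mul_left_cancel₀ h2
    linear_combination this
  have e4 : x.1 0 0 * x.1 0 0 = 1 := by
    rw [e2, ← e1] at hd
    linear_combination hd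
  rcases mul_self_eq_one_iff.1 e4 with h1 | h1
  · left
    apply sl2_ext
    · rw [one_00]; exact h1
    · rw [one_01]; exact e2
    · rw [one_10]; exact e3
    · rw [one_11, ← e1]; exact h1
  · right
    apply sl2_ext
    · simp [h1]
    · simp [e2]
    · simp [e3]
    · simp [← e1, h1]

section Char

variable {p : ℕ} [hp : Fact p.Prime] [CharP F p]

theorem tr_eq_two_of_pow {a : SL2 F} {k : ℕ} (h : a ^ p ^ k = 1) : tr a = 2 := by
  have h1 : (a.1 - 1) ^ p ^ k = 0 := by
    rw [sub_pow_char_pow_of_commute p k (Commute.one_right _), one_pow]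
    have := congrArg (fun z : SL2 F => z.1) h
    simp only [Matrix.SpecialLinearGroup.coe_pow, Matrix.SpecialLinearGroup.coe_one] at this
    rw [this, sub_self]
  have h2 := Matrix.isNilpotent_trace_of_isNilpotent ⟨_, h1⟩
  have h3 := h2.eq_zero
  rw [Matrix.trace_fin_two] at h3
  simp at h3
  unfold tr
  linear_combination h3

theorem pow_p_of_tr_eq_two {a : SL2 F} (h : tr a = 2) : a ^ p = 1 := by
  have h1 : (a.1 - 1) ^ p = 0 := by
    obtain ⟨k, hk⟩ : ∃ k, p = k + 2 := ⟨p - 2, by have := hp.out.two_le; omega⟩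
    rw [hk, pow_add, sq, tr_two_sq a h, mul_zero]
  rw [sub_pow_char_of_commute _ (Commute.one_right _), one_pow, sub_eq_zero] at h1
  apply Subtype.ext
  simpa using h1

theorem eq_pm_one_of_tr (h2 : (2 : F) ≠ 0) {x : SL2 F} (hx : (orderOf x).Coprime p) (ht : tr x ^ 2 = 4) :
    x = 1 ∨ x = -1 := by
  have h1 : (tr x - 2) * (tr x + 2) = 0 := by linear_combination ht
  have key : (x * x) ^ p = 1 := by
    rcases mul_eq_zero.1 h1 with h | h
    · have := pow_p_of_tr_eq_two (p := p) (sub_eq_zero.1 h)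
      rw [← sq, ← pow_mul, mul_comm, pow_mul, this, one_pow]
    · have h3 : tr (-x) = 2 := by
        unfold tr at h ⊢
        simp only [Matrix.SpecialLinearGroup.coe_neg, Matrix.neg_apply]
        linear_combination -h
      have := pow_p_of_tr_eq_two (p := p) h3
      have h4 : (-x) * (-x) = x * x := by simp
      rw [← h4, ← sq, ← pow_mul, mul_comm, pow_mul, this, one_pow]
  apply eq_one_or_neg_one_of_sq h2
  have h5 : orderOf (x * x) ∣ p := orderOf_dvd_of_pow_eq_one key
  have h6 : orderOf (x * x) ∣ orderOf x := by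
    rw [← sq]; exact orderOf_pow_dvd 2
  have h7 : orderOf (x * x) ∣ 1 := by
    rw [← hx.gcd_eq_one]
    exact Nat.dvd_gcd h6 h5
  exact orderOf_eq_one_iff.1 (Nat.dvd_one.1 h7)

/-- if `x` is a `p'`-element commuting with its conjugate under an odd order element `a`, then
`a` commutes with `x`. -/
theorem commute_of_commute_conj (h2 : (2 : F) ≠ 0) {x a : SL2 F} (hx : (orderOf x).Coprime p)
    (ha : Odd (orderOf a)) (h : x * (a * x * a⁻¹) = (a * x * a⁻¹) * x) : a * x = x * a := by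
  rcases eq_or_inv_of_commute h2 h (tr_conj a x).symm with h1 | h1 | h1
  · exact mul_inv_eq_iff_eq_mul.1 h1
  · have h3 : a * a * x * (a * a)⁻¹ = x := by
      have : a * a * x * (a * a)⁻¹ = a * (a * x * a⁻¹) * a⁻¹ := by group
      rw [this, h1]
      have : a * x⁻¹ * a⁻¹ = (a * x * a⁻¹)⁻¹ := by group
      rw [this, h1, inv_inv]
    have h4 : Commute (a ^ 2) x := by
      rw [sq]; exact mul_inv_eq_iff_eq_mul.1 h3
    obtain ⟨k, hk⟩ := ha
    have h5 : a = (a ^ 2) ^ (k + 1) := by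
      rw [← pow_mul]
      have : 2 * (k + 1) = orderOf a + 1 := by omega
      rw [this, pow_succ, pow_orderOf_eq_one, one_mul]
    rw [h5]
    exact h4.pow_left _
  · rcases eq_pm_one_of_tr h2 hx h1 with h3 | h3 <;> rw [h3] <;> simp

theorem eq_pm_one_of_commute (h2 : (2 : F) ≠ 0) {x a : SL2 F} (hx : (orderOf x).Coprime p)
    {k : ℕ} (ha : a ^ p ^ k = 1) (ha1 : a ≠ 1) (h : x * a = a * x) : x = 1 ∨ x = -1 :=
  eq_pm_one_of_tr h2 hx (tr_sq_of_commute_unipotent h (tr_eq_two_of_pow ha) ha1 h2)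

end Char

end Cfsg.Agent.H62
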